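import Mathlib
import Cfsg.Agent.Orth.Bridge
import Cfsg.Agent.OrthCount.Orders
import Cfsg.Agent.S0250

set_option autoImplicit false
set_option linter.unusedSectionVars false
set_option linter.unusedVariables false

/-! `O_4^+(2)` is `S_3 wr 2`. -/

namespace Cfsg.Agent.H43

open Cfsg.Agent.Orth

abbrev F2 := ZMod 2
abbrev V4 := Fin 2 ⊕ Fin 2 → F2
abbrev S2 := Matrix.SpecialLinearGroup (Fin 2) F2

/-- vectors as matrices -/
def e4 : V4 ≃ₗ[F2] Matrix (Fin 2) (Fin 2) F2 where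
  toFun v := !![v (Sum.inl 0), v (Sum.inl 1); v (Sum.inr 1), v (Sum.inr 0)]
  invFun M := Sum.elim ![M 0 0, M 0 1] ![M 1 1, M 1 0]
  map_add' u v := by
    ext i j; fin_cases i <;> fin_cases j <;> rfl
  map_smul' c v := by
    ext i j; fin_cases i <;> fin_cases j <;> rfl
  left_inv v := by
    funext k
    rcases k with k | k <;> fin_cases k <;> rfl
  right_inv M := by
    ext i j; fin_cases i <;> fin_cases j <;> rfl

theorem q_eq_det (v : V4) : Cfsg.quadFormPlus 2 F2 v = (e4 v).det := by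
  have h : ∀ a b c d : F2, a * b + c * d = a * b - c * d := by decide
  rw [Matrix.det_fin_two]
  unfold Cfsg.quadFormPlus
  rw [Fin.sum_univ_two]
  exact h _ _ _ _

/-- the action of pairs -/
def act4 : S2 × S2 →* Module.End F2 V4 where
  toFun p := (e4.symm : _ →ₗ[F2] _) ∘ₗ (LinearMap.mulLeft F2 (p.1 : Matrix (Fin 2) (Fin 2) F2)) ∘ₗ
    (LinearMap.mulRight F2 ((p.2⁻¹ : S2) : Matrix (Fin 2) (Fin 2) F2)) ∘ₗ (e4 : _ →ₗ[F2] _)
  map_one' := by
    apply LinearMap.ext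
    intro v
    simp
  map_mul' p q := by
    apply LinearMap.ext
    intro v
    simp [mul_assoc]

theorem act4_apply (p : S2 × S2) (v : V4) :
    act4 p v = e4.symm ((p.1 : Matrix (Fin 2) (Fin 2) F2) * (e4 v * ((p.2⁻¹ : S2) : Matrix (Fin 2) (Fin 2) F2))) := rfl

noncomputable def act4' : S2 × S2 →* (V4 ≃ₗ[F2] V4) :=
  (LinearMap.GeneralLinearGroup.generalLinearEquiv F2 V4).toMonoidHom.comp act4.toHomUnits

theorem act4'_apply (p : S2 × S2) (v : V4) : act4' p v = act4 p v := rfl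

theorem act4_mem (p : S2 × S2) : act4' p ∈ OGrp (qfPlus 2 F2) := by
  intro v
  change Cfsg.quadFormPlus 2 F2 _ = Cfsg.quadFormPlus 2 F2 _
  rw [q_eq_det, q_eq_det, act4'_apply, act4_apply, LinearEquiv.apply_symm_apply, Matrix.det_mul, Matrix.det_mul,
    Matrix.SpecialLinearGroup.det_coe, Matrix.SpecialLinearGroup.det_coe, one_mul, mul_one]

/-- the embedding -/
noncomputable def emb4 : S2 × S2 →* ↥(Cfsg.isometryGroup F2 (Cfsg.quadFormPlus 2 F2)) :=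
  ((bridge (qfPlus 2 F2)).symm.toMonoidHom).comp (act4'.codRestrict (OGrp (qfPlus 2 F2)) act4_mem)

theorem emb4_mulVec (p : S2 × S2) (v : V4) :
    (((emb4 p : ↥(Cfsg.isometryGroup F2 (Cfsg.quadFormPlus 2 F2))) : Matrix.GeneralLinearGroup (Fin 2 ⊕ Fin 2) F2) : Matrix (Fin 2 ⊕ Fin 2) (Fin 2 ⊕ Fin 2) F2).mulVec v = act4 p v :=
  bridge_symm_mulVec (qfPlus 2 F2) _ v

theorem mat_ext {g h : ↥(Cfsg.isometryGroup F2 (Cfsg.quadFormPlus 2 F2))}
    (H : ∀ v, ((g : Matrix.GeneralLinearGroup (Fin 2 ⊕ Fin 2) F2) : Matrix (Fin 2 ⊕ Fin 2) (Fin 2 ⊕ Fin 2) F2).mulVec v = ((h : Matrix.GeneralLinearGroup (Fin 2 ⊕ Fin 2) F2) : Matrix (Fin 2 ⊕ Fin 2) (Fin 2 ⊕ Fin 2) F2).mulVec v) : g = h :=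
  Subtype.ext (Units.ext (matrix_eq_of_mulVec H))

theorem emb4_injective : Function.Injective emb4 := by
  rw [injective_iff_map_eq_one]
  rintro ⟨g, h⟩ hp
  have h1 : ∀ v, act4 (g, h) v = v := by
    intro v
    rw [← emb4_mulVec, hp]
    exact Matrix.one_mulVec v
  have h2 : ∀ M : Matrix (Fin 2) (Fin 2) F2, (g : Matrix (Fin 2) (Fin 2) F2) * (M * ((h⁻¹ : S2) : Matrix (Fin 2) (Fin 2) F2)) = M := by
    intro M
    have := h1 (e4.symm M)
    rw [act4_apply, LinearEquiv.apply_symm_apply] at this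
    exact e4.symm.injective this
  have h3 : g = h := by
    have := h2 1
    rw [one_mul] at this
    have h4 : g * h⁻¹ = 1 := Subtype.ext this
    exact mul_inv_eq_one.1 h4
  subst h3
  have h4 : ∀ M : Matrix (Fin 2) (Fin 2) F2, (g : Matrix (Fin 2) (Fin 2) F2) * M = M * (g : Matrix (Fin 2) (Fin 2) F2) := by
    intro M
    have := congrArg (fun z => z * (g : Matrix (Fin 2) (Fin 2) F2)) (h2 M)
    simp only [mul_assoc] at this
    rw [← Matrix.SpecialLinearGroup.coe_mul, inv_mul_cancel, Matrix.SpecialLinearGroup.coe_one, mul_one] at this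
    exact this
  have hg := Matrix.SpecialLinearGroup.det_coe g
  rw [Matrix.det_fin_two] at hg
  have e01 := h4 !![0, 1; 0, 0]
  have e10 := h4 !![0, 0; 1, 0]
  have k1 := congrFun (congrFun e01 0) 0
  have k2 := congrFun (congrFun e01 0) 1
  have k3 := congrFun (congrFun e10 0) 0
  simp [Matrix.mul_apply, Fin.sum_univ_two] at k1 k2 k3
  have key : ∀ a b c d : F2, a = d → c = 0 → b = 0 → a * d - b * c = 1 → a = 1 ∧ d = 1 := by decide
  obtain ⟨k4, k5⟩ := key _ _ _ _ k2 k1.symm k3 hg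
  have h6 : g = 1 := by
    apply Subtype.ext
    ext i j
    fin_cases i <;> fin_cases j
    · exact k4
    · exact k3
    · exact k1.symm
    · exact k5
  rw [h6]
  rfl

/-- the transposition -/
def tr4 : V4 ≃ₗ[F2] V4 := e4.trans ((Matrix.transposeLinearEquiv (Fin 2) (Fin 2) F2 F2).trans e4.symm)

theorem tr4_apply (v : V4) : tr4 v = e4.symm (e4 v).transpose := rfl

theorem tr4_mem : tr4 ∈ OGrp (qfPlus 2 F2) := by
  intro v
  change Cfsg.quadFormPlus 2 F2 _ = Cfsg.quadFormPlus 2 F2 _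
  rw [q_eq_det, q_eq_det, tr4_apply, LinearEquiv.apply_symm_apply, Matrix.det_transpose]

noncomputable def t4 : ↥(Cfsg.isometryGroup F2 (Cfsg.quadFormPlus 2 F2)) := (bridge (qfPlus 2 F2)).symm ⟨tr4, tr4_mem⟩

theorem t4_mulVec (v : V4) : (((t4 : ↥(Cfsg.isometryGroup F2 (Cfsg.quadFormPlus 2 F2))) : Matrix.GeneralLinearGroup (Fin 2 ⊕ Fin 2) F2) : Matrix (Fin 2 ⊕ Fin 2) (Fin 2 ⊕ Fin 2) F2).mulVec v = tr4 v :=
  bridge_symm_mulVec (qfPlus 2 F2) _ v

theorem t4_conj (g : S2) : t4 * emb4 (g, 1) = emb4 (1, (g.transpose)⁻¹) * t4 := by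
  apply mat_ext
  intro v
  change ((((t4 : ↥(Cfsg.isometryGroup F2 (Cfsg.quadFormPlus 2 F2))) : Matrix.GeneralLinearGroup (Fin 2 ⊕ Fin 2) F2) : Matrix (Fin 2 ⊕ Fin 2) (Fin 2 ⊕ Fin 2) F2) * (((emb4 (g, 1) : ↥(Cfsg.isometryGroup F2 (Cfsg.quadFormPlus 2 F2))) : Matrix.GeneralLinearGroup (Fin 2 ⊕ Fin 2) F2) : Matrix (Fin 2 ⊕ Fin 2) (Fin 2 ⊕ Fin 2) F2)).mulVec v =
    ((((emb4 (1, (g.transpose)⁻¹) : ↥(Cfsg.isometryGroup F2 (Cfsg.quadFormPlus 2 F2))) : Matrix.GeneralLinearGroup (Fin 2 ⊕ Fin 2) F2) : Matrix (Fin 2 ⊕ Fin 2) (Fin 2 ⊕ Fin 2) F2) * (((t4 : ↥(Cfsg.isometryGroup F2 (Cfsg.quadFormPlus 2 F2))) : Matrix.GeneralLinearGroup (Fin 2 ⊕ Fin 2) F2) : Matrix (Fin 2 ⊕ Fin 2) (Fin 2 ⊕ Fin 2) F2)).mulVec v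
  rw [← Matrix.mulVec_mulVec, ← Matrix.mulVec_mulVec, t4_mulVec, t4_mulVec, emb4_mulVec, emb4_mulVec, tr4_apply, tr4_apply, act4_apply, act4_apply]
  simp only [LinearEquiv.apply_symm_apply, inv_inv, inv_one, Matrix.SpecialLinearGroup.coe_one, mul_one, one_mul, Matrix.transpose_mul]
  rfl

theorem card_S2 : Nat.card S2 = 6 := by
  obtain ⟨e⟩ := Cfsg.Agent.S0250.result (F := F2) (by simp [ZMod.card])
  rw [Nat.card_congr e.toEquiv]
  simp [Nat.card_eq_fintype_card, Fintype.card_perm, Nat.factorial]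

theorem card_G4 : Nat.card ↥(Cfsg.isometryGroup F2 (Cfsg.quadFormPlus 2 F2)) = 72 := by
  rw [Cfsg.Agent.OrthCount.order_plus 2 (by norm_num)]
  simp

end Cfsg.Agent.H43
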