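import Mathlib
import Cfsg.Agent.H43.SubGL4c

set_option autoImplicit false
set_option linter.unusedSectionVars false
set_option linter.unusedVariables false

/-! `A_7` in `GL(4,2)`. -/

namespace Cfsg.Agent.H43

open MulAction

local notation "𝔽₂" => ZMod 2

section lin
variable {V : Type*} [AddCommGroup V] [Module 𝔽₂ V] [FiniteDimensional 𝔽₂ V]

theorem dbl (v : V) : v + v = 0 := by
  have h6 : (2 : 𝔽₂) = 0 := rfl
  rw [← two_smul 𝔽₂ v, h6, zero_smul]

theorem f2_cases (c : 𝔽₂) : c = 0 ∨ c = 1 := by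
  revert c; decide

theorem range_one {A : Module.End 𝔽₂ V} (h : Module.finrank 𝔽₂ (LinearMap.range A) = 1) :
    ∃ r, r ≠ 0 ∧ (∃ x, A x = r) ∧ ∀ x, A x = 0 ∨ A x = r := by
  obtain ⟨⟨r, ⟨x, hx⟩⟩, hr0, hall⟩ := finrank_eq_one_iff'.1 h
  refine ⟨r, fun h => hr0 (Subtype.ext h), ⟨x, hx⟩, fun z => ?_⟩
  obtain ⟨c, hc⟩ := hall ⟨A z, ⟨z, rfl⟩⟩
  have h1 : c • r = A z := congrArg Subtype.val hc
  rcases f2_cases c with rfl | rfl
  · left; rw [← h1, zero_smul]
  · right; rw [← h1, one_smul]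

theorem two_transvections (hV : Module.finrank 𝔽₂ V = 4) (A B Y : Module.End 𝔽₂ V) (hA2 : A * A = 0) (hB2 : B * B = 0)
    (hAB : A * B = B * A) (hYA : Y * A = A * Y) (hYB : Y * B = B * Y) (hY3 : Y * Y * Y = 1) (hY1 : Y ≠ 1)
    (hA : Module.finrank 𝔽₂ (LinearMap.range A) = 1) (hB : Module.finrank 𝔽₂ (LinearMap.range B) = 1) : A = B := by
  -- operators commuting with `Y` of rank one
  have comm : ∀ C : Module.End 𝔽₂ V, Y * C = C * Y → Module.finrank 𝔽₂ (LinearMap.range C) = 1 → ∀ x, Y (C x) = C x := by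
    intro C hYC hC x
    obtain ⟨r, hr0, ⟨z, hz⟩, hall⟩ := range_one hC
    have hYr : Y r = r := by
      have h1 : Y r = C (Y z) := by rw [← hz]; exact LinearMap.congr_fun hYC z
      rcases hall (Y z) with h2 | h2
      · exfalso
        rw [h2] at h1
        apply hr0
        have h3 : (Y * Y * Y) r = r := by rw [hY3]; rfl
        rw [Module.End.mul_apply, Module.End.mul_apply, h1, map_zero, map_zero] at h3
        exact h3.symm
      · rw [h1, h2]
    rcases hall x with h | h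
    · rw [h, map_zero]
    · rw [h, hYr]
  have hYA' := comm A hYA hA
  have hYB' := comm B hYB hB
  have kill : ∀ C : Module.End 𝔽₂ V, Y * C = C * Y → (∀ x, Y (C x) = C x) → ∀ x, C (Y x) = C x := by
    intro C hYC h x
    rw [← h x]
    exact (LinearMap.congr_fun hYC x).symm
  have kA := kill A hYA hYA'
  have kB := kill B hYB hYB'
  -- the projection to the fixed space
  let p : V → V := fun x => Y (Y x) + Y x + x
  have hpA : ∀ x, A (p x) = A x := by
    intro x
    change A (Y (Y x) + Y x + x) = _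
    rw [map_add, map_add, kA, kA, dbl, zero_add]
  have hpB : ∀ x, B (p x) = B x := by
    intro x
    change B (Y (Y x) + Y x + x) = _
    rw [map_add, map_add, kB, kB, dbl, zero_add]
  have hY3' : ∀ x, Y (Y (Y x)) = x := fun x => LinearMap.congr_fun hY3 x
  have hpY : ∀ x, Y (p x) = p x := by
    intro x
    change Y (Y (Y x) + Y x + x) = Y (Y x) + Y x + x
    rw [map_add, map_add, hY3']
    abel
  let K := LinearMap.ker (Y - 1)
  have hK : ∀ x, x ∈ K ↔ Y x = x := by
    intro x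
    rw [LinearMap.mem_ker, LinearMap.sub_apply, sub_eq_zero]
    rfl
  -- dimension of the fixed space
  have hKdim : Module.finrank 𝔽₂ K ≤ 2 := by
    obtain ⟨x, hx⟩ : ∃ x, Y x ≠ x := by
      by_contra hcon
      push Not at hcon
      exact hY1 (LinearMap.ext hcon)
    set m := Y x - x with hm
    have hm0 : m ≠ 0 := sub_ne_zero.2 hx
    have hsum : Y (Y m) + Y m + m = 0 := by
      rw [hm, map_sub, map_sub, hY3']
      abel
    have hmY : Y m ≠ m := by
      intro h
      rw [h, h, dbl, zero_add] at hsum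
      exact hm0 hsum
    have hYm0 : Y m ≠ 0 := by
      intro h
      rw [h, map_zero, zero_add, zero_add] at hsum
      exact hm0 hsum
    have hli : LinearIndependent 𝔽₂ ![m, Y m] := by
      rw [LinearIndependent.pair_iff' hm0]
      intro a ha
      rcases f2_cases a with rfl | rfl
      · rw [zero_smul] at ha; exact hYm0 ha.symm
      · rw [one_smul] at ha; exact hmY ha.symm
    have h1 := finrank_span_eq_card hli
    rw [Fintype.card_fin] at h1
    have h2 : Submodule.span 𝔽₂ (Set.range ![m, Y m]) ≤ LinearMap.range (Y - 1) := by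
      rw [Submodule.span_le]
      rintro _ ⟨i, rfl⟩
      fin_cases i
      · exact ⟨x, rfl⟩
      · refine ⟨Y x, ?_⟩
        change Y (Y x) - Y x = Y m
        rw [hm, map_sub]
    have h3 := Submodule.finrank_mono h2
    have h4 := LinearMap.finrank_range_add_finrank_ker (Y - 1)
    rw [hV] at h4
    change _ + Module.finrank 𝔽₂ K = 4 at h4
    omega
  obtain ⟨r, hr0, ⟨z, hz⟩, hallA⟩ := range_one hA
  obtain ⟨r', hr0', ⟨z', hz'⟩, hallB⟩ := range_one hB
  have hA2' : ∀ x, A (A x) = 0 := fun x => LinearMap.congr_fun hA2 x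
  have hB2' : ∀ x, B (B x) = 0 := fun x => LinearMap.congr_fun hB2 x
  have hAB' : ∀ x, A (B x) = B (A x) := fun x => LinearMap.congr_fun hAB x
  have hAr : A r = 0 := by rw [← hz]; exact hA2' z
  have hrK : r ∈ K := by rw [hK, ← hz]; exact hYA' z
  have hBr : B r = 0 := by
    have h1 : B r = A (B z) := by rw [hAB', hz]
    rcases hallA (B z) with h2 | h2
    · rw [h1, h2]
    · exfalso
      rw [h2] at h1
      have h3 := hB2' r
      rw [h1, h1] at h3
      exact hr0 h3
  obtain ⟨s, hs⟩ : ∃ s, s = p z := ⟨_, rfl⟩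
  have hsK : s ∈ K := by rw [hs]; exact (hK _).2 (hpY z)
  have hAs : A s = r := by rw [hs, hpA, hz]
  have hs0 : s ≠ 0 := by
    intro h
    rw [h, map_zero] at hAs
    exact hr0 hAs.symm
  have hsr : s ≠ r := by
    intro h
    rw [h, hAr] at hAs
    exact hr0 hAs.symm
  have hspan : ∀ x ∈ K, x = 0 ∨ x = r ∨ x = s ∨ x = r + s := by
    have hli : LinearIndependent 𝔽₂ ![r, s] := by
      rw [LinearIndependent.pair_iff' hr0]
      intro a ha
      rcases f2_cases a with rfl | rfl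
      · rw [zero_smul] at ha; exact hs0 ha.symm
      · rw [one_smul] at ha; exact hsr ha.symm
    have h1 := finrank_span_eq_card hli
    rw [Fintype.card_fin] at h1
    have h2 : Submodule.span 𝔽₂ (Set.range ![r, s]) ≤ K := by
      rw [Submodule.span_le]
      rintro _ ⟨i, rfl⟩
      fin_cases i
      · exact hrK
      · exact hsK
    have h3 : Submodule.span 𝔽₂ (Set.range ![r, s]) = K := Submodule.eq_of_le_of_finrank_le h2 (by omega)
    intro x hx
    rw [← h3] at hx
    have h4 : Set.range ![r, s] = {r, s} := by simp [Matrix.range_cons, Set.pair_comm]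
    rw [h4, Submodule.mem_span_pair] at hx
    obtain ⟨c, d, rfl⟩ := hx
    rcases f2_cases c with rfl | rfl <;> rcases f2_cases d with rfl | rfl
    · left; simp
    · right; right; left; simp
    · right; left; simp
    · right; right; right; simp
  have hBs0 : B s ≠ 0 := by
    intro h
    have h1 : B (p z') = r' := by rw [hpB, hz']
    have h2 : p z' ∈ K := (hK _).2 (hpY z')
    rcases hspan _ h2 with h3 | h3 | h3 | h3
    · rw [h3, map_zero] at h1; exact hr0' h1.symm
    · rw [h3, hBr] at h1; exact hr0' h1.symm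
    · rw [h3, h] at h1; exact hr0' h1.symm
    · rw [h3, map_add, hBr, h, add_zero] at h1; exact hr0' h1.symm
  have hBsr : B s = r := by
    have h2 : B s ∈ K := by rw [hK]; exact hYB' s
    have h1 := hB2' s
    rcases hspan _ h2 with h3 | h3 | h3 | h3
    · exact absurd h3 hBs0
    · exact h3
    · rw [h3] at h1; exact absurd h1 hBs0
    · rw [h3, map_add, hBr, zero_add] at h1; exact absurd h1 hBs0
  apply LinearMap.ext
  intro x
  rw [← hpA, ← hpB]
  have h2 : p x ∈ K := (hK _).2 (hpY x)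
  rcases hspan _ h2 with h3 | h3 | h3 | h3
  · rw [h3, map_zero, map_zero]
  · rw [h3, hAr, hBr]
  · rw [h3, hAs, hBsr]
  · rw [h3, map_add, map_add, hAr, hBr, hAs, hBsr]

/-- the operator `t - 1` for an involution -/
theorem rank_one_of_split (hV : Module.finrank 𝔽₂ V = 4) (v : V) (hv : v ≠ 0) (U : Submodule 𝔽₂ V)
    (hU : Module.finrank 𝔽₂ U = 3) (hvU : v ∉ U) (T : Module.End 𝔽₂ V) (hTv : T v = 0) (hTU : ∀ u ∈ U, T u ∈ U)
    (hT2 : T * T = 0) (hT : T ≠ 0) : Module.finrank 𝔽₂ (LinearMap.range T) = 1 := by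
  have hsup : U ⊔ Submodule.span 𝔽₂ {v} = ⊤ := by
    apply Submodule.eq_top_of_finrank_eq
    have h1 := Submodule.finrank_sup_add_finrank_inf_eq U (Submodule.span 𝔽₂ {v})
    have h2 : U ⊓ Submodule.span 𝔽₂ {v} = ⊥ := by
      rw [eq_bot_iff]
      rintro x ⟨hx1, hx2⟩
      obtain ⟨c, rfl⟩ := Submodule.mem_span_singleton.1 hx2
      rcases f2_cases c with rfl | rfl
      · simp
      · rw [one_smul] at hx1; exact absurd hx1 hvU
    rw [h2, finrank_bot, finrank_span_singleton hv, hU] at h1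
    rw [hV]; omega
  have hrange : LinearMap.range T ≤ U := by
    rintro _ ⟨x, rfl⟩
    have hx : x ∈ U ⊔ Submodule.span 𝔽₂ {v} := by rw [hsup]; trivial
    obtain ⟨u, hu, y, hy, rfl⟩ := Submodule.mem_sup.1 hx
    obtain ⟨c, rfl⟩ := Submodule.mem_span_singleton.1 hy
    rw [map_add, map_smul, hTv, smul_zero, add_zero]
    exact hTU u hu
  have hle : LinearMap.range T ⊔ Submodule.span 𝔽₂ {v} ≤ LinearMap.ker T := by
    apply sup_le
    · rintro _ ⟨x, rfl⟩
      rw [LinearMap.mem_ker]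
      exact LinearMap.congr_fun hT2 x
    · rw [Submodule.span_singleton_le_iff_mem, LinearMap.mem_ker]
      exact hTv
  have h1 := Submodule.finrank_sup_add_finrank_inf_eq (LinearMap.range T) (Submodule.span 𝔽₂ {v})
  have h2 : LinearMap.range T ⊓ Submodule.span 𝔽₂ {v} = ⊥ := by
    rw [eq_bot_iff]
    rintro x ⟨hx1, hx2⟩
    obtain ⟨c, rfl⟩ := Submodule.mem_span_singleton.1 hx2
    rcases f2_cases c with rfl | rfl
    · simp
    · rw [one_smul] at hx1; exact absurd (hrange hx1) hvU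
  rw [h2, finrank_bot, finrank_span_singleton hv] at h1
  have h3 := Submodule.finrank_mono hle
  have h4 := LinearMap.finrank_range_add_finrank_ker T
  rw [hV] at h4
  have h5 : Module.finrank 𝔽₂ (LinearMap.range T) ≠ 0 := by
    intro h
    rw [Submodule.finrank_eq_zero, LinearMap.range_eq_bot] at h
    exact hT h
  omega

end lin

section grp
variable {V : Type*} [AddCommGroup V] [Module 𝔽₂ V] [FiniteDimensional 𝔽₂ V] {G : Type*} [Group G] [Finite G]

theorem two_pow_mod_five : ∀ k : ℕ, k < 4 → 2 ^ k ≡ 1 [MOD 5] → k = 0 := by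
  decide

theorem sub_one_apply (ρ : G →* Module.End 𝔽₂ V) (g : G) (v : V) : (ρ g - 1) v = ρ g v - v := rfl

/-- fixed vectors of a `p`-element -/
theorem fix_card (ρ : G →* Module.End 𝔽₂ V) (hρ : Function.Injective ρ) (hV : Module.finrank 𝔽₂ V = 4)
    (p : ℕ) [Fact p.Prime] (g : G) (hg : orderOf g = p) :
    2 ^ Module.finrank 𝔽₂ (LinearMap.ker (ρ g - 1)) ≡ 16 [MOD p] ∧ Module.finrank 𝔽₂ (LinearMap.ker (ρ g - 1)) < 4 := by
  have hfin : Finite V := Module.finite_of_finite 𝔽₂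
  have hcV : Nat.card V = 16 := by
    rw [Module.natCard_eq_pow_finrank (K := 𝔽₂), hV]
    simp
  letI act : MulAction G V := MulAction.compHom V ρ
  have hact : ∀ (g : G) (v : V), g • v = ρ g v := fun _ _ => rfl
  let P := Subgroup.zpowers g
  have hP : Nat.card P = p := by rw [Nat.card_zpowers, hg]
  have hPp : IsPGroup p P := IsPGroup.of_card (n := 1) (by rw [hP, pow_one])
  have hg1 : ρ g ≠ 1 := by
    intro h
    have : g = 1 := hρ (h.trans (map_one ρ).symm)
    rw [this, orderOf_one] at hg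
    exact (Fact.out : p.Prime).one_lt.ne hg
  have hfixP : ∀ v : V, v ∈ fixedPoints P V ↔ (ρ g - 1) v = 0 := by
    intro v
    rw [sub_one_apply, sub_eq_zero]
    constructor
    · intro h
      exact h ⟨g, Subgroup.mem_zpowers g⟩
    · rintro h ⟨p, n, rfl⟩
      have h1 : g ∈ stabilizer G v := h
      exact (stabilizer G v).zpow_mem h1 n
  have hcfix : Nat.card (fixedPoints P V) = 2 ^ Module.finrank 𝔽₂ (LinearMap.ker (ρ g - 1)) := by
    have h1 : Nat.card (LinearMap.ker (ρ g - 1)) = 2 ^ Module.finrank 𝔽₂ (LinearMap.ker (ρ g - 1)) := by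
      rw [Module.natCard_eq_pow_finrank (K := 𝔽₂)]
      simp
    rw [← h1]
    exact Nat.card_congr (Equiv.subtypeEquivRight (fun v => (hfixP v).trans LinearMap.mem_ker.symm))
  constructor
  · rw [← hcfix]
    have h1 := hPp.card_modEq_card_fixedPoints V
    rw [hcV] at h1
    exact h1.symm
  · rw [← hV]
    apply Submodule.finrank_lt
    intro h
    apply hg1
    apply LinearMap.ext
    intro v
    have h2 : v ∈ LinearMap.ker (ρ g - 1) := by rw [h]; trivial
    rw [LinearMap.mem_ker, sub_one_apply, sub_eq_zero] at h2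
    exact h2

theorem fix7 (ρ : G →* Module.End 𝔽₂ V) (hρ : Function.Injective ρ) (hV : Module.finrank 𝔽₂ V = 4)
    (g : G) (hg : orderOf g = 7) : ∃ v, v ≠ 0 ∧ ρ g v = v ∧ ∀ w, ρ g w = w → w = 0 ∨ w = v := by
  have hp7 : Fact (Nat.Prime 7) := ⟨by norm_num⟩
  obtain ⟨h1, h2⟩ := fix_card ρ hρ hV 7 g hg
  have hk : Module.finrank 𝔽₂ (LinearMap.ker (ρ g - 1)) = 1 := two_pow_mod_seven _ h2 (h1.trans (by decide))
  obtain ⟨⟨v, hvk⟩, hv0, hall⟩ := finrank_eq_one_iff'.1 hk
  rw [LinearMap.mem_ker, sub_one_apply, sub_eq_zero] at hvk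
  refine ⟨v, fun h => hv0 (Subtype.ext h), hvk, fun w hw => ?_⟩
  obtain ⟨c, hc⟩ := hall ⟨w, by rw [LinearMap.mem_ker, sub_one_apply, sub_eq_zero]; exact hw⟩
  have h1 : c • v = w := congrArg Subtype.val hc
  rcases f2_cases c with rfl | rfl
  · left; rw [← h1, zero_smul]
  · right; rw [← h1, one_smul]

theorem fix5 (ρ : G →* Module.End 𝔽₂ V) (hρ : Function.Injective ρ) (hV : Module.finrank 𝔽₂ V = 4)
    (g : G) (hg : orderOf g = 5) : ∀ w, ρ g w = w → w = 0 := by
  have hp7 : Fact (Nat.Prime 5) := ⟨by norm_num⟩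
  obtain ⟨h1, h2⟩ := fix_card ρ hρ hV 5 g hg
  have hk : Module.finrank 𝔽₂ (LinearMap.ker (ρ g - 1)) = 0 := two_pow_mod_five _ h2 (h1.trans (by decide))
  rw [Submodule.finrank_eq_zero] at hk
  intro w hw
  have h3 : w ∈ LinearMap.ker (ρ g - 1) := by rw [LinearMap.mem_ker, sub_one_apply, sub_eq_zero]; exact hw
  rw [hk] at h3
  exact h3

theorem mod_5_7 : ∀ n : ℕ, n ≤ 15 → n ≡ 1 [MOD 7] → n ≡ 0 [MOD 5] → n = 15 := by decide

/-- transitivity on the nonzero vectors -/
theorem transitive_of_dvd (ρ : G →* Module.End 𝔽₂ V) (hρ : Function.Injective ρ) (hV : Module.finrank 𝔽₂ V = 4)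
    (g : G) (hg : orderOf g = 7) (h : G) (hh : orderOf h = 5) (v : V) (hv0 : v ≠ 0) (hgv : ρ g v = v)
    (hall : ∀ w, ρ g w = w → w = 0 ∨ w = v) : ∀ w, w ≠ 0 → ∃ k, ρ k v = w := by
  have hp7 : Fact (Nat.Prime 7) := ⟨by norm_num⟩
  have hp5 : Fact (Nat.Prime 5) := ⟨by norm_num⟩
  have hfin : Finite V := Module.finite_of_finite 𝔽₂
  have hcV : Nat.card V = 16 := by
    rw [Module.natCard_eq_pow_finrank (K := 𝔽₂), hV]
    simp
  letI act : MulAction G V := MulAction.compHom V ρ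
  have hact : ∀ (g : G) (v : V), g • v = ρ g v := fun _ _ => rfl
  have h0 : ∀ g : G, g • (0 : V) = 0 := fun g => by rw [hact, map_zero]
  have hO0 : (0 : V) ∉ orbit G v := by
    rintro ⟨k, hk'⟩
    apply hv0
    have h1 : k • v = 0 := hk'
    have h2 := congrArg (fun z => k⁻¹ • z) h1
    simp only [inv_smul_smul, h0] at h2
    exact h2
  have hOmod : Nat.card (orbit G v) ≡ 1 [MOD 7] := by
    have hPp : IsPGroup 7 (Subgroup.zpowers g) := IsPGroup.of_card (n := 1) (by rw [Nat.card_zpowers, hg, pow_one])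
    have h1 := hPp.card_modEq_card_fixedPoints (orbit G v)
    have h2 : Nat.card (fixedPoints (Subgroup.zpowers g) (orbit G v)) = 1 := by
      rw [Nat.card_eq_one_iff_unique]
      refine ⟨⟨?_⟩, ⟨⟨⟨v, mem_orbit_self v⟩, ?_⟩⟩⟩
      · rintro ⟨⟨a, ha⟩, ha'⟩ ⟨⟨b, hb⟩, hb'⟩
        have e1 : ∀ (a : V) (ha : a ∈ orbit G v), (⟨a, ha⟩ : orbit G v) ∈ fixedPoints (Subgroup.zpowers g) (orbit G v) → a = v := by
          intro a ha ha'
          have h3 : ρ g a = a := congrArg Subtype.val (ha' ⟨g, Subgroup.mem_zpowers g⟩)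
          rcases hall a h3 with h4 | h4
          · exact absurd (h4 ▸ ha) hO0
          · exact h4
        apply Subtype.ext
        apply Subtype.ext
        exact (e1 a ha ha').trans (e1 b hb hb').symm
      · rintro ⟨p, n, rfl⟩
        apply Subtype.ext
        have h1 : g ∈ stabilizer G v := hgv
        exact (stabilizer G v).zpow_mem h1 n
    rw [h2] at h1
    exact h1
  have hOmod5 : Nat.card (orbit G v) ≡ 0 [MOD 5] := by
    have hPp : IsPGroup 5 (Subgroup.zpowers h) := IsPGroup.of_card (n := 1) (by rw [Nat.card_zpowers, hh, pow_one])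
    have h1 := hPp.card_modEq_card_fixedPoints (orbit G v)
    have h2 : Nat.card (fixedPoints (Subgroup.zpowers h) (orbit G v)) = 0 := by
      rw [Nat.card_eq_zero]
      left
      refine ⟨?_⟩
      rintro ⟨⟨a, ha⟩, ha'⟩
      have h3 : ρ h a = a := congrArg Subtype.val (ha' ⟨h, Subgroup.mem_zpowers h⟩)
      exact hO0 ((fix5 ρ hρ hV h hh a h3) ▸ ha)
    rw [h2] at h1
    exact h1
  have hsub : orbit G v ⊆ {0}ᶜ := by
    intro w hw h
    exact hO0 (by rw [← Set.mem_singleton_iff.1 h]; exact hw)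
  have h3 := Set.ncard_add_ncard_compl ({0} : Set V)
  rw [Set.ncard_singleton, hcV] at h3
  have hOle : Nat.card (orbit G v) ≤ 15 := by
    have h2 := Set.ncard_le_ncard hsub (Set.toFinite _)
    change (orbit G v).ncard ≤ 15
    omega
  have hO : (orbit G v).ncard = 15 := mod_5_7 _ hOle hOmod hOmod5
  have heq : orbit G v = {0}ᶜ := Set.eq_of_subset_of_ncard_le hsub (by omega)
  intro w hw
  have h4 : w ∈ orbit G v := by rw [heq]; exact hw
  exact h4

/-- the stabilizer of a vector is transitive on the other vectors, or all involutions have rank one -/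
theorem stab_transitive (ρ : G →* Module.End 𝔽₂ V) (hρ : Function.Injective ρ) (hV : Module.finrank 𝔽₂ V = 4)
    (g : G) (hg : orderOf g = 7) (v : V) (hv0 : v ≠ 0) (hgv : ρ g v = v)
    (hall : ∀ w, ρ g w = w → w = 0 ∨ w = v) (a b : V) (ha0 : a ≠ 0) (hav : a ≠ v) (hb0 : b ≠ 0) (hbv : b ≠ v)
    (hno : ∀ k, ρ k v = v → ρ k a ≠ b) : 
    ∃ U : Submodule 𝔽₂ V, Module.finrank 𝔽₂ U = 3 ∧ v ∉ U ∧ ∀ k, ρ k v = v → ∀ u ∈ U, ρ k u ∈ U := by
  have hp7 : Fact (Nat.Prime 7) := ⟨by norm_num⟩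
  have hfin : Finite V := Module.finite_of_finite 𝔽₂
  have hcV : Nat.card V = 16 := by
    rw [Module.natCard_eq_pow_finrank (K := 𝔽₂), hV]
    simp
  letI act : MulAction G V := MulAction.compHom V ρ
  have hact : ∀ (g : G) (v : V), g • v = ρ g v := fun _ _ => rfl
  have h0 : ∀ g : G, g • (0 : V) = 0 := fun g => by rw [hact, map_zero]
  have hk1 : Module.finrank 𝔽₂ (LinearMap.ker (ρ g - 1)) = 1 := 
    two_pow_mod_seven _ (fix_card ρ hρ hV 7 g hg).2 ((fix_card ρ hρ hV 7 g hg).1.trans (by decide))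
  -- orbits of `g`
  have hP : Nat.card (Subgroup.zpowers g) = 7 := by rw [Nat.card_zpowers, hg]
  have horb : ∀ x : V, x ≠ 0 → x ≠ v → (orbit (Subgroup.zpowers g) x).ncard = 7 := by
    intro x hx0 hxv
    have h1 := MulAction.index_stabilizer (Subgroup.zpowers g) x
    have h2 : (orbit (Subgroup.zpowers g) x).ncard ∣ 7 := by
      rw [← h1]
      calc _ ∣ Nat.card (Subgroup.zpowers g) := Subgroup.index_dvd_card _
        _ = 7 := hP
    rcases (Nat.dvd_prime (by norm_num)).1 h2 with h | h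
    · exfalso
      have h5 : (⟨g, Subgroup.mem_zpowers g⟩ : Subgroup.zpowers g) • x = x := by
        have h6 := Set.ncard_eq_one.1 h
        obtain ⟨y, hy⟩ := h6
        have h7 : x ∈ orbit (Subgroup.zpowers g) x := mem_orbit_self x
        have h8 : (⟨g, Subgroup.mem_zpowers g⟩ : Subgroup.zpowers g) • x ∈ orbit (Subgroup.zpowers g) x := mem_orbit _ _
        rw [hy, Set.mem_singleton_iff] at h7 h8
        rw [h8, ← h7]
      rcases hall x h5 with h9 | h9
      · exact hx0 h9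
      · exact hxv h9
    · exact h
  -- stabilizer
  have hgS : g ∈ stabilizer G v := hgv
  have hle : Subgroup.zpowers g ≤ stabilizer G v := by
    rw [Subgroup.zpowers_le]; exact hgS
  have hsubO : ∀ x : V, orbit (Subgroup.zpowers g) x ⊆ orbit (stabilizer G v) x := by
    rintro x _ ⟨p, rfl⟩
    exact ⟨⟨p, hle p.2⟩, rfl⟩
  have hnot : ∀ x : V, x ≠ 0 → x ≠ v → (0 : V) ∉ orbit (stabilizer G v) x ∧ v ∉ orbit (stabilizer G v) x := by
    intro x hx0 hxv
    constructor
    · rintro ⟨k, hk⟩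
      apply hx0
      have h2 := congrArg (fun z => k⁻¹ • z) hk
      have h3 : k⁻¹ • (0 : V) = 0 := h0 _
      simp only [inv_smul_smul, h3] at h2
      exact h2
    · rintro ⟨k, hk⟩
      apply hxv
      have h2 := congrArg (fun z => k⁻¹ • z) hk
      have h3 : k⁻¹ • v = v := (k⁻¹).2
      simp only [inv_smul_smul, h3] at h2
      exact h2
  have hdisj : Disjoint (orbit (stabilizer G v) a) (orbit (stabilizer G v) b) := by
    rw [Set.disjoint_left]
    rintro x hx1 hx2
    have h1 := orbit_eq_iff.2 hx1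
    have h2 := orbit_eq_iff.2 hx2
    have h3 : b ∈ orbit (stabilizer G v) a := by
      rw [← h1, h2]; exact mem_orbit_self b
    obtain ⟨k, hk⟩ := h3
    exact hno k k.2 hk
  have hOa : (orbit (stabilizer G v) a).ncard = 7 := by
    have h1 := Set.ncard_le_ncard (hsubO a) (Set.toFinite _)
    have h2 := Set.ncard_le_ncard (hsubO b) (Set.toFinite _)
    rw [horb a ha0 hav] at h1
    rw [horb b hb0 hbv] at h2
    have h3 := Set.ncard_union_eq hdisj (Set.toFinite _) (Set.toFinite _)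
    have h4 : orbit (stabilizer G v) a ∪ orbit (stabilizer G v) b ⊆ {0, v}ᶜ := by
      intro x hx hx'
      rcases hx with hx | hx
      · rcases hx' with h | h
        · exact (hnot a ha0 hav).1 (h ▸ hx)
        · exact (hnot a ha0 hav).2 (h ▸ hx)
      · rcases hx' with h | h
        · exact (hnot b hb0 hbv).1 (h ▸ hx)
        · exact (hnot b hb0 hbv).2 (h ▸ hx)
    have h5 := Set.ncard_le_ncard h4 (Set.toFinite _)
    have h6 := Set.ncard_add_ncard_compl ({0, v} : Set V)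
    rw [Set.ncard_pair hv0.symm, hcV] at h6
    omega
  have hPa : orbit (Subgroup.zpowers g) a = orbit (stabilizer G v) a :=
    Set.eq_of_subset_of_ncard_le (hsubO a) (by rw [hOa, horb a ha0 hav])
  let O' : Set V := orbit (stabilizer G v) a
  have hO'inv : ∀ (k : G), ρ k v = v → ∀ (w : V), w ∈ O' → k • w ∈ O' := by
    intro k hk w hw
    exact MulAction.mem_orbit_of_mem_orbit (⟨k, hk⟩ : stabilizer G v) hw
  have htrans : ∀ a' ∈ O', ∀ b' ∈ O', ∃ n : ℕ, (g ^ n) • a' = b' := by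
    intro a' ha' b' hb'
    have h1 : a' ∈ orbit (Subgroup.zpowers g) a := by rw [hPa]; exact ha'
    have h2 : b' ∈ orbit (Subgroup.zpowers g) a := by rw [hPa]; exact hb'
    rw [← orbit_eq_iff.2 h1] at h2
    obtain ⟨⟨p, hp⟩, hp'⟩ := h2
    have hp2 : p ∈ Submonoid.powers g := by
      rw [mem_powers_iff_mem_zpowers]; exact hp
    obtain ⟨n, rfl⟩ := hp2
    exact ⟨n, hp'⟩
  let S : Set V := {w | ∃ a ∈ O', ∃ b ∈ O', w = a + b}
  have hUinv : ∀ k, ρ k v = v → ∀ u ∈ Submodule.span 𝔽₂ S, ρ k u ∈ Submodule.span 𝔽₂ S := by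
    intro k hk u hu
    have h1 : Submodule.span 𝔽₂ S ≤ (Submodule.span 𝔽₂ S).comap (ρ k) := by
      rw [Submodule.span_le]
      rintro _ ⟨a, ha, b, hb, rfl⟩
      rw [SetLike.mem_coe, Submodule.mem_comap, map_add]
      exact Submodule.subset_span ⟨_, hO'inv k hk a ha, _, hO'inv k hk b hb, rfl⟩
    exact h1 hu
  have hUne : Submodule.span 𝔽₂ S ≠ ⊥ := by
    have h1 : 1 < O'.ncard := by rw [hOa]; norm_num
    obtain ⟨a, ha, b, hb, hab⟩ := (Set.one_lt_ncard (Set.toFinite _)).1 h1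
    intro h
    have h2 : a + b ∈ Submodule.span 𝔽₂ S := Submodule.subset_span ⟨a, ha, b, hb, rfl⟩
    rw [h, Submodule.mem_bot] at h2
    apply hab
    rw [← dbl b] at h2
    exact add_right_cancel h2
  have hUr : Submodule.span 𝔽₂ S ≤ LinearMap.range (ρ g - 1) := by
    rw [Submodule.span_le]
    rintro _ ⟨a, ha, b, hb, rfl⟩
    obtain ⟨n, rfl⟩ := htrans a ha b hb
    have h7 : a + (g ^ n) • a = (g ^ n) • a - a := by
      rw [eq_sub_iff_add_eq, add_right_comm, dbl, zero_add]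
    rw [SetLike.mem_coe, h7]
    clear h7 hb
    induction n with
    | zero => rw [pow_zero, one_smul, sub_self]; exact Submodule.zero_mem _
    | succ n ih =>
      have h8 : (g ^ (n + 1)) • a - a = ρ g ((g ^ n) • a - a) + (ρ g - 1) a := by
        rw [pow_succ', mul_smul, hact g, sub_one_apply, map_sub]
        abel
      rw [h8]
      refine Submodule.add_mem _ ?_ ⟨a, rfl⟩
      obtain ⟨y, hy⟩ := ih
      rw [← hy, sub_one_apply, map_sub]
      exact ⟨ρ g y, by rw [sub_one_apply]⟩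
  have hvr : v ∉ LinearMap.range (ρ g - 1) := by
    rintro ⟨y, hy⟩
    rw [sub_one_apply, sub_eq_iff_eq_add] at hy
    have h2 : ρ (g ^ 2) y = y := by
      rw [pow_two, map_mul, Module.End.mul_apply, hy, map_add, hgv, hy, ← add_assoc, dbl, zero_add]
    have h8 : ρ (g ^ 8) y = y := by
      have h4 : ρ (g ^ 8) y = ρ (g ^ 2) (ρ (g ^ 2) (ρ (g ^ 2) (ρ (g ^ 2) y))) := by
        rw [← Module.End.mul_apply, ← Module.End.mul_apply, ← Module.End.mul_apply, ← map_mul, ← map_mul, ← map_mul, ← pow_add, ← pow_add, ← pow_add]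
      rw [h4, h2, h2, h2, h2]
    have h9 : g ^ 8 = g := by
      rw [show 8 = 7 + 1 from rfl, pow_succ, ← hg, pow_orderOf_eq_one, one_mul]
    rw [h9, hy] at h8
    apply hv0
    have : v + y = 0 + y := by rw [h8, zero_add]
    exact add_right_cancel this
  refine ⟨Submodule.span 𝔽₂ S, ?_, fun h => hvr (hUr h), hUinv⟩
  -- the dimension
  obtain ⟨W, hW⟩ : ∃ W, W = Submodule.span 𝔽₂ S := ⟨_, rfl⟩
  rw [← hW] at hUinv hUne hUr ⊢
  have hle3 : Module.finrank 𝔽₂ W ≤ 3 := by
    have h1 := Submodule.finrank_mono hUr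
    have h2 := LinearMap.finrank_range_add_finrank_ker (ρ g - 1)
    rw [hk1, hV] at h2
    omega
  have hmod : Nat.card W ≡ 1 [MOD 7] := by
    have hginv : ∀ n : ℤ, ∀ u ∈ W, (g ^ n) • u ∈ W := by
      intro n u hu
      apply hUinv _ _ u hu
      exact (stabilizer G v).zpow_mem hgS n
    letI actW : MulAction (Subgroup.zpowers g) W :=
      { smul := fun p u => ⟨(p : G) • (u : V), by
          obtain ⟨p, n, rfl⟩ := p
          exact hginv n u u.2⟩
        one_smul := fun u => Subtype.ext (one_smul G (u : V))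
        mul_smul := fun p q u => Subtype.ext (mul_smul (p : G) (q : G) (u : V)) }
    have hPp : IsPGroup 7 (Subgroup.zpowers g) := IsPGroup.of_card (n := 1) (by rw [hP, pow_one])
    have h1 := hPp.card_modEq_card_fixedPoints W
    have h2 : Nat.card (fixedPoints (Subgroup.zpowers g) W) = 1 := by
      rw [Nat.card_eq_one_iff_unique]
      have e1 : ∀ (a : W), a ∈ fixedPoints (Subgroup.zpowers g) W → a = 0 := by
        intro a ha'
        have h3 : ρ g a = a := congrArg Subtype.val (ha' ⟨g, Subgroup.mem_zpowers g⟩)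
        rcases hall a h3 with h4 | h4
        · exact Subtype.ext h4
        · exfalso; apply hvr; rw [← h4]; exact hUr a.2
      refine ⟨⟨?_⟩, ⟨⟨0, ?_⟩⟩⟩
      · rintro ⟨a, ha'⟩ ⟨b, hb'⟩
        apply Subtype.ext
        exact (e1 a ha').trans (e1 b hb').symm
      · intro p
        apply Subtype.ext
        exact h0 _
    rw [h2] at h1
    exact h1
  rw [Module.natCard_eq_pow_finrank (K := 𝔽₂), Nat.card_eq_fintype_card, ZMod.card] at hmod
  have hne0 : Module.finrank 𝔽₂ W ≠ 0 := by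
    intro h
    rw [Submodule.finrank_eq_zero] at h
    exact hUne h
  have hfin' : ∀ n : ℕ, n ≤ 3 → n ≠ 0 → 2 ^ n ≡ 1 [MOD 7] → n = 3 := by decide
  exact hfin' _ hle3 hne0 hmod

/-- if not two-transitive, all involutions have rank one -/
theorem rank_one_involutions (ρ : G →* Module.End 𝔽₂ V) (hV : Module.finrank 𝔽₂ V = 4) (hρ : Function.Injective ρ)
    (v : V) (hv0 : v ≠ 0) (htr : ∀ w, w ≠ 0 → ∃ k, ρ k v = w)
    (U : Submodule 𝔽₂ V) (hU : Module.finrank 𝔽₂ U = 3) (hvU : v ∉ U) (hUinv : ∀ k, ρ k v = v → ∀ u ∈ U, ρ k u ∈ U)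
    (t : G) (ht : t * t = 1) (ht1 : t ≠ 1) : Module.finrank 𝔽₂ (LinearMap.range (ρ t - 1)) = 1 := by
  have sq : ∀ t : G, t * t = 1 → (ρ t - 1) * (ρ t - 1) = 0 := by
    intro t ht
    apply LinearMap.ext
    intro x
    rw [Module.End.mul_apply, sub_one_apply, sub_one_apply, map_sub]
    have h1 : ρ t (ρ t x) = x := by
      rw [← Module.End.mul_apply, ← map_mul, ht, map_one]; rfl
    rw [h1]
    have h2 : x - ρ t x - (ρ t x - x) = (x + x) - (ρ t x + ρ t x) := by abel
    rw [h2, dbl, dbl, sub_zero]; rfl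
  have hne : ∀ t : G, t ≠ 1 → ρ t - 1 ≠ 0 := by
    intro t ht h
    apply ht
    apply hρ
    rw [map_one]
    exact sub_eq_zero.1 h
  obtain ⟨x, hx⟩ : ∃ x, (ρ t - 1) x ≠ 0 := by
    by_contra hcon
    push Not at hcon
    exact hne t ht1 (LinearMap.ext hcon)
  obtain ⟨k, hk⟩ := htr _ hx
  have hfix : ρ t (ρ k v) = ρ k v := by
    rw [hk, ← sub_eq_zero, ← sub_one_apply]
    exact LinearMap.congr_fun (sq t ht) x
  have hinv : ∀ x, ρ k⁻¹ (ρ k x) = x := by
    intro x
    rw [← Module.End.mul_apply, ← map_mul, inv_mul_cancel, map_one]; rfl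
  have hinv2 : ∀ x, ρ k (ρ k⁻¹ x) = x := by
    intro x
    rw [← Module.End.mul_apply, ← map_mul, mul_inv_cancel, map_one]; rfl
  have hs : ρ (k⁻¹ * t * k) v = v := by
    rw [map_mul, map_mul, Module.End.mul_apply, Module.End.mul_apply, hfix, hinv]
  have hs2 : (k⁻¹ * t * k) * (k⁻¹ * t * k) = 1 := by
    have : (k⁻¹ * t * k) * (k⁻¹ * t * k) = k⁻¹ * (t * t) * k := by group
    rw [this, ht]; group
  have hs1 : k⁻¹ * t * k ≠ 1 := by
    intro h
    apply ht1
    have : t = k * (k⁻¹ * t * k) * k⁻¹ := by group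
    rw [this, h]; group
  have hr := rank_one_of_split hV v hv0 U hU hvU (ρ (k⁻¹ * t * k) - 1) (by rw [sub_one_apply, hs, sub_self])
    (fun u hu => by rw [sub_one_apply]; exact Submodule.sub_mem _ (hUinv _ hs u hu) hu) (sq _ hs2) (hne _ hs1)
  -- conjugation invariance
  let e : V ≃ₗ[𝔽₂] V := LinearEquiv.ofLinear (ρ k) (ρ k⁻¹) (LinearMap.ext hinv2) (LinearMap.ext hinv)
  have he : ∀ x, e x = ρ k x := fun _ => rfl
  have hr' : Module.finrank 𝔽₂ ((LinearMap.range (ρ (k⁻¹ * t * k) - 1)).map (e : V →ₗ[𝔽₂] V)) = 1 := by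
    rw [LinearEquiv.finrank_map_eq]; exact hr
  have heq : (LinearMap.range (ρ (k⁻¹ * t * k) - 1)).map (e : V →ₗ[𝔽₂] V) = LinearMap.range (ρ t - 1) := by
    ext y
    constructor
    · rintro ⟨_, ⟨x, rfl⟩, rfl⟩
      refine ⟨ρ k x, ?_⟩
      change _ = ρ k _
      rw [sub_one_apply, sub_one_apply, map_mul, map_mul, Module.End.mul_apply, Module.End.mul_apply, map_sub, hinv2]
    · rintro ⟨x, rfl⟩
      refine ⟨_, ⟨ρ k⁻¹ x, rfl⟩, ?_⟩
      change ρ k _ = _
      rw [sub_one_apply, sub_one_apply, map_mul, map_mul, Module.End.mul_apply, Module.End.mul_apply, map_sub, hinv2, hinv2]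
  rw [heq] at hr'
  exact hr'

/-- two-transitivity of `A_7` on the nonzero vectors -/
theorem a7_two_transitive (ρ : alternatingGroup (Fin 7) →* Module.End 𝔽₂ V) (hρ : Function.Injective ρ) (hV : Module.finrank 𝔽₂ V = 4)
    (v w v' w' : V) (hv : v ≠ 0) (hw : w ≠ 0) (hvw : v ≠ w) (hv' : v' ≠ 0) (hw' : w' ≠ 0) (hvw' : v' ≠ w') :
    ∃ g, ρ g v = v' ∧ ρ g w = w' := by
  have hp7 : Fact (Nat.Prime 7) := ⟨by norm_num⟩
  have hp5 : Fact (Nat.Prime 5) := ⟨by norm_num⟩
  have hcard : Nat.card (alternatingGroup (Fin 7)) = 2520 := by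
    rw [nat_card_alternatingGroup, Nat.card_fin]
    rfl
  obtain ⟨g, hg⟩ := exists_prime_orderOf_dvd_card' (G := alternatingGroup (Fin 7)) 7 (by rw [hcard]; norm_num)
  obtain ⟨h, hh⟩ := exists_prime_orderOf_dvd_card' (G := alternatingGroup (Fin 7)) 5 (by rw [hcard]; norm_num)
  obtain ⟨v₀, hv₀, hgv, hall⟩ := fix7 ρ hρ hV g hg
  have htr := transitive_of_dvd ρ hρ hV g hg h hh v₀ hv₀ hgv hall
  have hinv : ∀ k x, ρ k⁻¹ (ρ k x) = x := by
    intro k x
    rw [← Module.End.mul_apply, ← map_mul, inv_mul_cancel, map_one]; rfl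
  have hinv2 : ∀ k x, ρ k (ρ k⁻¹ x) = x := by
    intro k x
    rw [← Module.End.mul_apply, ← map_mul, mul_inv_cancel, map_one]; rfl
  have key : ∀ a b : V, a ≠ 0 → a ≠ v₀ → b ≠ 0 → b ≠ v₀ → ∃ k, ρ k v₀ = v₀ ∧ ρ k a = b := by
    intro a b ha0 hav hb0 hbv
    by_contra hcon
    obtain ⟨U, hU, hvU, hUinv⟩ := stab_transitive ρ hρ hV g hg v₀ hv₀ hgv hall a b ha0 hav hb0 hbv
      (fun k hk h => hcon ⟨k, hk, h⟩)
    have hrk := rank_one_involutions ρ hV hρ v₀ hv₀ htr U hU hvU hUinv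
    let t₁ : alternatingGroup (Fin 7) := ⟨Equiv.swap 3 4 * Equiv.swap 5 6, by rw [Equiv.Perm.mem_alternatingGroup]; decide +kernel⟩
    let t₂ : alternatingGroup (Fin 7) := ⟨Equiv.swap 3 5 * Equiv.swap 4 6, by rw [Equiv.Perm.mem_alternatingGroup]; decide +kernel⟩
    let y : alternatingGroup (Fin 7) := ⟨Equiv.swap 0 1 * Equiv.swap 1 2, by rw [Equiv.Perm.mem_alternatingGroup]; decide +kernel⟩
    have e1 : t₁ * t₁ = 1 := by decide +kernel
    have e2 : t₂ * t₂ = 1 := by decide +kernel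
    have e3 : t₁ * t₂ = t₂ * t₁ := by decide +kernel
    have e4 : y * t₁ = t₁ * y := by decide +kernel
    have e5 : y * t₂ = t₂ * y := by decide +kernel
    have e6 : y * y * y = 1 := by decide +kernel
    have e7 : y ≠ 1 := by decide +kernel
    have e8 : t₁ ≠ 1 := by decide +kernel
    have e9 : t₂ ≠ 1 := by decide +kernel
    have e10 : t₁ ≠ t₂ := by decide +kernel
    have sq : ∀ t : alternatingGroup (Fin 7), t * t = 1 → (ρ t - 1) * (ρ t - 1) = 0 := by
      intro t ht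
      apply LinearMap.ext
      intro x
      rw [Module.End.mul_apply, sub_one_apply, sub_one_apply, map_sub]
      have h1 : ρ t (ρ t x) = x := by
        rw [← Module.End.mul_apply, ← map_mul, ht, map_one]; rfl
      rw [h1]
      have h2 : x - ρ t x - (ρ t x - x) = (x + x) - (ρ t x + ρ t x) := by abel
      rw [h2, dbl, dbl, sub_zero]; rfl
    have cm : ∀ s t : alternatingGroup (Fin 7), s * t = t * s → ρ s * ρ t = ρ t * ρ s := by
      intro s t hst
      rw [← map_mul, ← map_mul, hst]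
    have h1 := two_transvections hV (ρ t₁ - 1) (ρ t₂ - 1) (ρ y) (sq _ e1) (sq _ e2)
      (by
        have := cm _ _ e3
        rw [sub_mul, mul_sub, sub_mul, mul_sub (ρ t₂) (ρ t₁) 1, this, mul_one, mul_one, one_mul, one_mul]
        exact sub_sub_sub_comm (ρ t₂ * ρ t₁) (ρ t₁) (ρ t₂) 1)
      (by rw [mul_sub, sub_mul, cm _ _ e4, mul_one, one_mul])
      (by rw [mul_sub, sub_mul, cm _ _ e5, mul_one, one_mul])
      (by rw [← map_mul, ← map_mul, e6, map_one])
      (fun h => e7 (hρ (h.trans (map_one ρ).symm))) (hrk _ e1 e8) (hrk _ e2 e9)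
    exact e10 (hρ (sub_left_injective h1))
  obtain ⟨k₁, hk₁⟩ := htr v hv
  obtain ⟨k₂, hk₂⟩ := htr v' hv'
  have inj : ∀ k : alternatingGroup (Fin 7), Function.Injective (ρ k) := fun k => Function.LeftInverse.injective (hinv k)
  obtain ⟨s, hs1, hs2⟩ := key (ρ k₁⁻¹ w) (ρ k₂⁻¹ w')
    (fun h => hw (inj k₁⁻¹ (h.trans (map_zero _).symm)))
    (fun h => hvw (by rw [← hk₁, ← h, hinv2]))
    (fun h => hw' (inj k₂⁻¹ (h.trans (map_zero _).symm)))
    (fun h => hvw' (by rw [← hk₂, ← h, hinv2]))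
  refine ⟨k₂ * s * k₁⁻¹, ?_, ?_⟩
  · rw [map_mul, map_mul, Module.End.mul_apply, Module.End.mul_apply, ← hk₁, hinv, hs1, hk₂]
  · rw [map_mul, map_mul, Module.End.mul_apply, Module.End.mul_apply, hs2, hinv2]

end grp

/-- the matrix form over `ZMod 2` -/
theorem a7_main (H : Subgroup (GL (Fin 4) 𝔽₂)) (e : H ≃* alternatingGroup (Fin 7))
    (v w v' w' : Fin 4 → 𝔽₂) (hv : v ≠ 0) (hw : w ≠ 0) (hvw : v ≠ w) (hv' : v' ≠ 0) (hw' : w' ≠ 0) (hvw' : v' ≠ w') :
    ∃ g ∈ H, (g : Matrix (Fin 4) (Fin 4) 𝔽₂).mulVec v = v' ∧ (g : Matrix (Fin 4) (Fin 4) 𝔽₂).mulVec w = w' := by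
  let ρ : alternatingGroup (Fin 7) →* Module.End 𝔽₂ (Fin 4 → 𝔽₂) :=
    ((Matrix.toLinAlgEquiv' : Matrix (Fin 4) (Fin 4) 𝔽₂ ≃ₐ[𝔽₂] _).toMonoidHom).comp ((Units.coeHom _).comp (H.subtype.comp e.symm.toMonoidHom))
  have hρ : Function.Injective ρ :=
    (Matrix.toLinAlgEquiv' : Matrix (Fin 4) (Fin 4) 𝔽₂ ≃ₐ[𝔽₂] _).injective.comp (Units.val_injective.comp ((Subgroup.subtype_injective _).comp e.symm.injective))
  have hρ' : ∀ g x, ρ g x = ((e.symm g : GL (Fin 4) 𝔽₂) : Matrix (Fin 4) (Fin 4) 𝔽₂).mulVec x := fun _ _ => rfl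
  obtain ⟨g, h1, h2⟩ := a7_two_transitive ρ hρ (by rw [Module.finrank_fintype_fun_eq_card, Fintype.card_fin]) v w v' w' hv hw hvw hv' hw' hvw'
  exact ⟨_, (e.symm g).2, h1, h2⟩

theorem a7_exists : ∃ H : Subgroup (GL (Fin 4) 𝔽₂), Nonempty (H ≃* alternatingGroup (Fin 7)) := by
  obtain ⟨e⟩ := exists_GL4_equiv
  -- `A_7 ≤ A_8`
  have h7 : Function.Injective (Equiv.Perm.viaEmbeddingHom (Fin.castSuccEmb (n := 7))) := Equiv.Perm.viaEmbeddingHom_injective _
  let φ : alternatingGroup (Fin 7) →* Equiv.Perm (Fin 8) :=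
    (Equiv.Perm.viaEmbeddingHom (Fin.castSuccEmb (n := 7))).comp (alternatingGroup (Fin 7)).subtype
  have hφ : Function.Injective φ := h7.comp (Subgroup.subtype_injective _)
  have hφ' : ∀ x, φ x ∈ alternatingGroup (Fin 8) := by
    intro x
    rw [Equiv.Perm.mem_alternatingGroup]
    change Equiv.Perm.sign (Equiv.Perm.viaEmbedding (x : Equiv.Perm (Fin 7)) _) = 1
    unfold Equiv.Perm.viaEmbedding
    classical
    have := Equiv.Perm.sign_extendDomain (x : Equiv.Perm (Fin 7)) (Equiv.ofInjective (Fin.castSuccEmb (n := 7)).1 (Fin.castSuccEmb (n := 7)).2)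
    have h2 : Equiv.Perm.sign (x : Equiv.Perm (Fin 7)) = 1 := x.2
    rw [h2] at this
    convert this
  let ψ : alternatingGroup (Fin 7) →* GL (Fin 4) 𝔽₂ := e.symm.toMonoidHom.comp (φ.codRestrict _ hφ')
  have hψ : Function.Injective ψ := e.symm.injective.comp (fun a b h => hφ (congrArg Subtype.val h))
  exact ⟨ψ.range, ⟨(MonoidHom.ofInjective hψ).symm⟩⟩

end Cfsg.Agent.H43
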