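import Mathlib
import Cfsg.Prelude.Def_Classical

set_option autoImplicit false
set_option linter.unusedSectionVars false

/-! Quadratic forms over the field of two elements: character sums, transvections and types. -/

namespace Cfsg.Agent.H43

/-- The nontrivial character of `ZMod 2` with values in `ℤ`. -/
def sg (a : ZMod 2) : ℤ := if a = 0 then 1 else -1

theorem sg_zero : sg 0 = 1 := rfl

theorem sg_one : sg 1 = -1 := rfl

theorem sg_add : ∀ a b : ZMod 2, sg (a + b) = sg a * sg b := by decide

theorem sg_ne_zero : ∀ a : ZMod 2, sg a ≠ 0 := by decide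

theorem sg_mul_self : ∀ a : ZMod 2, sg a * sg a = 1 := by decide

theorem zmod2_cases : ∀ a : ZMod 2, a = 0 ∨ a = 1 := by decide

/-- The character sum of a function to `ZMod 2`. -/
def csum {V : Type*} [Fintype V] (q : V → ZMod 2) : ℤ := ∑ v, sg (q v)

theorem csum_comp {V W : Type*} [Fintype V] [Fintype W] (e : V ≃ W) (q : W → ZMod 2) :
    csum (fun v => q (e v)) = csum q := by
  unfold csum
  exact Equiv.sum_comp e (fun w => sg (q w))

/-- Number of zeros in terms of the character sum. -/
theorem two_mul_card_zeros {V : Type*} [Fintype V] (q : V → ZMod 2) :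
    2 * (Nat.card {v : V // q v = 0} : ℤ) = Fintype.card V + csum q := by
  classical
  have h1 : (Nat.card {v : V // q v = 0} : ℤ) = ∑ v : V, if q v = 0 then 1 else 0 := by
    rw [Nat.card_eq_fintype_card, Fintype.card_subtype, Finset.card_filter]
    push_cast
    rfl
  have h2 : (Fintype.card V : ℤ) = ∑ v : V, 1 := by simp
  rw [h1, h2, csum, ← Finset.sum_add_distrib, Finset.mul_sum]
  refine Finset.sum_congr rfl fun v _ => ?_
  unfold sg
  split_ifs <;> norm_num

theorem two_mul_card_ones {V : Type*} [Fintype V] (q : V → ZMod 2) :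
    2 * (Nat.card {v : V // q v = 1} : ℤ) = Fintype.card V - csum q := by
  classical
  have h1 : (Nat.card {v : V // q v = 1} : ℤ) = ∑ v : V, if q v = 1 then 1 else 0 := by
    rw [Nat.card_eq_fintype_card, Fintype.card_subtype, Finset.card_filter]
    push_cast
    rfl
  have h2 : (Fintype.card V : ℤ) = ∑ v : V, 1 := by simp
  rw [h1, h2, csum, ← Finset.sum_sub_distrib, Finset.mul_sum]
  refine Finset.sum_congr rfl fun v _ => ?_
  rcases zmod2_cases (q v) with h | h <;> rw [h] <;> decide

section Forms

variable {V : Type*} [AddCommGroup V] [Module (ZMod 2) V] {f : V → V → ZMod 2} {q : V → ZMod 2}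

/-- `q` polarizes to `f`. -/
def PolTo (q : V → ZMod 2) (f : V → V → ZMod 2) : Prop := ∀ u v, q (u + v) = q u + q v + f u v

/-- A symmetric biadditive form. -/
structure BiForm (f : V → V → ZMod 2) : Prop where
  add_left : ∀ u u' v, f (u + u') v = f u v + f u' v
  symm : ∀ u v, f u v = f v u
  self : ∀ v, f v v = 0

theorem BiForm.add_right (hf : BiForm f) (u v v' : V) : f u (v + v') = f u v + f u v' := by
  rw [hf.symm, hf.add_left, hf.symm v u, hf.symm v' u]

theorem BiForm.zero_left (hf : BiForm f) (v : V) : f 0 v = 0 := by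
  have := hf.add_left 0 0 v
  rw [add_zero] at this
  simpa using this

theorem BiForm.zero_right (hf : BiForm f) (v : V) : f v 0 = 0 := by
  rw [hf.symm, hf.zero_left]

theorem BiForm.smul_left (hf : BiForm f) (c : ZMod 2) (u v : V) : f (c • u) v = c * f u v := by
  rcases zmod2_cases c with rfl | rfl
  · rw [zero_smul, hf.zero_left, zero_mul]
  · rw [one_smul, one_mul]

theorem BiForm.smul_right (hf : BiForm f) (c : ZMod 2) (u v : V) : f u (c • v) = c * f u v := by
  rw [hf.symm, hf.smul_left, hf.symm]

theorem PolTo.zero (hf : BiForm f) (hq : PolTo q f) : q 0 = 0 := by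
  have := hq 0 0
  rw [add_zero, hf.zero_left] at this
  simpa using this

theorem PolTo.smul (hf : BiForm f) (hq : PolTo q f) (c : ZMod 2) (v : V) : q (c • v) = c * q v := by
  rcases zmod2_cases c with rfl | rfl
  · rw [zero_smul, hq.zero hf, zero_mul]
  · rw [one_smul, one_mul]

/-- The transvection `v ↦ v + f(v,w) w`. -/
def trv (hf : BiForm f) (w : V) : V →ₗ[ZMod 2] V where
  toFun v := v + f v w • w
  map_add' u v := by rw [hf.add_left, add_smul]; abel
  map_smul' c v := by
    rw [hf.smul_left, RingHom.id_apply, smul_add, mul_smul]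

theorem trv_apply (hf : BiForm f) (w v : V) : trv hf w v = v + f v w • w := rfl

theorem trv_invol (hf : BiForm f) (w : V) : Function.Involutive (trv hf w) := by
  intro v
  rw [trv_apply, trv_apply, hf.add_left, hf.smul_left, hf.self, mul_zero, add_zero, add_assoc, ← add_smul,
    CharTwo.add_self_eq_zero, zero_smul, add_zero]

/-- The transvection as a linear equivalence. -/
def trvE (hf : BiForm f) (w : V) : V ≃ₗ[ZMod 2] V := LinearEquiv.ofInvolutive (trv hf w) (trv_invol hf w)

theorem trvE_apply (hf : BiForm f) (w v : V) : trvE hf w v = v + f v w • w := rfl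

theorem q_trvE (hf : BiForm f) (hq : PolTo q f) (w v : V) :
    q (trvE hf w v) = q v + f v w * (1 + q w) := by
  rw [trvE_apply, hq, hq.smul hf, hf.smul_right]
  rcases zmod2_cases (f v w) with h | h <;> rw [h] <;> ring

/-- Translate of a quadratic form. -/
def tl (q : V → ZMod 2) (f : V → V → ZMod 2) (w : V) : V → ZMod 2 := fun v => q v + f v w

theorem tl_polTo (hf : BiForm f) (hq : PolTo q f) (w : V) : PolTo (tl q f w) f := by
  intro u v
  unfold tl
  rw [hq, hf.add_left]
  ring

theorem tl_eq_comp (hf : BiForm f) (hq : PolTo q f) {w : V} (hw : q w = 0) (v : V) :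
    tl q f w v = q (trvE hf w v) := by
  rw [q_trvE hf hq, hw, add_zero, mul_one]
  rfl

theorem tl_tl (hf : BiForm f) (w w' : V) : tl (tl q f w) f (w + w') = tl q f w' := by
  funext v
  unfold tl
  rw [hf.add_right]
  have := CharTwo.add_self_eq_zero (f v w)
  linear_combination this

theorem tl_apply_add (hf : BiForm f) (hq : PolTo q f) (w w' : V) :
    tl q f w (w + w') = q w + q w' := by
  unfold tl
  rw [hq, hf.add_left, hf.self, hf.symm w' w]
  have := CharTwo.add_self_eq_zero (f w w')
  linear_combination this

theorem csum_tl [Fintype V] (hq : PolTo q f) (w : V) : csum (tl q f w) = sg (q w) * csum q := by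
  rw [← csum_comp (Equiv.addRight w) q, csum, csum, Finset.mul_sum]
  refine Finset.sum_congr rfl fun v _ => ?_
  rw [Equiv.coe_addRight, hq, sg_add, sg_add]
  unfold tl
  rw [sg_add]
  have := sg_mul_self (q w)
  linear_combination (- sg (q v) * sg (f v w)) * this

/-- Two translates by vectors of the same value are equivalent. -/
theorem tl_equiv (hf : BiForm f) (hq : PolTo q f) {w w' : V} (h : q w = q w') :
    ∃ g : V ≃ₗ[ZMod 2] V, ∀ v, tl q f w' v = tl q f w (g v) := by
  refine ⟨trvE hf (w + w'), fun v => ?_⟩
  rw [← tl_eq_comp hf (tl_polTo hf hq w) (by rw [tl_apply_add hf hq, h, CharTwo.add_self_eq_zero]), tl_tl hf]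

/-- Every form polarizing to the same `f` is a translate. -/
theorem exists_tl [FiniteDimensional (ZMod 2) V] (hf : BiForm f) (hnd : ∀ v, (∀ u, f u v = 0) → v = 0)
    {q q' : V → ZMod 2} (hq : PolTo q f) (hq' : PolTo q' f) : ∃ w, q' = tl q f w := by
  let B : V →ₗ[ZMod 2] Module.Dual (ZMod 2) V :=
    LinearMap.mk₂ (ZMod 2) (fun w v => f v w) (fun w w' v => hf.add_right _ _ _) (fun c w v => hf.smul_right _ _ _)
      (fun w v v' => hf.add_left _ _ _) (fun c w v => hf.smul_left _ _ _)
  have hB : ∀ w v, B w v = f v w := fun w v => rfl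
  have hinj : Function.Injective B := by
    rw [← LinearMap.ker_eq_bot, LinearMap.ker_eq_bot']
    intro w hw
    apply hnd
    intro u
    rw [← hB, hw]; rfl
  have hsurj : Function.Surjective B := by
    refine (LinearMap.injective_iff_surjective_of_finrank_eq_finrank ?_).1 hinj
    exact (Subspace.dual_finrank_eq).symm
  let l : Module.Dual (ZMod 2) V :=
    { toFun := fun v => q' v + q v
      map_add' := by
        intro u v
        rw [hq, hq']
        have := CharTwo.add_self_eq_zero (f u v)
        linear_combination this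
      map_smul' := by
        intro c v
        rw [hq.smul hf, hq'.smul hf, RingHom.id_apply, smul_eq_mul, mul_add] }
  obtain ⟨w, hw⟩ := hsurj l
  refine ⟨w, funext fun v => ?_⟩
  unfold tl
  rw [← hB, hw]
  change q' v = q v + (q' v + q v)
  have := CharTwo.add_self_eq_zero (q v)
  linear_combination -this

/-- The character sum is the order of a self-perpendicular totally singular subspace. -/
theorem csum_eq_card [Fintype V] (hf : BiForm f) (hq : PolTo q f) (U : Submodule (ZMod 2) V)
    (hU : ∀ u ∈ U, q u = 0) (hperp : ∀ v, (∀ u ∈ U, f v u = 0) → v ∈ U) : csum q = Nat.card U := by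
  classical
  have h1 : ∀ u : U, csum q = ∑ v : V, sg (q v) * sg (f v u) := by
    intro u
    rw [← csum_comp (Equiv.addRight (u : V)) q, csum]
    refine Finset.sum_congr rfl fun v _ => ?_
    rw [Equiv.coe_addRight, hq, hU u u.2, add_zero, sg_add]
  have h2 : ∀ v : V, ∑ u : U, sg (f v u) = if v ∈ U then (Nat.card U : ℤ) else 0 := by
    intro v
    split_ifs with hv
    · have : ∀ u : U, sg (f v u) = 1 := by
        intro u
        have h3 := hq v u
        rw [hU _ (U.add_mem hv u.2), hU v hv, hU u u.2, zero_add, zero_add] at h3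
        rw [← h3]; rfl
      rw [Finset.sum_congr rfl fun u _ => this u, Finset.sum_const, Finset.card_univ, Nat.card_eq_fintype_card]
      simp
    · have h3 : ∃ u₀ ∈ U, f v u₀ = 1 := by
        by_contra hcon
        push Not at hcon
        apply hv
        apply hperp
        intro u hu
        exact (zmod2_cases _).resolve_right (hcon u hu)
      obtain ⟨u₀, hu₀, hfu⟩ := h3
      have h4 : ∑ u : U, sg (f v u) = - ∑ u : U, sg (f v u) := by
        conv_lhs => rw [← Equiv.sum_comp (Equiv.addRight (⟨u₀, hu₀⟩ : U))]
        rw [← Finset.sum_neg_distrib]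
        refine Finset.sum_congr rfl fun u _ => ?_
        rw [Equiv.coe_addRight, Submodule.coe_add, hf.add_right, sg_add, hfu, sg_one]
        ring
      linarith
  have h3 : (Nat.card U : ℤ) * csum q = (Nat.card U : ℤ) * Nat.card U := by
    have h4 : (Nat.card U : ℤ) * csum q = ∑ u : U, csum q := by
      rw [Finset.sum_const, Finset.card_univ, Nat.card_eq_fintype_card]
      simp
    rw [h4, Finset.sum_congr rfl fun u _ => h1 u, Finset.sum_comm]
    have h5 : ∀ v : V, ∑ u : U, sg (q v) * sg (f v u) = if v ∈ U then (Nat.card U : ℤ) else 0 := by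
      intro v
      rw [← Finset.mul_sum, h2]
      split_ifs with hv
      · rw [hU v hv, sg_zero, one_mul]
      · rw [mul_zero]
    rw [Finset.sum_congr rfl fun v _ => h5 v, ← Finset.sum_filter, Finset.sum_const, ← Fintype.card_subtype,
      ← Nat.card_eq_fintype_card]
    simp
  have h0 : (Nat.card U : ℤ) ≠ 0 := by
    have : 0 < Nat.card U := Nat.card_pos
    exact_mod_cast this.ne'
  exact mul_left_cancel₀ h0 h3

end Forms

end Cfsg.Agent.H43
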