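import Mathlib
import Cfsg.Agent.H43.BinQuad

set_option autoImplicit false

/-! The standard quadratic forms over the field of two elements. -/

namespace Cfsg.Agent.H43

/-- The polar form of the plus form. -/
def fP (m : ℕ) (u v : Fin m ⊕ Fin m → ZMod 2) : ZMod 2 :=
  Cfsg.quadFormPlus m (ZMod 2) (u + v) - Cfsg.quadFormPlus m (ZMod 2) u - Cfsg.quadFormPlus m (ZMod 2) v

theorem fP_eq (m : ℕ) (u v : Fin m ⊕ Fin m → ZMod 2) :
    fP m u v = ∑ i, (u (.inl i) * v (.inr i) + v (.inl i) * u (.inr i)) := by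
  unfold fP Cfsg.quadFormPlus
  rw [← Finset.sum_sub_distrib, ← Finset.sum_sub_distrib]
  refine Finset.sum_congr rfl fun i _ => ?_
  simp only [Pi.add_apply]
  ring

theorem fP_biForm (m : ℕ) : BiForm (fP m) where
  add_left u u' v := by
    rw [fP_eq, fP_eq, fP_eq, ← Finset.sum_add_distrib]
    refine Finset.sum_congr rfl fun i _ => ?_
    simp only [Pi.add_apply]
    ring
  symm u v := by
    rw [fP_eq, fP_eq]
    refine Finset.sum_congr rfl fun i _ => ?_
    ring
  self v := by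
    rw [fP_eq]
    refine Finset.sum_eq_zero fun i _ => ?_
    exact CharTwo.add_self_eq_zero _

theorem fP_nondeg (m : ℕ) (v : Fin m ⊕ Fin m → ZMod 2) (h : ∀ u, fP m u v = 0) : v = 0 := by
  funext i
  rcases i with i | i
  · have := h (Pi.single (.inr i) 1)
    rw [fP_eq] at this
    simpa [Pi.single_apply] using this
  · have := h (Pi.single (.inl i) 1)
    rw [fP_eq] at this
    simpa [Pi.single_apply] using this

theorem polTo_fP_iff (m : ℕ) (q : (Fin m ⊕ Fin m → ZMod 2) → ZMod 2) :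
    PolTo q (fP m) ↔ ∀ u v : (Fin m ⊕ Fin m → ZMod 2), q (u + v) = q u + q v + (Cfsg.quadFormPlus m (ZMod 2) (u + v) - Cfsg.quadFormPlus m (ZMod 2) u - Cfsg.quadFormPlus m (ZMod 2) v) :=
  Iff.rfl

theorem plus_polTo (m : ℕ) : PolTo (Cfsg.quadFormPlus m (ZMod 2)) (fP m) := by
  intro u v
  unfold fP
  ring

theorem sg_sum {ι : Type*} (s : Finset ι) (g : ι → ZMod 2) : sg (∑ i ∈ s, g i) = ∏ i ∈ s, sg (g i) := by
  classical
  induction s using Finset.induction_on with
  | empty => rfl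
  | insert a s ha ih => rw [Finset.sum_insert ha, Finset.prod_insert ha, sg_add, ih]

theorem csum_plus (m : ℕ) : csum (Cfsg.quadFormPlus m (ZMod 2)) = 2 ^ m := by
  classical
  have e : csum (Cfsg.quadFormPlus m (ZMod 2)) = ∑ x : Fin m → ZMod 2 × ZMod 2, ∏ i, sg ((x i).1 * (x i).2) := by
    unfold csum
    refine Fintype.sum_equiv ((Equiv.sumArrowEquivProdArrow (Fin m) (Fin m) (ZMod 2)).trans
      (Equiv.arrowProdEquivProdArrow (Fin m) (fun _ => ZMod 2) (fun _ => ZMod 2)).symm) _ _ ?_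
    intro v
    unfold Cfsg.quadFormPlus
    rw [sg_sum]
    rfl
  rw [e]
  have h := Finset.prod_univ_sum (fun _ : Fin m => (Finset.univ : Finset (ZMod 2 × ZMod 2)))
    (fun _ p => sg (p.1 * p.2))
  rw [Fintype.piFinset_univ] at h
  rw [← h, Finset.prod_const, Finset.card_univ, Fintype.card_fin]
  congr 1

theorem csum_ne_zero (m : ℕ) {q : (Fin m ⊕ Fin m → ZMod 2) → ZMod 2} (hq : PolTo q (fP m)) : csum q ≠ 0 := by
  obtain ⟨w, rfl⟩ := exists_tl (fP_biForm m) (fP_nondeg m) (plus_polTo m) hq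
  rw [csum_tl (plus_polTo m), csum_plus]
  exact mul_ne_zero (sg_ne_zero _) (by positivity)

/-- the special vector `e_last + f_last`. -/
def w0 (k : ℕ) : Fin (k + 1) ⊕ Fin (k + 1) → ZMod 2 :=
  Sum.elim (fun i => if i = Fin.last k then 1 else 0) (fun i => if i = Fin.last k then 1 else 0)

theorem plus_w0 (k : ℕ) : Cfsg.quadFormPlus (k + 1) (ZMod 2) (w0 k) = 1 := by
  unfold Cfsg.quadFormPlus w0
  simp

/-- Reindexing. -/
def reidx (k : ℕ) : (Fin k ⊕ Fin k) ⊕ Fin 2 ≃ Fin (k + 1) ⊕ Fin (k + 1) where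
  toFun := Sum.elim (Sum.elim (fun i => .inl i.castSucc) (fun i => .inr i.castSucc))
    (fun j => if j = 0 then .inl (Fin.last k) else .inr (Fin.last k))
  invFun := Sum.elim (Fin.lastCases (.inr 0) (fun i => .inl (.inl i))) (Fin.lastCases (.inr 1) (fun i => .inl (.inr i)))
  left_inv := by
    rintro ((i | i) | j)
    · simp
    · simp
    · fin_cases j <;> simp
  right_inv := by
    rintro (i | i)
    · refine Fin.lastCases ?_ (fun i => ?_) i <;> simp
    · refine Fin.lastCases ?_ (fun i => ?_) i <;> simp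

theorem minus_eq (k : ℕ) (v : Fin (k + 1) ⊕ Fin (k + 1) → ZMod 2) :
    tl (Cfsg.quadFormPlus (k + 1) (ZMod 2)) (fP (k + 1)) (w0 k) v =
      Cfsg.quadFormMinus k (ZMod 2) 1 1 (LinearEquiv.funCongrLeft (ZMod 2) (ZMod 2) (reidx k) v) := by
  unfold tl
  rw [fP_eq]
  unfold Cfsg.quadFormPlus Cfsg.quadFormMinus
  simp only [LinearEquiv.funCongrLeft_apply, LinearMap.funLeft_apply]
  rw [Fin.sum_univ_castSucc, Fin.sum_univ_castSucc]
  have h1 : ∑ i : Fin k, (v (.inl i.castSucc) * w0 k (.inr i.castSucc) + w0 k (.inl i.castSucc) * v (.inr i.castSucc)) = 0 := by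
    refine Finset.sum_eq_zero fun i _ => ?_
    unfold w0
    simp [Fin.castSucc_ne_last]
  have h2 : w0 k (.inl (Fin.last k)) = 1 := by simp [w0]
  have h3 : w0 k (.inr (Fin.last k)) = 1 := by simp [w0]
  have hsq : ∀ a : ZMod 2, a ^ 2 = a := by decide
  rw [h1, h2, h3, hsq, hsq]
  have e1 : reidx k (Sum.inr 0) = .inl (Fin.last k) := rfl
  have e2 : reidx k (Sum.inr 1) = .inr (Fin.last k) := rfl
  have e3 : ∀ i, reidx k (Sum.inl (Sum.inl i)) = .inl i.castSucc := fun i => rfl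
  have e4 : ∀ i, reidx k (Sum.inl (Sum.inr i)) = .inr i.castSucc := fun i => rfl
  simp only [e1, e2, e3, e4]
  ring

theorem csum_minus (k : ℕ) : csum (Cfsg.quadFormMinus k (ZMod 2) 1 1) = - 2 ^ (k + 1) := by
  rw [← csum_comp (LinearEquiv.funCongrLeft (ZMod 2) (ZMod 2) (reidx k)).toEquiv]
  have : (fun v => Cfsg.quadFormMinus k (ZMod 2) 1 1 ((LinearEquiv.funCongrLeft (ZMod 2) (ZMod 2) (reidx k)).toEquiv v)) =
      tl (Cfsg.quadFormPlus (k + 1) (ZMod 2)) (fP (k + 1)) (w0 k) := by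
    funext v
    rw [minus_eq]
    rfl
  rw [this, csum_tl (plus_polTo _), csum_plus, plus_w0, sg_one]
  ring

end Cfsg.Agent.H43
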