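import Mathlib
import Cfsg.Agent.H43.BinStd
import Cfsg.Agent.H43.SympEquiv
import Cfsg.Agent.Orth.Bridge

set_option autoImplicit false
set_option linter.unusedSectionVars false
set_option linter.unusedVariables false

/-! Quadratic forms over the field of two elements are determined by the character sum. -/

namespace Cfsg.Agent.H43

section bin
variable {V : Type*} [AddCommGroup V] [Module (ZMod 2) V] {f : V → V → ZMod 2} {q : V → ZMod 2}

/-- the bilinear form -/
def bilF (hf : BiForm f) : LinearMap.BilinForm (ZMod 2) V :=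
  LinearMap.mk₂ (ZMod 2) f (fun u u' v => hf.add_left u u' v) (fun c u v => hf.smul_left c u v)
    (fun u v v' => hf.add_right u v v') (fun c u v => hf.smul_right c u v)

theorem bilF_apply (hf : BiForm f) (u v : V) : bilF hf u v = f u v := rfl

theorem sympForm_two (m : ℕ) (x y : Fin m ⊕ Fin m → ZMod 2) : Cfsg.sympForm m (ZMod 2) x y = fP m x y := by
  rw [fP_eq, Cfsg.Agent.ClGeo.sympForm_eq]
  refine Finset.sum_congr rfl fun i _ => ?_
  have h : ∀ a b c d : ZMod 2, a * b - c * d = c * d + b * a := by decide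
  exact h _ _ _ _

theorem exists_equiv_tl [FiniteDimensional (ZMod 2) V] (hf : BiForm f) (hnd : ∀ v, (∀ u, f u v = 0) → v = 0)
    (hq : PolTo q f) {m : ℕ} (hm : Module.finrank (ZMod 2) V = 2 * m) :
    ∃ (e : V ≃ₗ[ZMod 2] (Fin m ⊕ Fin m → ZMod 2)) (w : Fin m ⊕ Fin m → ZMod 2), ∀ v, q v = tl (Cfsg.quadFormPlus m (ZMod 2)) (fP m) w (e v) := by
  obtain ⟨e, he⟩ := exists_symp_equiv' (bilF hf) (fun v => hf.self v) (fun v hv => hnd v fun u => by
    have := hv u
    rw [bilF_apply, hf.symm] at this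
    exact this) hm
  have hq' : PolTo (fun x => q (e.symm x)) (fP m) := by
    intro x y
    have h1 := he (e.symm x) (e.symm y)
    rw [LinearEquiv.apply_symm_apply, LinearEquiv.apply_symm_apply, sympForm_two, bilF_apply] at h1
    rw [← h1]
    simp only [map_add]
    exact hq _ _
  obtain ⟨w, hw⟩ := exists_tl (fP_biForm m) (fP_nondeg m) (plus_polTo m) hq'
  refine ⟨e, w, fun v => ?_⟩
  rw [← hw]
  simp

theorem exists_equiv_plus [Fintype V] (hf : BiForm f) (hnd : ∀ v, (∀ u, f u v = 0) → v = 0)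
    (hq : PolTo q f) {m : ℕ} (hm : Module.finrank (ZMod 2) V = 2 * m) (hc : 0 < csum q) :
    ∃ (e : V ≃ₗ[ZMod 2] (Fin m ⊕ Fin m → ZMod 2)), ∀ v, Cfsg.quadFormPlus m (ZMod 2) (e v) = q v := by
  classical
  obtain ⟨e, w, hw⟩ := exists_equiv_tl hf hnd hq hm
  have h1 : csum q = csum (tl (Cfsg.quadFormPlus m (ZMod 2)) (fP m) w) := by
    rw [← csum_comp e.toEquiv]
    congr 1
    funext v
    exact hw v
  rw [csum_tl (plus_polTo m), csum_plus] at h1
  have h2 : Cfsg.quadFormPlus m (ZMod 2) w = 0 := by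
    rcases zmod2_cases (Cfsg.quadFormPlus m (ZMod 2) w) with h | h
    · exact h
    · rw [h, sg_one] at h1
      have : (0 : ℤ) < 2 ^ m := by positivity
      omega
  obtain ⟨g, hg⟩ := tl_equiv (fP_biForm m) (plus_polTo m) (w := 0) (w' := w) (by
    rw [h2, (plus_polTo m).zero (fP_biForm m)])
  refine ⟨e.trans g, fun v => ?_⟩
  rw [hw, hg]
  unfold tl
  rw [(fP_biForm m).zero_right, add_zero]
  rfl

theorem exists_equiv_minus [Fintype V] (hf : BiForm f) (hnd : ∀ v, (∀ u, f u v = 0) → v = 0)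
    (hq : PolTo q f) {k : ℕ} (hm : Module.finrank (ZMod 2) V = 2 * (k + 1)) (hc : csum q < 0) :
    ∃ (e : V ≃ₗ[ZMod 2] ((Fin k ⊕ Fin k) ⊕ Fin 2 → ZMod 2)), ∀ v, Cfsg.quadFormMinus k (ZMod 2) 1 1 (e v) = q v := by
  classical
  obtain ⟨e, w, hw⟩ := exists_equiv_tl hf hnd hq hm
  have h1 : csum q = csum (tl (Cfsg.quadFormPlus (k + 1) (ZMod 2)) (fP (k + 1)) w) := by
    rw [← csum_comp e.toEquiv]
    congr 1
    funext v
    exact hw v
  rw [csum_tl (plus_polTo _), csum_plus] at h1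
  have h2 : Cfsg.quadFormPlus (k + 1) (ZMod 2) w = 1 := by
    rcases zmod2_cases (Cfsg.quadFormPlus (k + 1) (ZMod 2) w) with h | h
    · rw [h, sg_zero] at h1
      have : (0 : ℤ) < 2 ^ (k + 1) := by positivity
      omega
    · exact h
  obtain ⟨g, hg⟩ := tl_equiv (fP_biForm (k + 1)) (plus_polTo (k + 1)) (w := w0 k) (w' := w) (by
    rw [h2, plus_w0])
  refine ⟨(e.trans g).trans (LinearEquiv.funCongrLeft (ZMod 2) (ZMod 2) (reidx k)), fun v => ?_⟩
  rw [hw, hg, minus_eq]
  rfl

/-- Transport of a representation preserving a function. -/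
theorem exists_isometryGroup_hom {G F : Type*} [Group G] [Field F] {ι : Type} [Fintype ι] [DecidableEq ι] (Q : (ι → F) → F)
    {W : Type*} [AddCommGroup W] [Module F W] (e : W ≃ₗ[F] (ι → F)) (q : W → F) (he : ∀ v, Q (e v) = q v)
    (ρ : G →* (W ≃ₗ[F] W)) (hρ : ∀ g v, q (ρ g v) = q v) (hinj : Function.Injective ρ) :
    ∃ φ : G →* ↥(Cfsg.isometryGroup F Q), Function.Injective φ := by
  let ρ' : G →* ((ι → F) ≃ₗ[F] (ι → F)) :=
    { toFun := fun g => (e.symm.trans (ρ g)).trans e
      map_one' := by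
        apply LinearEquiv.ext
        intro v
        simp
      map_mul' := by
        intro g h
        apply LinearEquiv.ext
        intro v
        simp }
  have hρ' : ∀ g v, ρ' g v = e (ρ g (e.symm v)) := fun _ _ => rfl
  let ψ : G →* Matrix.GeneralLinearGroup ι F := (Cfsg.Agent.Orth.glE ι F).symm.toMonoidHom.comp ρ'
  have hψ : ∀ g v, (ψ g : Matrix ι ι F).mulVec v = ρ' g v := by
    intro g v
    rw [← Cfsg.Agent.Orth.glE_apply]
    change Cfsg.Agent.Orth.glE ι F ((Cfsg.Agent.Orth.glE ι F).symm (ρ' g)) v = _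
    rw [MulEquiv.apply_symm_apply]
  have hmem : ∀ g, ψ g ∈ Cfsg.isometryGroup F Q := by
    intro g u _
    have h1 : Q ((ψ g : Matrix ι ι F).mulVec u) = Q u := by
      rw [hψ, hρ', he, hρ, ← he, LinearEquiv.apply_symm_apply]
    exact h1
  refine ⟨ψ.codRestrict _ hmem, ?_⟩
  intro g h hgh
  have h1 : ψ g = ψ h := congrArg Subtype.val hgh
  apply hinj
  apply LinearEquiv.ext
  intro v
  have h2 := hψ g (e v)
  rw [h1, hψ, hρ', hρ', LinearEquiv.symm_apply_apply] at h2
  exact (e.injective h2).symm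

end bin

end Cfsg.Agent.H43
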