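import Mathlib
import Cfsg.Agent.H43.CentJordan

set_option autoImplicit false
set_option linter.unusedSectionVars false
set_option linter.unusedVariables false

/-! Counting the units of the commutant of a nilpotent endomorphism. -/

namespace Cfsg.Agent.H43

variable {F : Type*} {V : Type*} [Field F] [AddCommGroup V] [Module F V] [FiniteDimensional F V]
  {ι : Type*} [Fintype ι] [DecidableEq ι] {d : ι → ℕ} {N : Module.End F V}
  {b : Module.Basis ((k : ι) × Fin (d k)) F V}

/-- the commutant as a subspace -/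
def commE (N : Module.End F V) : Submodule F (Module.End F V) where
  carrier := {c | Commute c N}
  add_mem' := fun h h' => Commute.add_left h h'
  zero_mem' := Commute.zero_left N
  smul_mem' := fun a c h => Commute.smul_left h a

theorem mem_commE {N c : Module.End F V} : c ∈ commE N ↔ Commute c N := Iff.rfl

theorem exists_commute_of_gen (hJ : JB N d b) (hd : ∀ k, 1 ≤ d k) (w : ι → V) (hw : ∀ k, (N ^ (d k)) (w k) = 0) :
    ∃ c : Module.End F V, Commute c N ∧ ∀ k, c (gen b hd k) = w k := by
  obtain ⟨c, hc⟩ : ∃ c : Module.End F V, ∀ k (i : Fin (d k)), c (b ⟨k, i⟩) = (N ^ (i : ℕ)) (w k) :=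
    ⟨b.constr F (fun x => (N ^ (x.2 : ℕ)) (w x.1)), fun k i => by rw [Module.Basis.constr_basis]⟩
  refine ⟨c, ?_, ?_⟩
  · apply b.ext
    rintro ⟨k, i⟩
    rw [Module.End.mul_apply, Module.End.mul_apply, hJ, hc, ← Module.End.mul_apply, ← pow_succ']
    by_cases h : (i : ℕ) + 1 < d k
    · rw [dif_pos h, hc]
    · rw [dif_neg h, map_zero]
      have : (i : ℕ) + 1 = d k := by have := i.2; omega
      rw [this, hw]
  · intro k
    unfold gen
    rw [hc]
    rfl

noncomputable def commEquiv (hJ : JB N d b) (hd : ∀ k, 1 ≤ d k) : commE N ≃ₗ[F] ((k : ι) → LinearMap.ker (N ^ (d k))) := by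
  have hmem : ∀ (c : commE N) (k : ι), (N ^ (d k)) (c.1 (gen b hd k)) = 0 := by
    intro c k
    have hc : Commute c.1 N := c.2
    rw [← Module.End.mul_apply, ← (hc.pow_right _).eq, Module.End.mul_apply, pow_gen_zero hJ hd, map_zero]
  let f : commE N →ₗ[F] ((k : ι) → LinearMap.ker (N ^ (d k))) :=
    { toFun := fun c k => ⟨c.1 (gen b hd k), hmem c k⟩
      map_add' := fun c c' => rfl
      map_smul' := fun a c => rfl }
  refine LinearEquiv.ofBijective f ⟨?_, ?_⟩
  · intro c c' h
    apply Subtype.ext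
    apply b.ext
    rintro ⟨k, i⟩
    rw [apply_basis hJ hd c.2, apply_basis hJ hd c'.2]
    have : c.1 (gen b hd k) = c'.1 (gen b hd k) := congrArg Subtype.val (congrFun h k)
    rw [this]
  · intro w
    obtain ⟨c, hc, hcw⟩ := exists_commute_of_gen hJ hd (fun k => (w k : V)) (fun k => (w k).2)
    refine ⟨⟨c, hc⟩, ?_⟩
    funext k
    exact Subtype.ext (hcw k)

theorem JB_finrank_ker_pow (hJ : JB N d b) (e : ℕ) : Module.finrank F (LinearMap.ker (N ^ e)) = ∑ l, min (d l) e := by
  have h1 := LinearMap.finrank_range_add_finrank_ker (N ^ e)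
  rw [hJ.finrank_range, Module.finrank_eq_card_basis b, Fintype.card_sigma] at h1
  simp only [Fintype.card_fin] at h1
  have h2 : ∑ l, (d l - e) + ∑ l, min (d l) e = ∑ l, d l := by
    rw [← Finset.sum_add_distrib]
    refine Finset.sum_congr rfl fun l _ => ?_
    omega
  omega

theorem finrank_commE (hJ : JB N d b) (hd : ∀ k, 1 ≤ d k) :
    Module.finrank F (commE N) = ∑ k, ∑ l, min (d l) (d k) := by
  rw [(commEquiv hJ hd).finrank_eq, Module.finrank_pi_fintype]
  refine Finset.sum_congr rfl fun k _ => ?_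
  exact JB_finrank_ker_pow hJ (d k)

/-- the diagonal blocks -/
noncomputable def piB (b : Module.Basis ((k : ι) × Fin (d k)) F V) (hd : ∀ k, 1 ≤ d k) (N : Module.End F V) (D : ℕ) :
    commE N →ₗ[F] ((j : Fin D) → Matrix {k // d k = (j : ℕ)} {k // d k = (j : ℕ)} F) where
  toFun c j := blockM b hd c.1 j
  map_add' c c' := by
    funext j
    ext l k
    change (b.repr ((c.1 + c'.1) (gen b hd k.1))) ⟨l.1, ⟨0, hd l.1⟩⟩ = _
    rw [LinearMap.add_apply, map_add]
    rfl
  map_smul' a c := by
    funext j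
    ext l k
    change (b.repr ((a • c.1) (gen b hd k.1))) ⟨l.1, ⟨0, hd l.1⟩⟩ = _
    rw [LinearMap.smul_apply, map_smul]
    rfl

theorem piB_surjective (hJ : JB N d b) (hd : ∀ k, 1 ≤ d k) (D : ℕ) (hD : ∀ k, d k < D) : Function.Surjective (piB b hd N D) := by
  intro M
  obtain ⟨c, hc, hcw⟩ := exists_commute_of_gen hJ hd
    (fun k => ∑ l : {l // d l = d k}, M ⟨d k, hD k⟩ l ⟨k, rfl⟩ • gen b hd l.1) (by
      intro k
      rw [map_sum]
      apply Finset.sum_eq_zero
      rintro ⟨l, hl⟩ _
      have h0 : (N ^ (d k)) (gen b hd l) = 0 := by rw [← hl, pow_gen_zero hJ hd]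
      rw [map_smul, h0, smul_zero])
  refine ⟨⟨c, hc⟩, ?_⟩
  funext j
  ext l k
  change (b.repr (c (gen b hd k.1))) ⟨l.1, ⟨0, hd l.1⟩⟩ = _
  rw [hcw]
  obtain ⟨l, hl⟩ := l
  obtain ⟨k, hk⟩ := k
  obtain ⟨j, hj⟩ := j
  simp only at hl hk ⊢
  subst hk
  rw [map_sum, Finsupp.finsetSum_apply, Finset.sum_eq_single ⟨l, hl⟩]
  · rw [map_smul, Finsupp.smul_apply, smul_eq_mul]
    unfold gen
    rw [Module.Basis.repr_self, Finsupp.single_eq_same, mul_one]
  · intro x _ hx
    rw [map_smul, Finsupp.smul_apply, smul_eq_mul]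
    unfold gen
    rw [Module.Basis.repr_self, Finsupp.single_eq_of_ne, mul_zero]
    intro h4
    exact hx (Subtype.ext (Sigma.mk.inj h4).1.symm)
  · intro h; exact absurd (Finset.mem_univ _) h

/-- fibres of a surjective linear map -/
theorem card_preimage {F E M : Type*} [Field F] [AddCommGroup E] [Module F E] [AddCommGroup M] [Module F M]
    (f : E →ₗ[F] M) (hf : Function.Surjective f) (P : M → Prop) :
    Nat.card {x : E // P (f x)} = Nat.card (LinearMap.ker f) * Nat.card {y : M // P y} := by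
  obtain ⟨s, hs⟩ := LinearMap.exists_rightInverse_of_surjective f (LinearMap.range_eq_top.2 hf)
  have hs' : ∀ y, f (s y) = y := fun y => LinearMap.congr_fun hs y
  rw [← Nat.card_prod]
  refine Nat.card_congr
    { toFun := fun x => (⟨x.1 - s (f x.1), by rw [LinearMap.mem_ker, map_sub, hs', sub_self]⟩, ⟨f x.1, x.2⟩)
      invFun := fun z => ⟨z.1.1 + s z.2.1, by
        rw [map_add, hs', (show f z.1.1 = 0 from z.1.2), zero_add]; exact z.2.2⟩
      left_inv := fun x => Subtype.ext (by simp)
      right_inv := fun z => ?_ }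
  obtain ⟨⟨z, hz⟩, ⟨y, hy⟩⟩ := z
  have hz' : f z = 0 := hz
  apply Prod.ext
  · apply Subtype.ext
    simp [hs', hz']
  · apply Subtype.ext
    simp [hs', hz']

theorem card_isUnit_matrix {F : Type*} [Field F] [Fintype F] {κ : Type*} [Fintype κ] [DecidableEq κ] (a : ℕ)
    (ha : Fintype.card κ = a) : Nat.card {m : Matrix κ κ F // IsUnit m} = ∏ i : Fin a, (Fintype.card F ^ a - Fintype.card F ^ (i : ℕ)) := by
  have h1 : Nat.card {m : Matrix κ κ F // IsUnit m} = Nat.card (Matrix κ κ F)ˣ := by
    refine Nat.card_congr (Equiv.ofBijective (fun m : {m : Matrix κ κ F // IsUnit m} => m.2.unit) ⟨?_, ?_⟩)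
    · intro m m' h
      exact Subtype.ext (congrArg Units.val h)
    · intro u
      exact ⟨⟨u, u.isUnit⟩, Units.ext rfl⟩
  rw [h1]
  have e : κ ≃ Fin a := Fintype.equivFinOfCardEq ha
  rw [Nat.card_congr (Units.mapEquiv (Matrix.reindexRingEquiv F e).toMulEquiv).toEquiv]
  exact Matrix.card_GL_field a

theorem card_commutant_units {F : Type*} {V : Type*} [Field F] [Fintype F] [AddCommGroup V] [Module F V] [FiniteDimensional F V]
    {ι : Type*} [Fintype ι] [DecidableEq ι] {d : ι → ℕ} {N : Module.End F V}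
    {b : Module.Basis ((k : ι) × Fin (d k)) F V} (hJ : JB N d b) (hd : ∀ k, 1 ≤ d k) (D : ℕ) (hD : ∀ k, d k < D) :
    Nat.card {c : Module.End F V // Commute c N ∧ IsUnit c} =
      Fintype.card F ^ (∑ k, ∑ l, min (d l) (d k) - ∑ j : Fin D, (Finset.univ.filter (fun k => d k = (j : ℕ))).card ^ 2) *
        ∏ j : Fin D, ∏ i : Fin (Finset.univ.filter (fun k => d k = (j : ℕ))).card,
          (Fintype.card F ^ (Finset.univ.filter (fun k => d k = (j : ℕ))).card - Fintype.card F ^ (i : ℕ)) := by
  have hall : ∀ c : Module.End F V, Commute c N → (IsUnit c ↔ ∀ j : Fin D, IsUnit (blockM b hd c j)) := by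
    intro c hc
    rw [isUnit_iff_block hJ hd hc]
    constructor
    · intro h j; exact h j
    · intro h j
      by_cases hj : j < D
      · exact h ⟨j, hj⟩
      · have hE : IsEmpty {k // d k = j} := ⟨fun k => by have := hD k.1; have := k.2; omega⟩
        have : blockM b hd c j = 1 := Subsingleton.elim _ _
        rw [this]
        exact isUnit_one
  have h1 : Nat.card {c : Module.End F V // Commute c N ∧ IsUnit c} =
      Nat.card {c : commE N // ∀ j, IsUnit (piB b hd N D c j)} := by
    refine Nat.card_congr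
      { toFun := fun c => ⟨⟨c.1, c.2.1⟩, (hall c.1 c.2.1).1 c.2.2⟩
        invFun := fun c => ⟨c.1.1, c.1.2, (hall c.1.1 c.1.2).2 c.2⟩
        left_inv := fun c => rfl
        right_inv := fun c => rfl }
  rw [h1, card_preimage (piB b hd N D) (piB_surjective hJ hd D hD) (fun M => ∀ j, IsUnit (M j))]
  congr 1
  · rw [Module.natCard_eq_pow_finrank (K := F), Nat.card_eq_fintype_card]
    congr 1
    have h2 := LinearMap.finrank_range_add_finrank_ker (piB b hd N D)
    rw [LinearMap.range_eq_top.2 (piB_surjective hJ hd D hD), finrank_top, finrank_commE hJ hd, Module.finrank_pi_fintype] at h2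
    have h3 : ∑ j : Fin D, Module.finrank F (Matrix {k // d k = (j : ℕ)} {k // d k = (j : ℕ)} F) =
        ∑ j : Fin D, (Finset.univ.filter (fun k => d k = (j : ℕ))).card ^ 2 := by
      refine Finset.sum_congr rfl fun j _ => ?_
      rw [Module.finrank_matrix, Module.finrank_self, Fintype.card_subtype, mul_one, pow_two]
    rw [h3] at h2
    omega
  · rw [Nat.card_congr (Equiv.subtypePiEquivPi (p := fun (j : Fin D) (m : Matrix {k // d k = (j : ℕ)} {k // d k = (j : ℕ)} F) => IsUnit m)), Nat.card_pi]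
    refine Finset.prod_congr rfl fun j _ => ?_
    exact card_isUnit_matrix _ (Fintype.card_subtype _)

end Cfsg.Agent.H43
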