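import Mathlib
import Cfsg.Agent.H43.CentJordan2

set_option autoImplicit false
set_option linter.unusedSectionVars false
set_option linter.unusedVariables false

/-! The order of the centralizer of a unipotent matrix. -/

namespace Cfsg.Agent.H43

theorem sum_comp_eq {ι : Type*} [Fintype ι] (d : ι → ℕ) (D : ℕ) (hD : ∀ k, d k < D) (f : ℕ → ℕ) :
    ∑ k, f (d k) = ∑ i ∈ Finset.range D, (Finset.univ.filter (fun k => d k = i)).card * f i := by
  classical
  have h1 : ∀ k, f (d k) = ∑ i ∈ Finset.range D, if d k = i then f i else 0 := by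
    intro k
    rw [Finset.sum_ite_eq, if_pos (Finset.mem_range.2 (hD k))]
  simp only [h1]
  rw [Finset.sum_comm]
  refine Finset.sum_congr rfl fun i _ => ?_
  rw [← Finset.sum_filter, Finset.sum_const, smul_eq_mul]

theorem gamma_eq {ι : Type*} [Fintype ι] (d : ι → ℕ) (hd : ∀ k, 1 ≤ d k) (D : ℕ) (hD : ∀ k, d k < D) :
    ∑ k, ∑ l, min (d l) (d k) - ∑ j : Fin D, (Finset.univ.filter (fun k => d k = (j : ℕ))).card ^ 2 =
      2 * (∑ i ∈ Finset.range D, ∑ j ∈ Finset.range D,
        if i < j then i * (Finset.univ.filter (fun k => d k = i)).card * (Finset.univ.filter (fun k => d k = j)).card else 0) +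
      ∑ i ∈ Finset.range D, (i - 1) * (Finset.univ.filter (fun k => d k = i)).card ^ 2 := by
  classical
  obtain ⟨a, ha⟩ : ∃ a : ℕ → ℕ, ∀ i, a i = (Finset.univ.filter (fun k => d k = i)).card := ⟨_, fun _ => rfl⟩
  have ha0 : a 0 = 0 := by
    rw [ha, Finset.card_eq_zero, Finset.filter_eq_empty_iff]
    intro k _ h
    have := hd k
    omega
  simp only [← ha]
  have h1 : ∑ k, ∑ l, min (d l) (d k) = ∑ i ∈ Finset.range D, ∑ j ∈ Finset.range D, a i * (a j * min j i) := by
    rw [sum_comp_eq d D hD (fun x => ∑ l, min (d l) x)]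
    refine Finset.sum_congr rfl fun i _ => ?_
    rw [← ha, sum_comp_eq d D hD (fun x => min x i), Finset.mul_sum]
    refine Finset.sum_congr rfl fun j _ => ?_
    rw [← ha]
  have h2 : ∀ i j, a i * (a j * min j i) = (if i < j then i * a i * a j else 0) + (if j < i then j * a j * a i else 0) +
      (if i = j then i * a i ^ 2 else 0) := by
    intro i j
    rcases lt_trichotomy i j with h | h | h
    · rw [if_pos h, if_neg (by omega), if_neg (by omega), min_eq_right h.le]; ring
    · subst h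
      rw [if_neg (lt_irrefl i), if_pos rfl, min_self]; ring
    · rw [if_neg (by omega), if_pos h, if_neg (by omega), min_eq_left h.le]; ring
  have h3 : ∑ i ∈ Finset.range D, ∑ j ∈ Finset.range D, a i * (a j * min j i) =
      2 * (∑ i ∈ Finset.range D, ∑ j ∈ Finset.range D, if i < j then i * a i * a j else 0) + ∑ i ∈ Finset.range D, i * a i ^ 2 := by
    simp only [h2, Finset.sum_add_distrib]
    have h4 : ∑ i ∈ Finset.range D, ∑ j ∈ Finset.range D, (if j < i then j * a j * a i else 0) =
        ∑ i ∈ Finset.range D, ∑ j ∈ Finset.range D, if i < j then i * a i * a j else 0 := by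
      rw [Finset.sum_comm]
    have h5 : ∑ i ∈ Finset.range D, ∑ j ∈ Finset.range D, (if i = j then i * a i ^ 2 else 0) = ∑ i ∈ Finset.range D, i * a i ^ 2 := by
      refine Finset.sum_congr rfl fun i hi => ?_
      rw [Finset.sum_ite_eq, if_pos hi]
    rw [h4, h5]
    ring
  have h6 : ∑ i ∈ Finset.range D, i * a i ^ 2 = ∑ i ∈ Finset.range D, (i - 1) * a i ^ 2 + ∑ j : Fin D, a j ^ 2 := by
    rw [Fin.sum_univ_eq_sum_range (fun i => a i ^ 2), ← Finset.sum_add_distrib]
    refine Finset.sum_congr rfl fun i _ => ?_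
    rcases Nat.eq_zero_or_pos i with rfl | hi
    · rw [ha0]; simp
    · obtain ⟨e, rfl⟩ : ∃ e, i = e + 1 := ⟨i - 1, by omega⟩
      rw [Nat.add_sub_cancel]
      ring
  rw [h1, h3, h6]
  omega

theorem card_centralizer_jordan {F : Type*} [Field F] [Fintype F] {q : ℕ} (hF : Fintype.card F = q) {t : ℕ} (d : Fin t → ℕ)
    (hd : ∀ k, 1 ≤ d k) :
    Nat.card {g : GL ((k : Fin t) × Fin (d k)) F // (g : Matrix ((k : Fin t) × Fin (d k)) ((k : Fin t) × Fin (d k)) F) *
      Cfsg.jordanTypeMatrix d F = Cfsg.jordanTypeMatrix d F * (g : Matrix ((k : Fin t) × Fin (d k)) ((k : Fin t) × Fin (d k)) F)} =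
    q ^ (2 * (∑ i ∈ Finset.range (Finset.univ.sup d + 1), ∑ j ∈ Finset.range (Finset.univ.sup d + 1), if i < j then i * (Finset.univ.filter (fun k : Fin t => d k = i)).card * (Finset.univ.filter (fun k : Fin t => d k = j)).card else 0) + ∑ i ∈ Finset.range (Finset.univ.sup d + 1), (i - 1) * (Finset.univ.filter (fun k : Fin t => d k = i)).card ^ 2) * ∏ i ∈ Finset.range (Finset.univ.sup d + 1), ∏ j : Fin ((Finset.univ.filter (fun k : Fin t => d k = i)).card), (q ^ (Finset.univ.filter (fun k : Fin t => d k = i)).card - q ^ (j : ℕ)) := by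
  have hD : ∀ k, d k < Finset.univ.sup d + 1 := fun k => Nat.lt_succ_of_le (Finset.le_sup (Finset.mem_univ k))
  have h1 := card_commutant_units (jordan_JB d F) hd _ hD
  rw [gamma_eq d hd _ hD, hF] at h1
  rw [card_gl_commute]
  have h2 : Nat.card {g : (Module.End F (((k : Fin t) × Fin (d k)) → F))ˣ // Commute (g : Module.End F (((k : Fin t) × Fin (d k)) → F)) (Matrix.toLin' (Cfsg.jordanTypeMatrix d F))} =
      Nat.card {c : Module.End F (((k : Fin t) × Fin (d k)) → F) // Commute c (Matrix.toLin' (Cfsg.jordanTypeMatrix d F) - 1) ∧ IsUnit c} := by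
    refine Nat.card_congr (Equiv.ofBijective (fun g => ⟨g.1, (commute_sub_one_iff _ _).2 g.2, g.1.isUnit⟩) ⟨?_, ?_⟩)
    · intro g g' h
      exact Subtype.ext (Units.ext (congrArg Subtype.val h))
    · rintro ⟨c, hc, ⟨u, rfl⟩⟩
      exact ⟨⟨u, (commute_sub_one_iff _ _).1 hc⟩, rfl⟩
  rw [h2, h1]
  congr 1
  exact (Finset.prod_range (fun i => ∏ j : Fin ((Finset.univ.filter (fun k : Fin t => d k = i)).card), (q ^ (Finset.univ.filter (fun k : Fin t => d k = i)).card - q ^ (j : ℕ)))).symm

end Cfsg.Agent.H43
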