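import Mathlib
import Cfsg.Agent.H43.RankOne

set_option autoImplicit false
set_option linter.unusedSectionVars false

/-! Counting lemmas: class equation, transvections. -/

namespace Cfsg.Agent.H43

open Matrix

/-- Class size times centralizer order. -/
theorem card_isConj_mul_card_centralizer {G : Type*} [Group G] (g : G) :
    Nat.card {x : G // IsConj g x} * Nat.card ↥(Subgroup.centralizer ({g} : Set G)) = Nat.card G := by
  have h1 := Nat.card_congr (MulAction.orbitEquivQuotientStabilizer (ConjAct G) g)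
  have h2 : Nat.card (ConjAct G ⧸ MulAction.stabilizer (ConjAct G) g) =
      (Subgroup.centralizer ({g} : Set G)).index := by
    rw [ConjAct.stabilizer_eq_centralizer]
    rfl
  have h3 : Nat.card {x : G // IsConj g x} = Nat.card (MulAction.orbit (ConjAct G) g) := by
    apply Nat.card_congr
    apply Equiv.subtypeEquivRight
    intro x
    rw [ConjAct.mem_orbit_conjAct]
    exact isConj_comm
  rw [h3, h1, h2, Subgroup.index_mul_card]

variable {F : Type*} [Field F] [Fintype F] {n : ℕ}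

theorem card_nonzero_vec : Nat.card {a : Fin n → F // a ≠ 0} = Fintype.card F ^ n - 1 := by
  classical
  have h : Nat.card ({a : Fin n → F | a ≠ 0} : Set (Fin n → F)) = Fintype.card F ^ n - 1 := by
    have h1 : ({a : Fin n → F | a ≠ 0} : Set (Fin n → F)) = ({0} : Set (Fin n → F))ᶜ := rfl
    rw [h1, Nat.card_coe_set_eq, Set.ncard_compl, Set.ncard_singleton, Nat.card_eq_fintype_card, Fintype.card_fun, Fintype.card_fin]
  exact h

theorem card_nonzero_ortho (hn : 1 ≤ n) {a : Fin n → F} (ha : a ≠ 0) :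
    Nat.card {φ : Fin n → F // φ ≠ 0 ∧ φ ⬝ᵥ a = 0} = Fintype.card F ^ (n - 1) - 1 := by
  classical
  have h1 : Nat.card {φ : Fin n → F // φ ≠ 0 ∧ φ ⬝ᵥ a = 0} =
      Nat.card (({0} : Set (LinearMap.ker (dotL a)))ᶜ : Set (LinearMap.ker (dotL a))) := by
    refine Nat.card_congr ⟨fun φ => ⟨⟨φ.1, ?_⟩, ?_⟩, fun φ => ⟨φ.1.1, ?_, ?_⟩, ?_, ?_⟩
    · rw [LinearMap.mem_ker, dotL_apply, dotProduct_comm]; exact φ.2.2
    · intro h
      exact φ.2.1 (congrArg Subtype.val h)
    · intro h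
      exact φ.2 (Subtype.ext h)
    · have := φ.1.2
      rw [LinearMap.mem_ker, dotL_apply, dotProduct_comm] at this
      exact this
    · intro φ; rfl
    · intro φ; rfl
  rw [h1, Nat.card_coe_set_eq, Set.ncard_compl, Set.ncard_singleton, Module.natCard_eq_pow_finrank (K := F),
    Nat.card_eq_fintype_card (α := F)]
  have h2 := finrank_ker_dotL ha
  rw [Fintype.card_fin] at h2
  have h3 : Module.finrank F (LinearMap.ker (dotL a)) = n - 1 := by omega
  rw [h3]

/-- The number of incident pairs (nonzero vector, nonzero functional). -/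
theorem card_flags (hn : 1 ≤ n) :
    Nat.card {p : (Fin n → F) × (Fin n → F) // p.1 ≠ 0 ∧ p.2 ≠ 0 ∧ p.2 ⬝ᵥ p.1 = 0} =
      (Fintype.card F ^ n - 1) * (Fintype.card F ^ (n - 1) - 1) := by
  classical
  have e : {p : (Fin n → F) × (Fin n → F) // p.1 ≠ 0 ∧ p.2 ≠ 0 ∧ p.2 ⬝ᵥ p.1 = 0} ≃
      (Σ a : {a : Fin n → F // a ≠ 0}, {φ : Fin n → F // φ ≠ 0 ∧ φ ⬝ᵥ a.1 = 0}) :=
    ⟨fun p => ⟨⟨p.1.1, p.2.1⟩, ⟨p.1.2, p.2.2⟩⟩, fun s => ⟨(s.1.1, s.2.1), s.1.2, s.2.2⟩, fun p => rfl, fun s => rfl⟩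
  rw [Nat.card_congr e, Nat.card_sigma, Finset.sum_congr rfl (fun a _ => card_nonzero_ortho hn a.2),
    Finset.sum_const, Finset.card_univ, smul_eq_mul, ← Nat.card_eq_fintype_card, card_nonzero_vec]

/-- Outer products agree iff they differ by a scalar. -/
theorem vecMulVec_eq_iff {ι : Type*} [Fintype ι] [DecidableEq ι] {a b φ ψ : ι → F} (ha : a ≠ 0) (hφ : φ ≠ 0)
    (hb : b ≠ 0) (hψ : ψ ≠ 0) :
    vecMulVec a φ = vecMulVec b ψ ↔ ∃ c : F, c ≠ 0 ∧ b = c • a ∧ ψ = c⁻¹ • φ := by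
  constructor
  · intro h
    have hij : ∀ i j, a i * φ j = b i * ψ j := fun i j => congrFun (congrFun h i) j
    obtain ⟨j, hj⟩ := Function.ne_iff.1 hψ
    simp only [Pi.zero_apply] at hj
    have hb' : b = (φ j * (ψ j)⁻¹) • a := by
      funext i
      rw [Pi.smul_apply, smul_eq_mul]
      field_simp
      linear_combination -(hij i j)
    have hc : φ j * (ψ j)⁻¹ ≠ 0 := by
      intro h0
      rw [h0, zero_smul] at hb'
      exact hb hb'
    refine ⟨φ j * (ψ j)⁻¹, hc, hb', ?_⟩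
    obtain ⟨i, hi⟩ := Function.ne_iff.1 hb
    simp only [Pi.zero_apply] at hi
    funext k
    rw [Pi.smul_apply, smul_eq_mul]
    have h1 := hij i k
    have h2 := congrFun hb' i
    rw [Pi.smul_apply, smul_eq_mul] at h2
    rw [h2] at h1
    have hai : a i ≠ 0 := by
      intro h0; rw [h0, mul_zero] at h2; exact hi h2
    have hne : φ j * (ψ j)⁻¹ * a i ≠ 0 := mul_ne_zero hc hai
    rw [eq_inv_mul_iff_mul_eq₀ hc]
    apply mul_left_cancel₀ hai
    linear_combination -h1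
  · rintro ⟨c, hc, rfl, rfl⟩
    ext i j
    simp only [vecMulVec_apply, Pi.smul_apply, smul_eq_mul]
    field_simp

/-- The number of transvections (as matrices) times `q - 1`. -/
theorem card_transvections (hn : 1 ≤ n) :
    Nat.card {M : Matrix (Fin n) (Fin n) F // Cfsg.IsTransvection M} * (Fintype.card F - 1) =
      (Fintype.card F ^ n - 1) * (Fintype.card F ^ (n - 1) - 1) := by
  classical
  rw [← card_flags hn]
  have hex : ∀ M : {M : Matrix (Fin n) (Fin n) F // Cfsg.IsTransvection M}, ∃ p : (Fin n → F) × (Fin n → F),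
      p.1 ≠ 0 ∧ p.2 ≠ 0 ∧ p.2 ⬝ᵥ p.1 = 0 ∧ M.1 = 1 + vecMulVec p.1 p.2 := by
    intro M
    obtain ⟨a, φ, h1, h2, h3, h4⟩ := exists_of_isTransvection M.2
    exact ⟨(a, φ), h1, h2, h3, h4⟩
  choose p hp1 hp2 hp3 hp4 using hex
  have hT : ∀ a φ : Fin n → F, a ≠ 0 → φ ≠ 0 → φ ⬝ᵥ a = 0 → Cfsg.IsTransvection (1 + vecMulVec a φ) := by
    intro a φ ha hφ h
    refine ⟨?_, ?_⟩
    · rw [add_sub_cancel_left]
      refine le_antisymm (Matrix.rank_vecMulVec_le _ _) ?_
      rw [Nat.one_le_iff_ne_zero]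
      intro h0
      have h1 : LinearMap.range (vecMulVec a φ).mulVecLin = ⊥ := Submodule.finrank_eq_zero.1 h0
      rw [LinearMap.range_eq_bot] at h1
      obtain ⟨i, hi⟩ := Function.ne_iff.1 ha
      obtain ⟨j, hj⟩ := Function.ne_iff.1 hφ
      have := congrFun (LinearMap.congr_fun h1 (Pi.single j 1)) i
      rw [Matrix.mulVecLin_apply, Matrix.mulVec_single_one] at this
      exact mul_ne_zero hi hj this
    · rw [add_sub_cancel_left, Matrix.vecMulVec_mul_vecMulVec, h]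
      simp
  have h1 : Fintype.card F - 1 = Nat.card {c : F // c ≠ 0} := by
    rw [Nat.card_eq_fintype_card, Fintype.card_subtype_compl, Fintype.card_subtype_eq]
  rw [h1, ← Nat.card_prod]
  refine Nat.card_congr (Equiv.ofBijective
    (fun x : {M : Matrix (Fin n) (Fin n) F // Cfsg.IsTransvection M} × {c : F // c ≠ 0} =>
      (⟨(x.2.1 • (p x.1).1, x.2.1⁻¹ • (p x.1).2), smul_ne_zero x.2.2 (hp1 _), smul_ne_zero (inv_ne_zero x.2.2) (hp2 _),
        by rw [smul_dotProduct, dotProduct_smul, hp3, smul_zero, smul_zero]⟩ :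
        {p : (Fin n → F) × (Fin n → F) // p.1 ≠ 0 ∧ p.2 ≠ 0 ∧ p.2 ⬝ᵥ p.1 = 0})) ⟨?_, ?_⟩)
  · rintro ⟨M, c⟩ ⟨M', c'⟩ h
    have h2 := congrArg Subtype.val h
    simp only [Prod.mk.injEq] at h2
    have h3 : M = M' := by
      apply Subtype.ext
      rw [hp4 M, hp4 M']
      congr 1
      have e1 : vecMulVec (c.1 • (p M).1) (c.1⁻¹ • (p M).2) = vecMulVec (p M).1 (p M).2 := by
        ext i j
        have := c.2
        simp only [vecMulVec_apply, Pi.smul_apply, smul_eq_mul]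
        field_simp
      have e2 : vecMulVec (c'.1 • (p M').1) (c'.1⁻¹ • (p M').2) = vecMulVec (p M').1 (p M').2 := by
        ext i j
        have := c'.2
        simp only [vecMulVec_apply, Pi.smul_apply, smul_eq_mul]
        field_simp
      rw [← e1, ← e2, h2.1, h2.2]
    subst h3
    obtain ⟨i, hi⟩ := Function.ne_iff.1 (hp1 M)
    simp only [Pi.zero_apply] at hi
    have h4 := congrFun h2.1 i
    simp only [Pi.smul_apply, smul_eq_mul] at h4
    have h5 : c = c' := Subtype.ext (mul_right_cancel₀ hi h4)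
    rw [h5]
  · rintro ⟨⟨a, φ⟩, ha, hφ, h⟩
    obtain ⟨M, hM⟩ : ∃ M : {M : Matrix (Fin n) (Fin n) F // Cfsg.IsTransvection M}, M.1 = 1 + vecMulVec a φ :=
      ⟨⟨_, hT a φ ha hφ h⟩, rfl⟩
    have h2 : vecMulVec (p M).1 (p M).2 = vecMulVec a φ := by
      have := hp4 M
      rw [hM] at this
      exact (add_left_cancel this).symm
    obtain ⟨c, hc, h3, h4⟩ := (vecMulVec_eq_iff (hp1 M) (hp2 M) ha hφ).1 h2
    refine ⟨⟨M, ⟨c, hc⟩⟩, ?_⟩
    apply Subtype.ext
    exact Prod.ext h3.symm h4.symm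

end Cfsg.Agent.H43
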