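import Mathlib
import Cfsg.Agent.H43.BinClass

set_option autoImplicit false
set_option linter.unusedSectionVars false
set_option linter.unusedVariables false

/-! The symmetric group of degree `4k+4` acting on even subsets modulo complement. -/

namespace Cfsg.Agent.H43

section wt
variable {n : ℕ}

/-- weight -/
def wt (X : Fin n → ZMod 2) : ℕ := (Finset.univ.filter (fun i => X i = 1)).card

/-- dot product -/
def dot (X Y : Fin n → ZMod 2) : ZMod 2 := ∑ i, X i * Y i

theorem wt_eq (X : Fin n → ZMod 2) : wt X = ∑ i, if X i = 1 then 1 else 0 := Finset.card_filter _ _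

theorem wt_add (X Y : Fin n → ZMod 2) : wt (X + Y) + 2 * (Finset.univ.filter (fun i => X i = 1 ∧ Y i = 1)).card = wt X + wt Y := by
  rw [wt_eq, wt_eq, wt_eq, Finset.card_filter, Finset.mul_sum, ← Finset.sum_add_distrib, ← Finset.sum_add_distrib]
  refine Finset.sum_congr rfl fun i _ => ?_
  rw [Pi.add_apply]
  have h : ∀ a b : ZMod 2, (if a + b = 1 then 1 else 0) + 2 * (if a = 1 ∧ b = 1 then 1 else 0) = ((if a = 1 then 1 else 0) + (if b = 1 then 1 else 0) : ℕ) := by decide
  exact h _ _

theorem wt_cast (X : Fin n → ZMod 2) : (wt X : ZMod 2) = ∑ i, X i := by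
  rw [wt_eq, Nat.cast_sum]
  refine Finset.sum_congr rfl fun i _ => ?_
  have h : ∀ a : ZMod 2, (((if a = 1 then 1 else 0 : ℕ)) : ZMod 2) = a := by decide
  exact h _

theorem dot_cast (X Y : Fin n → ZMod 2) : ((Finset.univ.filter (fun i => X i = 1 ∧ Y i = 1)).card : ZMod 2) = dot X Y := by
  rw [Finset.card_filter, Nat.cast_sum]
  refine Finset.sum_congr rfl fun i _ => ?_
  have h : ∀ a b : ZMod 2, (((if a = 1 ∧ b = 1 then 1 else 0 : ℕ)) : ZMod 2) = a * b := by decide
  exact h _ _

/-- sum functional -/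
def sumL (n : ℕ) : (Fin n → ZMod 2) →ₗ[ZMod 2] ZMod 2 := ∑ i, LinearMap.proj i

theorem sumL_apply (X : Fin n → ZMod 2) : sumL n X = ∑ i, X i := by
  simp [sumL]

/-- even vectors -/
def evE (n : ℕ) : Submodule (ZMod 2) (Fin n → ZMod 2) := LinearMap.ker (sumL n)

theorem mem_evE (X : Fin n → ZMod 2) : X ∈ evE n ↔ Even (wt X) := by
  rw [evE, LinearMap.mem_ker, sumL_apply, ← wt_cast, ZMod.natCast_eq_zero_iff, even_iff_two_dvd]

theorem sum_of_mem {X : Fin n → ZMod 2} (h : X ∈ evE n) : ∑ i, X i = 0 := by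
  rw [evE, LinearMap.mem_ker, sumL_apply] at h
  exact h

/-- half the weight -/
def q0 (X : Fin n → ZMod 2) : ZMod 2 := ((wt X / 2 : ℕ) : ZMod 2)

theorem q0_add {X Y : Fin n → ZMod 2} (hX : X ∈ evE n) (hY : Y ∈ evE n) : q0 (X + Y) = q0 X + q0 Y + dot X Y := by
  have h1 := wt_add X Y
  have hXY := (evE n).add_mem hX hY
  rw [mem_evE] at hX hY hXY
  obtain ⟨a, ha⟩ := hX
  obtain ⟨b, hb⟩ := hY
  obtain ⟨c, hc⟩ := hXY
  unfold q0
  rw [← dot_cast]
  have h2 : wt (X + Y) / 2 + (Finset.univ.filter (fun i => X i = 1 ∧ Y i = 1)).card = wt X / 2 + wt Y / 2 := by omega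
  have h3 := congrArg (Nat.cast : ℕ → ZMod 2) h2
  rw [Nat.cast_add, Nat.cast_add] at h3
  have h4 : ∀ a b c d : ZMod 2, a + b = c + d → a = c + d + b := by decide
  exact h4 _ _ _ _ h3

theorem dot_one (X : Fin n → ZMod 2) : dot X 1 = ∑ i, X i := by
  unfold dot
  simp

theorem wt_one : wt (1 : Fin n → ZMod 2) = n := by
  unfold wt
  simp

theorem wt_perm (σ : Equiv.Perm (Fin n)) (X : Fin n → ZMod 2) : wt (fun i => X (σ i)) = wt X := by
  rw [wt_eq, wt_eq]
  exact Equiv.sum_comp σ (fun i => if X i = 1 then 1 else 0)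

end wt

section main
variable (k : ℕ)

theorem one_mem_evE : (1 : Fin (4 * k + 4) → ZMod 2) ∈ evE (4 * k + 4) := by
  rw [mem_evE, wt_one]
  exact ⟨2 * k + 2, by ring⟩

/-- the line of constant vectors -/
def lin1 : Submodule (ZMod 2) (evE (4 * k + 4)) := Submodule.span (ZMod 2) {⟨1, one_mem_evE k⟩}

theorem mem_lin1 (X : evE (4 * k + 4)) : X ∈ lin1 k ↔ (X : Fin (4 * k + 4) → ZMod 2) = 0 ∨ (X : Fin (4 * k + 4) → ZMod 2) = 1 := by
  rw [lin1, Submodule.mem_span_singleton]
  constructor
  · rintro ⟨a, rfl⟩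
    rcases zmod2_cases a with rfl | rfl
    · left; simp
    · right; simp
  · rintro (h | h)
    · exact ⟨0, Subtype.ext (by rw [h]; simp)⟩
    · exact ⟨1, Subtype.ext (by rw [h]; simp)⟩

/-- the module -/
abbrev VV := (evE (4 * k + 4)) ⧸ (lin1 k)

theorem q0_one : q0 (1 : Fin (4 * k + 4) → ZMod 2) = 0 := by
  unfold q0
  rw [wt_one]
  have : (4 * k + 4) / 2 = 2 * (k + 1) := by omega
  rw [this, Nat.cast_mul]
  have : ((2 : ℕ) : ZMod 2) = 0 := by decide
  rw [this, zero_mul]

theorem q0_zero {n : ℕ} : q0 (0 : Fin n → ZMod 2) = 0 := by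
  unfold q0 wt
  simp

theorem q0_congr (X Y : evE (4 * k + 4)) (h : (Submodule.Quotient.mk X : VV k) = Submodule.Quotient.mk Y) :
    q0 (X : Fin (4 * k + 4) → ZMod 2) = q0 (Y : Fin (4 * k + 4) → ZMod 2) := by
  rw [Submodule.Quotient.eq, mem_lin1] at h
  rcases h with h | h
  · have : X = Y := by
      rw [Submodule.coe_sub, sub_eq_zero] at h
      exact Subtype.ext h
    rw [this]
  · have h1 : (X : Fin (4 * k + 4) → ZMod 2) = Y + 1 := by
      rw [Submodule.coe_sub] at h
      rw [← h]; abel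
    have h2 := sum_of_mem Y.2
    rw [h1, q0_add Y.2 (one_mem_evE k), q0_one, dot_one, h2]
    ring

/-- the quadratic form -/
noncomputable def qV (v : VV k) : ZMod 2 := q0 ((Quotient.out v : evE (4 * k + 4)) : Fin (4 * k + 4) → ZMod 2)

theorem qV_mk (X : evE (4 * k + 4)) : qV k (Submodule.Quotient.mk X) = q0 (X : Fin (4 * k + 4) → ZMod 2) := by
  apply q0_congr
  exact Quotient.out_eq _

/-- the polar form -/
noncomputable def fV (u v : VV k) : ZMod 2 := qV k (u + v) + qV k u + qV k v

theorem fV_mk (X Y : evE (4 * k + 4)) : fV k (Submodule.Quotient.mk X) (Submodule.Quotient.mk Y) = dot (X : Fin (4 * k + 4) → ZMod 2) Y := by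
  unfold fV
  rw [← Submodule.Quotient.mk_add, qV_mk, qV_mk, qV_mk, Submodule.coe_add, q0_add X.2 Y.2]
  have h4 : ∀ a b c : ZMod 2, a + b + c + a + b = c := by decide
  exact h4 _ _ _

theorem fV_biForm : BiForm (fV k) where
  add_left u u' v := by
    induction u using Submodule.Quotient.induction_on with | H X => ?_
    induction u' using Submodule.Quotient.induction_on with | H X' => ?_
    induction v using Submodule.Quotient.induction_on with | H Y => ?_
    rw [← Submodule.Quotient.mk_add, fV_mk, fV_mk, fV_mk, Submodule.coe_add]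
    unfold dot
    rw [← Finset.sum_add_distrib]
    refine Finset.sum_congr rfl fun i _ => ?_
    rw [Pi.add_apply, add_mul]
  symm u v := by
    unfold fV
    rw [add_comm u v, add_right_comm]
  self v := by
    induction v using Submodule.Quotient.induction_on with | H Y => ?_
    rw [fV_mk]
    unfold dot
    have h2 := sum_of_mem Y.2
    rw [← h2]
    refine Finset.sum_congr rfl fun i _ => ?_
    have h4 : ∀ a : ZMod 2, a * a = a := by decide
    exact h4 _

theorem qV_polTo : PolTo (qV k) (fV k) := by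
  intro u v
  unfold fV
  have h4 : ∀ a b c : ZMod 2, a = b + c + (a + b + c) := by decide
  exact h4 _ _ _

theorem pair_mem {n : ℕ} {i j : Fin n} (hij : i ≠ j) : (Pi.single i 1 + Pi.single j 1 : Fin n → ZMod 2) ∈ evE n := by
  rw [evE, LinearMap.mem_ker, sumL_apply]
  simp only [Pi.add_apply, Finset.sum_add_distrib, Finset.sum_pi_single', Finset.mem_univ, if_true]
  decide

theorem fV_nondeg (v : VV k) (h : ∀ u, fV k u v = 0) : v = 0 := by
  induction v using Submodule.Quotient.induction_on with | H Y => ?_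
  have h1 : ∀ i j, (Y : Fin (4 * k + 4) → ZMod 2) i = (Y : Fin (4 * k + 4) → ZMod 2) j := by
    intro i j
    by_cases hij : i = j
    · rw [hij]
    have h2 := h (Submodule.Quotient.mk ⟨_, pair_mem hij⟩)
    rw [fV_mk] at h2
    unfold dot at h2
    simp only [Pi.add_apply, add_mul, Finset.sum_add_distrib, Pi.single_apply, ite_mul, one_mul, zero_mul,
      Finset.sum_ite_eq', Finset.mem_univ, if_true] at h2
    have h4 : ∀ a b : ZMod 2, a + b = 0 → a = b := by decide
    exact h4 _ _ h2
  rw [Submodule.Quotient.mk_eq_zero, mem_lin1]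
  rcases zmod2_cases ((Y : Fin (4 * k + 4) → ZMod 2) ⟨0, by omega⟩) with h3 | h3
  · left
    funext i
    rw [h1 i ⟨0, by omega⟩, h3]; rfl
  · right
    funext i
    rw [h1 i ⟨0, by omega⟩, h3]; rfl

theorem finrank_VV : Module.finrank (ZMod 2) (VV k) = 2 * (2 * k + 1) := by
  have h1 := Submodule.finrank_quotient_add_finrank (lin1 k)
  have h2 : Module.finrank (ZMod 2) (lin1 k) = 1 := by
    unfold lin1
    apply finrank_span_singleton
    intro h
    have := congrFun (congrArg Subtype.val h) ⟨0, by omega⟩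
    exact one_ne_zero this
  have h3 := LinearMap.finrank_range_add_finrank_ker (sumL (4 * k + 4))
  have h4 : LinearMap.range (sumL (4 * k + 4)) = ⊤ := by
    rw [LinearMap.range_eq_top]
    intro a
    refine ⟨Pi.single ⟨0, by omega⟩ a, ?_⟩
    rw [sumL_apply]
    simp
  rw [h4, finrank_top, Module.finrank_self, Module.finrank_fintype_fun_eq_card, Fintype.card_fin] at h3
  have h5 : Module.finrank (ZMod 2) (evE (4 * k + 4)) = 4 * k + 3 := by
    change 1 + Module.finrank (ZMod 2) (evE (4 * k + 4)) = _ at h3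
    omega
  rw [h2, h5] at h1
  have h6 : Module.finrank (ZMod 2) (VV k) + 1 = 4 * k + 3 := h1
  omega

instance : Finite (VV k) := Finite.of_surjective _ (Submodule.mkQ_surjective (lin1 k))

noncomputable instance : Fintype (VV k) := Fintype.ofFinite _

theorem I_pow_re (X : Fin (4 * k + 4) → ZMod 2) [Decidable (X ∈ evE (4 * k + 4))] :
    (Complex.I ^ wt X).re = if X ∈ evE (4 * k + 4) then ((sg (q0 X) : ℤ) : ℝ) else 0 := by
  split_ifs with h
  · rw [mem_evE] at h
    obtain ⟨a, ha⟩ := h
    unfold q0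
    rw [ha, ← two_mul, Nat.mul_div_cancel_left _ (by norm_num), pow_mul, Complex.I_sq]
    rcases Nat.even_or_odd a with h1 | h1
    · rw [h1.neg_one_pow]
      have : (a : ZMod 2) = 0 := by rw [ZMod.natCast_eq_zero_iff]; exact h1.two_dvd
      rw [this, sg_zero]
      simp
    · rw [h1.neg_one_pow]
      have : (a : ZMod 2) = 1 := by
        rcases zmod2_cases (a : ZMod 2) with h2 | h2
        · rw [ZMod.natCast_eq_zero_iff] at h2
          exact absurd h1 (Nat.not_odd_iff_even.2 (even_iff_two_dvd.2 h2))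
        · exact h2
      rw [this, sg_one]
      simp
  · rw [mem_evE, Nat.not_even_iff_odd] at h
    obtain ⟨a, ha⟩ := h
    rw [ha, pow_succ, pow_mul, Complex.I_sq]
    rcases Nat.even_or_odd a with h1 | h1
    · rw [h1.neg_one_pow]; simp
    · rw [h1.neg_one_pow]; simp

theorem sum_I_pow (n : ℕ) : ∑ X : Fin n → ZMod 2, Complex.I ^ wt X = (1 + Complex.I) ^ n := by
  have h1 : ∀ X : Fin n → ZMod 2, Complex.I ^ wt X = ∏ i, (if X i = 1 then Complex.I else 1) := by
    intro X
    rw [wt_eq, ← Finset.prod_pow_eq_pow_sum]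
    refine Finset.prod_congr rfl fun i _ => ?_
    split_ifs <;> simp
  have h2 := Finset.prod_univ_sum (fun _ : Fin n => (Finset.univ : Finset (ZMod 2)))
    (fun _ p => if p = 1 then Complex.I else 1)
  rw [Fintype.piFinset_univ] at h2
  rw [Finset.sum_congr rfl fun X _ => h1 X, ← h2, Finset.prod_const, Finset.card_univ, Fintype.card_fin]
  congr 1
  have h3 : (Finset.univ : Finset (ZMod 2)) = {0, 1} := by decide
  rw [h3, Finset.sum_pair (by decide)]
  simp

theorem csum_qV : csum (qV k) * 2 = (-4) ^ (k + 1) := by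
  classical
  have h1 : (∑ X : evE (4 * k + 4), sg (q0 (X : Fin (4 * k + 4) → ZMod 2))) = csum (qV k) * 2 := by
    let e : evE (4 * k + 4) ≃ VV k × (lin1 k) := AddSubgroup.addGroupEquivQuotientProdAddSubgroup (s := (lin1 k).toAddSubgroup)
    have he : ∀ X, (e X).1 = Submodule.Quotient.mk X := fun X => rfl
    haveI : Fintype (lin1 k) := Fintype.ofFinite _
    rw [Fintype.sum_equiv e _ (fun p => sg (qV k p.1)) (fun X => by rw [he, qV_mk]), Fintype.sum_prod_type]
    unfold csum
    rw [Finset.sum_mul]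
    refine Finset.sum_congr rfl fun v _ => ?_
    change ∑ y : lin1 k, sg (qV k v) = _
    rw [Finset.sum_const, Finset.card_univ, ← Nat.card_eq_fintype_card]
    have h2 : Nat.card (lin1 k) = 2 := by
      rw [Module.natCard_eq_pow_finrank (K := ZMod 2)]
      have : Module.finrank (ZMod 2) (lin1 k) = 1 := by
        unfold lin1
        apply finrank_span_singleton
        intro h
        have := congrFun (congrArg Subtype.val h) ⟨0, by omega⟩
        exact one_ne_zero this
      rw [this]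
      simp
    rw [h2, nsmul_eq_mul, mul_comm]
    rfl
  rw [← h1]
  have h3 := congrArg Complex.re (sum_I_pow (4 * k + 4))
  rw [Complex.re_sum, Finset.sum_congr rfl fun X _ => I_pow_re k X, ← Finset.sum_filter] at h3
  have h4 : (∑ X : evE (4 * k + 4), sg (q0 (X : Fin (4 * k + 4) → ZMod 2))) = ∑ X ∈ Finset.univ.filter (fun X => X ∈ evE (4 * k + 4)), sg (q0 X) := by
    rw [Finset.sum_subtype (F := inferInstance) (Finset.univ.filter (fun X => X ∈ evE (4 * k + 4))) (p := fun X => X ∈ evE (4 * k + 4)) (by simp)]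
  rw [h4]
  have h5 : (1 + Complex.I) ^ (4 * k + 4) = (((-4) ^ (k + 1) : ℝ) : ℂ) := by
    have h6 : (1 + Complex.I) ^ 4 = -4 := by
      have : (1 + Complex.I) ^ 2 = 2 * Complex.I := by
        rw [add_sq, Complex.I_sq]; ring
      calc (1 + Complex.I) ^ 4 = ((1 + Complex.I) ^ 2) ^ 2 := by ring
        _ = _ := by rw [this, mul_pow, Complex.I_sq]; norm_num
    have : 4 * k + 4 = 4 * (k + 1) := by ring
    rw [this, pow_mul, h6]
    push_cast
    rfl
  rw [h5, Complex.ofReal_re] at h3
  have h7 : (((∑ X ∈ Finset.univ.filter (fun X => X ∈ evE (4 * k + 4)), sg (q0 X)) : ℤ) : ℝ) = (((-4) ^ (k + 1) : ℤ) : ℝ) := by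
    push_cast
    push_cast at h3
    exact h3
  exact_mod_cast h7

/-- the permutation action on vectors -/
def permL (n : ℕ) : Equiv.Perm (Fin n) →* Module.End (ZMod 2) (Fin n → ZMod 2) where
  toFun σ := LinearMap.funLeft (ZMod 2) (ZMod 2) (σ⁻¹ : Equiv.Perm (Fin n))
  map_one' := rfl
  map_mul' σ τ := rfl

theorem permL_apply (n : ℕ) (σ : Equiv.Perm (Fin n)) (X : Fin n → ZMod 2) (i : Fin n) : permL n σ X i = X (σ⁻¹ i) := rfl

theorem permL_mem {n : ℕ} (σ : Equiv.Perm (Fin n)) {X : Fin n → ZMod 2} (h : X ∈ evE n) : permL n σ X ∈ evE n := by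
  rw [mem_evE] at h ⊢
  have : wt (permL n σ X) = wt X := wt_perm σ⁻¹ X
  rw [this]
  exact h

theorem q0_perm {n : ℕ} (σ : Equiv.Perm (Fin n)) (X : Fin n → ZMod 2) : q0 (permL n σ X) = q0 X := by
  unfold q0
  have : wt (permL n σ X) = wt X := wt_perm σ⁻¹ X
  rw [this]

/-- on even vectors -/
def permE (n : ℕ) : Equiv.Perm (Fin n) →* Module.End (ZMod 2) (evE n) where
  toFun σ := (permL n σ).restrict (fun X h => permL_mem σ h)
  map_one' := rfl
  map_mul' σ τ := rfl

theorem permE_coe (n : ℕ) (σ : Equiv.Perm (Fin n)) (X : evE n) : ((permE n σ X : evE n) : Fin n → ZMod 2) = permL n σ X := rfl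

theorem permE_lin (σ : Equiv.Perm (Fin (4 * k + 4))) : lin1 k ≤ (lin1 k).comap (permE (4 * k + 4) σ) := by
  intro X hX
  rw [Submodule.mem_comap, mem_lin1, permE_coe]
  rw [mem_lin1] at hX
  rcases hX with h | h
  · left; rw [h, map_zero]
  · right; rw [h]; rfl

/-- on the quotient -/
def permV : Equiv.Perm (Fin (4 * k + 4)) →* Module.End (ZMod 2) (VV k) where
  toFun σ := (lin1 k).mapQ (lin1 k) (permE (4 * k + 4) σ) (permE_lin k σ)
  map_one' := by
    apply Submodule.linearMap_qext
    rfl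
  map_mul' σ τ := by
    apply Submodule.linearMap_qext
    rfl

theorem permV_mk (σ : Equiv.Perm (Fin (4 * k + 4))) (X : evE (4 * k + 4)) :
    permV k σ (Submodule.Quotient.mk X) = Submodule.Quotient.mk (permE _ σ X) := rfl

noncomputable def permV' : Equiv.Perm (Fin (4 * k + 4)) →* (VV k ≃ₗ[ZMod 2] VV k) :=
  (LinearMap.GeneralLinearGroup.generalLinearEquiv (ZMod 2) (VV k)).toMonoidHom.comp (permV k).toHomUnits

theorem permV'_apply (σ : Equiv.Perm (Fin (4 * k + 4))) (v : VV k) : permV' k σ v = permV k σ v := rfl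

theorem qV_perm (σ : Equiv.Perm (Fin (4 * k + 4))) (v : VV k) : qV k (permV' k σ v) = qV k v := by
  induction v using Submodule.Quotient.induction_on with | H X => ?_
  rw [permV'_apply, permV_mk, qV_mk, qV_mk, permE_coe, q0_perm]

theorem permV'_injective (hk : 1 ≤ k) : Function.Injective (permV' k) := by
  rw [injective_iff_map_eq_one]
  intro σ hσ
  apply Equiv.ext
  intro i
  by_contra hi
  change σ i ≠ i at hi
  obtain ⟨j, hj1⟩ : ∃ j, j ∉ ({i, σ i} : Finset (Fin (4 * k + 4))) := by
    by_contra hcon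
    push Not at hcon
    have h1 : (Finset.univ : Finset (Fin (4 * k + 4))) ⊆ {i, σ i} := fun x _ => hcon x
    have h2 := Finset.card_le_card h1
    rw [Finset.card_univ, Fintype.card_fin] at h2
    have h3 := Finset.card_le_two (a := i) (b := σ i)
    omega
  simp only [Finset.mem_insert, Finset.mem_singleton, not_or] at hj1
  obtain ⟨hji, hjs⟩ := hj1
  have h1 : permV' k σ (Submodule.Quotient.mk ⟨_, pair_mem (Ne.symm hji)⟩) = Submodule.Quotient.mk ⟨_, pair_mem (Ne.symm hji)⟩ := by
    rw [hσ]; rfl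
  rw [permV'_apply, permV_mk, Submodule.Quotient.eq, mem_lin1, Submodule.coe_sub, permE_coe] at h1
  have hc : ∀ l, (permL (4 * k + 4) σ (Pi.single i 1 + Pi.single j 1) - (Pi.single i 1 + Pi.single j 1) : Fin (4 * k + 4) → ZMod 2) l =
      (if l = σ i then 1 else 0) + (if l = σ j then 1 else 0) - ((if l = i then 1 else 0) + (if l = j then 1 else 0)) := by
    intro l
    have e1 : ∀ a, (σ⁻¹ l = a) = (l = σ a) := fun a => propext (Equiv.Perm.inv_eq_iff_eq)
    rw [Pi.sub_apply, permL_apply, Pi.add_apply, Pi.add_apply, Pi.single_apply, Pi.single_apply, Pi.single_apply, Pi.single_apply]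
    simp only [e1]
  have hne : σ i ≠ σ j := fun h => hji (σ.injective h).symm
  rcases h1 with h1 | h1
  · have h2 := congrFun h1 (σ i)
    have h3 := (hc (σ i)).symm.trans h2
    rw [if_pos rfl, if_neg hne, if_neg hi, if_neg (Ne.symm hjs)] at h3
    change (1 + 0 - (0 + 0) : ZMod 2) = 0 at h3
    exact absurd h3 (by decide)
  · obtain ⟨l, hl⟩ : ∃ l, l ∉ ({i, j, σ i, σ j} : Finset (Fin (4 * k + 4))) := by
      by_contra hcon
      push Not at hcon
      have h1 : (Finset.univ : Finset (Fin (4 * k + 4))) ⊆ {i, j, σ i, σ j} := fun x _ => hcon x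
      have h2 := Finset.card_le_card h1
      rw [Finset.card_univ, Fintype.card_fin] at h2
      have h3 := Finset.card_le_four (a := i) (b := j) (c := σ i) (d := σ j)
      omega
    simp only [Finset.mem_insert, Finset.mem_singleton, not_or] at hl
    have h2 := congrFun h1 l
    have h3 := (hc l).symm.trans h2
    rw [if_neg hl.1, if_neg hl.2.1, if_neg hl.2.2.1, if_neg hl.2.2.2] at h3
    change (0 + 0 - (0 + 0) : ZMod 2) = 1 at h3
    exact absurd h3 (by decide)

theorem perm_even_main (hk : 1 ≤ k) :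
    (Odd k → ∃ φ : Equiv.Perm (Fin (4 * k + 4)) →* ↥(Cfsg.isometryGroup (ZMod 2) (Cfsg.quadFormPlus (2 * k + 1) (ZMod 2))), Function.Injective φ) ∧
    (Even k → ∃ φ : Equiv.Perm (Fin (4 * k + 4)) →* ↥(Cfsg.isometryGroup (ZMod 2) (Cfsg.quadFormMinus (2 * k) (ZMod 2) 1 1)), Function.Injective φ) := by
  have hc := csum_qV k
  constructor
  · intro h
    have h1 : Even (k + 1) := h.add_one
    have h2 : (0 : ℤ) < (-4) ^ (k + 1) := h1.pow_pos (by norm_num)
    obtain ⟨e, he⟩ := exists_equiv_plus (fV_biForm k) (fV_nondeg k) (qV_polTo k) (finrank_VV k) (by omega)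
    exact exists_isometryGroup_hom _ e (qV k) he (permV' k) (qV_perm k) (permV'_injective k hk)
  · intro h
    have h1 : Odd (k + 1) := h.add_one
    have h2 : (-4 : ℤ) ^ (k + 1) < 0 := h1.pow_neg (by norm_num)
    obtain ⟨e, he⟩ := exists_equiv_minus (fV_biForm k) (fV_nondeg k) (qV_polTo k) (finrank_VV k) (by omega)
    exact exists_isometryGroup_hom _ e (qV k) he (permV' k) (qV_perm k) (permV'_injective k hk)

end main

end Cfsg.Agent.H43
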