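import Mathlib
import Cfsg.Agent.H99.SympElt
import Cfsg.Agent.H99.SympRed
import Cfsg.Agent.H99.SympTrans
import Cfsg.Prelude.Def_GeometricClasses
/-!
# Field extension structures on spaces with forms
-/
set_option autoImplicit false
set_option linter.unusedSectionVars false
set_option linter.unusedVariables false

namespace Cfsg.Agent.H43.FExt

open Module Cfsg.Agent.H99

section form
variable {F E V : Type*} [Field F] [Field E] [Algebra F E] [FiniteDimensional F E] [AddCommGroup V] [Module F V] [Module E V] [IsScalarTower F E V]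

theorem dual_inj (l : E →ₗ[F] F) (hl : l ≠ 0) {c c' : E} (h : ∀ a, l (a * c) = l (a * c')) : c = c' := by
  by_contra hne
  have h1 : c - c' ≠ 0 := sub_ne_zero.mpr hne
  apply hl
  apply LinearMap.ext
  intro b
  have h2 := h (b * (c - c')⁻¹)
  have h3 : l (b * (c - c')⁻¹ * (c - c')) = 0 := by
    rw [mul_sub, map_sub, h2, sub_self]
  rw [mul_assoc, inv_mul_cancel₀ h1, mul_one] at h3
  exact h3

theorem dual_rep (l : E →ₗ[F] F) (hl : l ≠ 0) (g : E →ₗ[F] F) : ∃ c : E, ∀ a, g a = l (a * c) := by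
  obtain ⟨Φ, hΦ⟩ : ∃ Φ : E →ₗ[F] (E →ₗ[F] F), ∀ c a, Φ c a = l (a * c) :=
    ⟨{ toFun := fun c => l ∘ₗ LinearMap.mulRight F c
       map_add' := fun c c' => by
        apply LinearMap.ext; intro a
        simp only [LinearMap.comp_apply, LinearMap.mulRight_apply, LinearMap.add_apply, mul_add, map_add]
       map_smul' := fun s c => by
        apply LinearMap.ext; intro a
        simp only [LinearMap.comp_apply, LinearMap.mulRight_apply, LinearMap.smul_apply, mul_smul_comm, map_smul, RingHom.id_apply] }, fun _ _ => rfl⟩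
  have hinj : Function.Injective Φ := by
    intro c c' hcc
    apply dual_inj l hl
    intro a
    rw [← hΦ, ← hΦ, hcc]
  have hsurj : Function.Surjective Φ := by
    apply (LinearMap.injective_iff_surjective_of_finrank_eq_finrank _).mp hinj
    exact (Subspace.dual_finrank_eq (K := F) (V := E)).symm
  obtain ⟨c, hc⟩ := hsurj g
  exact ⟨c, fun a => by rw [← hc, hΦ]⟩

/-- the form with values in the extension -/
theorem exists_val (l : E →ₗ[F] F) (hl : l ≠ 0) {f : V → V → F} (hadd : ∀ x y v, f (x + y) v = f x v + f y v)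
    (hsmul : ∀ (c : F) x v, f (c • x) v = c * f x v) :
    ∃ φ : V → V → E, ∀ (a : E) u v, f (a • u) v = l (a * φ u v) := by
  have h1 : ∀ u v, ∃ c : E, ∀ a : E, f (a • u) v = l (a * c) := by
    intro u v
    obtain ⟨c, hc⟩ := dual_rep l hl
      { toFun := fun a => f (a • u) v
        map_add' := fun a b => by change f ((a + b) • u) v = f (a • u) v + f (b • u) v; rw [add_smul, hadd]
        map_smul' := fun s a => by change f ((s • a) • u) v = s • f (a • u) v; rw [smul_assoc, hsmul]; rfl }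
    exact ⟨c, hc⟩
  choose φ hφ using h1
  exact ⟨φ, fun a u v => hφ u v a⟩

theorem val_altForm (l : E →ₗ[F] F) (hl : l ≠ 0) {f : V → V → F} (hA : AltForm f) (hsa : ∀ (a : E) u v, f (a • u) v = f u (a • v))
    (halt : ∀ (a : E) v, f (a • v) v = 0) {φ : V → V → E} (hφ : ∀ (a : E) u v, f (a • u) v = l (a * φ u v)) : AltForm φ where
  add_left x y v := by
    apply dual_inj l hl
    intro a
    rw [← hφ, mul_add, map_add, ← hφ, ← hφ, smul_add, hA.add_left]
  smul_left c x v := by
    apply dual_inj l hl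
    intro a
    rw [← hφ, smul_smul, ← mul_assoc, ← hφ]
  alt x := by
    apply dual_inj l hl
    intro a
    rw [← hφ, halt, mul_zero, map_zero]
  skew x y := by
    apply dual_inj l hl
    intro a
    rw [← hφ, mul_neg, map_neg, ← hφ, hA.skew (a • y) x, neg_neg, hsa]

theorem val_ND (l : E →ₗ[F] F) {f : V → V → F} {φ : V → V → E} (hφ : ∀ (a : E) u v, f (a • u) v = l (a * φ u v))
    (hND : ND f (⊤ : Submodule F V)) : ND φ (⊤ : Submodule E V) := by
  intro u _ h
  apply hND u Submodule.mem_top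
  intro v _
  have h1 := hφ 1 u v
  rw [one_smul, h v Submodule.mem_top, mul_zero, map_zero] at h1
  exact h1

theorem val_isom (l : E →ₗ[F] F) (hl : l ≠ 0) {f : V → V → F} {φ : V → V → E} (hφ : ∀ (a : E) u v, f (a • u) v = l (a * φ u v))
    (y : V →ₗ[E] V) (hy : ∀ u v, f (y u) (y v) = f u v) (u v : V) : φ (y u) (y v) = φ u v := by
  apply dual_inj l hl
  intro a
  rw [← hφ, ← hφ, ← map_smul, hy]

theorem isom_val (l : E →ₗ[F] F) {f : V → V → F} {φ : V → V → E} (hφ : ∀ (a : E) u v, f (a • u) v = l (a * φ u v))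
    (y : V → V) (hy : ∀ u v, φ (y u) (y v) = φ u v) (u v : V) : f (y u) (y v) = f u v := by
  have h1 := hφ 1 (y u) (y v)
  have h2 := hφ 1 u v
  rw [one_smul] at h1 h2
  rw [h1, h2, hy]

/-- fixed spaces of `E`-linear maps -/
theorem finrank_ker_restrict (y : V →ₗ[E] V) (y' : V →ₗ[F] V) (h : ∀ v, y' v = y v) :
    finrank F (LinearMap.ker (y' - 1)) = finrank F E * finrank E (LinearMap.ker (y - 1)) := by
  have h1 : LinearMap.ker (y' - 1) = (LinearMap.ker (y - 1)).restrictScalars F := by
    ext v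
    rw [Submodule.restrictScalars_mem, LinearMap.mem_ker, LinearMap.mem_ker, LinearMap.sub_apply, LinearMap.sub_apply, h]
    rfl
  rw [h1, Module.finrank_mul_finrank F E (LinearMap.ker (y - 1))]
  rfl

/-- fixed spaces of semilinear maps -/
theorem semi_bound [FiniteDimensional F V] (y : V →ₗ[F] V) (σ : E →+* E) (hσ : ∀ (a : E) v, y (a • v) = σ a • y v) {a₀ : E} (ha : σ a₀ ≠ a₀) :
    2 * finrank F (LinearMap.ker (y - 1)) ≤ finrank F V := by
  have ha0 : a₀ ≠ 0 := by
    rintro rfl
    exact ha (map_zero σ)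
  obtain ⟨M, hM⟩ : ∃ M : V →ₗ[F] V, ∀ v, M v = a₀ • v := ⟨Algebra.lsmul F F V a₀, fun v => rfl⟩
  have hMinj : Function.Injective M := by
    intro u v huv
    rw [hM, hM] at huv
    exact smul_right_injective V ha0 huv
  have hdisj : LinearMap.ker (y - 1) ⊓ (LinearMap.ker (y - 1)).map M = ⊥ := by
    rw [eq_bot_iff]
    rintro _ ⟨hv, ⟨w, hw, rfl⟩⟩
    rw [SetLike.mem_coe, LinearMap.mem_ker, LinearMap.sub_apply, sub_eq_zero, Module.End.one_apply] at hv hw
    rw [hM, hσ, hw] at hv
    have h1 : (σ a₀ - a₀) • w = 0 := by rw [sub_smul, hv, sub_self]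
    have h2 : w = 0 := (smul_eq_zero.mp h1).resolve_left (sub_ne_zero.mpr ha)
    rw [h2, map_zero]
    exact Submodule.zero_mem _
  have h1 := Submodule.finrank_sup_add_finrank_inf_eq (LinearMap.ker (y - 1)) ((LinearMap.ker (y - 1)).map M)
  rw [hdisj, finrank_bot, add_zero, ← LinearEquiv.finrank_eq (Submodule.equivMapOfInjective M hMinj (LinearMap.ker (y - 1)))] at h1
  have h2 := Submodule.finrank_le (LinearMap.ker (y - 1) ⊔ (LinearMap.ker (y - 1)).map M)
  omega

end form

section gal
variable {F E V : Type*} [Field F] [Field E] [Finite E] [Algebra F E] [AddCommGroup V] [Module F V] [Module E V] [IsScalarTower F E V]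

/-- the order of a nontrivial field automorphism -/
theorem eq_of_semi [Nontrivial V] {k r : ℕ} (hk : k.Prime) (hr : r.Prime) (hE : finrank F E = k) (y : V →ₗ[F] V) (σ : E →ₐ[F] E)
    (hσ : ∀ (a : E) v, y (a • v) = σ a • y v) (hy : y ^ r = 1) {a₀ : E} (ha : σ a₀ ≠ a₀) : r = k := by
  have : FiniteDimensional F E := FiniteDimensional.of_finrank_pos (by rw [hE]; exact hk.pos)
  obtain ⟨v, hv⟩ := exists_ne (0 : V)
  obtain ⟨τ, hτ⟩ : ∃ τ : E ≃ₐ[F] E, ∀ a, τ a = σ a :=
    ⟨AlgEquiv.ofBijective σ ⟨σ.toRingHom.injective, (Finite.injective_iff_surjective).mp σ.toRingHom.injective⟩, fun _ => rfl⟩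
  have hpow : ∀ (n : ℕ) (a : E) (w : V), (y ^ n) (a • w) = (τ ^ n) a • (y ^ n) w := by
    intro n
    induction n with
    | zero => intro a w; rfl
    | succ n ih => intro a w; rw [pow_succ, Module.End.mul_apply, hσ, ih, pow_succ, AlgEquiv.mul_apply, hτ, Module.End.mul_apply]
  have hτr : τ ^ r = 1 := by
    ext a
    have h1 := hpow r a v
    rw [hy, Module.End.one_apply, Module.End.one_apply] at h1
    have h2 : (a - (τ ^ r) a) • v = 0 := by rw [sub_smul, ← h1, sub_self]
    exact (sub_eq_zero.mp ((smul_eq_zero.mp h2).resolve_right hv)).symm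
  have hτ1 : τ ≠ 1 := by
    rintro rfl
    exact ha (hτ a₀).symm
  have h1 : orderOf τ = r := by
    rcases (Nat.dvd_prime hr).mp (orderOf_dvd_of_pow_eq_one hτr) with h | h
    · exact absurd (orderOf_eq_one_iff.mp h) hτ1
    · exact h
  have h2 : orderOf τ ∣ Nat.card (E ≃ₐ[F] E) := orderOf_dvd_natCard τ
  rw [IsGalois.card_aut_eq_finrank, hE, h1] at h2
  exact (Nat.prime_dvd_prime_iff_eq hr hk).mp h2

end gal

/-- The field structure on a field subalgebra. -/
@[reducible] noncomputable def fieldOf {ι : Type} [Fintype ι] [DecidableEq ι] {F : Type*} [Field F] [Nonempty ι] {r : ℕ}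
    {K : Subalgebra F (Matrix ι ι F)} (hK : Cfsg.Geo.IsFieldSubalgebra r K) : Field K :=
  letI : CommRing K := { (inferInstance : Ring K) with
    mul_comm := fun x y => Subtype.ext (hK.comm x x.2 y y.2) }
  IsField.toField
    { exists_pair_ne := ⟨0, 1, fun h => by
        have h1 := congrArg Subtype.val h
        obtain ⟨i⟩ := (inferInstance : Nonempty ι)
        have h2 := congrFun (congrFun h1 i) i
        simp at h2⟩
      mul_comm := fun x y => Subtype.ext (hK.comm x x.2 y y.2)
      mul_inv_cancel := fun {x} hx => by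
        obtain ⟨y, hy, hxy⟩ := hK.inv x x.2 (fun h => hx (Subtype.ext h))
        exact ⟨⟨y, hy⟩, Subtype.ext hxy⟩ }

/-- a concrete field subalgebra as a field extension -/
theorem exists_ext.{u} {F : Type u} [Field F] {ι : Type} [Fintype ι] [DecidableEq ι] [Nonempty ι] {k : ℕ} {K : Subalgebra F (Matrix ι ι F)}
    (hK : Cfsg.Geo.IsFieldSubalgebra k K) :
    ∃ (E : Type u) (_ : Field E) (_ : Algebra F E) (ρ : E →ₐ[F] Matrix ι ι F), (∀ M, M ∈ K ↔ ∃ a, ρ a = M) ∧ finrank F E = k := by
  refine ⟨K, fieldOf hK, inferInstanceAs (Algebra F K), K.val, ?_, hK.finrank_eq⟩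
  intro M
  constructor
  · intro hM
    exact ⟨⟨M, hM⟩, rfl⟩
  · rintro ⟨a, rfl⟩
    exact a.2

end Cfsg.Agent.H43.FExt
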