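import Mathlib
import Cfsg.Agent.H99.TensorDec
import Cfsg.Agent.H99.SympElt
import Cfsg.Agent.H99.SympRed
import Cfsg.Agent.H99.HypSys
import Cfsg.Agent.H99.SympTrans
/-!
# Tensor decompositions of symplectic spaces and elements of prime order
-/
set_option autoImplicit false
set_option linter.unusedSectionVars false
set_option linter.unusedVariables false

namespace Cfsg.Agent.H43.TensSp

open Module Matrix Cfsg.Agent.H99
open scoped Kronecker

section bound
variable {F : Type*} [Field F] {a b : ℕ}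

theorem pureT_add_right (u : Fin a → F) (w w' : Fin b → F) : pureT u (w + w') = pureT u w + pureT u w' := by
  funext p; simp only [pureT, Pi.add_apply]; ring

theorem pureT_smul_right (c : F) (u : Fin a → F) (w : Fin b → F) : pureT u (c • w) = c • pureT u w := by
  funext p; simp only [pureT, Pi.smul_apply, smul_eq_mul]; ring

theorem pureT_smul_left (c : F) (u : Fin a → F) (w : Fin b → F) : pureT (c • u) w = c • pureT u w := by
  funext p; simp only [pureT, Pi.smul_apply, smul_eq_mul]; ring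

theorem key (A : Matrix (Fin a) (Fin a) F) (B : Matrix (Fin b) (Fin b) F) (hB : Function.Injective B.mulVec)
    (w1 w2 : Fin a → F) (hli : LinearIndependent F ![w1, w2])
    (hev : ∀ s1 s2 : F, s1 • w1 + s2 • w2 ≠ 0 → ∀ c : F, A *ᵥ (s1 • w1 + s2 • w2) ≠ c • (s1 • w1 + s2 • w2))
    (hk : a * b < finrank F (LinearMap.ker (Matrix.toLin' (A ⊗ₖ B) - (1 : F) • (1 : (Fin a × Fin b → F) →ₗ[F] (Fin a × Fin b → F)))) + 2 * b) :
    ∃ s t : F, A *ᵥ w1 = s • w1 + t • w2 := by
  rw [LinearIndependent.pair_iff] at hli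
  obtain ⟨φ, hφ⟩ : ∃ φ : ((Fin b → F) × (Fin b → F)) →ₗ[F] (Fin a × Fin b → F), ∀ u, φ u = pureT w1 u.1 + pureT w2 u.2 :=
    ⟨{ toFun := fun u => pureT w1 u.1 + pureT w2 u.2
       map_add' := fun u v => by
        change pureT w1 (u.1 + v.1) + pureT w2 (u.2 + v.2) = _
        rw [pureT_add_right, pureT_add_right]; abel
       map_smul' := fun c u => by
        change pureT w1 (c • u.1) + pureT w2 (c • u.2) = _
        rw [pureT_smul_right, pureT_smul_right, ← smul_add]; rfl }, fun _ => rfl⟩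
  have hinj : Function.Injective φ := by
    rw [← LinearMap.ker_eq_bot, LinearMap.ker_eq_bot']
    intro u hu
    rw [hφ] at hu
    have h1 : ∀ j, u.1 j = 0 ∧ u.2 j = 0 := by
      intro j
      apply hli
      funext i
      have := congrFun hu (i, j)
      simp only [pureT, Pi.add_apply, Pi.zero_apply] at this
      simp only [Pi.add_apply, Pi.smul_apply, smul_eq_mul, Pi.zero_apply]
      linear_combination this
    ext j
    · exact (h1 j).1
    · exact (h1 j).2
  have hr : finrank F (LinearMap.range φ) = 2 * b := by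
    rw [LinearMap.finrank_range_of_inj hinj]
    simp; ring
  obtain ⟨K, hK⟩ : ∃ K, K = LinearMap.ker (Matrix.toLin' (A ⊗ₖ B) - (1 : F) • (1 : (Fin a × Fin b → F) →ₗ[F] (Fin a × Fin b → F))) := ⟨_, rfl⟩
  rw [← hK] at hk
  have h1 := Submodule.finrank_sup_add_finrank_inf_eq K (LinearMap.range φ)
  have h2 : finrank F ↥(K ⊔ LinearMap.range φ) ≤ a * b := by
    refine (Submodule.finrank_le _).trans ?_
    simp
  have h3 : 0 < finrank F ↥(K ⊓ LinearMap.range φ) := by omega
  obtain ⟨v, hv, hv0⟩ := (Submodule.ne_bot_iff _).mp (fun h => by rw [h, finrank_bot] at h3; omega : K ⊓ LinearMap.range φ ≠ ⊥)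
  obtain ⟨hvK, ⟨u, rfl⟩⟩ := hv
  obtain ⟨u1, u2⟩ := u
  rw [hK, SetLike.mem_coe, LinearMap.mem_ker, LinearMap.sub_apply, sub_eq_zero, one_smul, Module.End.one_apply, Matrix.toLin'_apply, hφ,
    Matrix.mulVec_add, kron_mulVec, kron_mulVec] at hvK
  simp only at hvK
  have hstar : ∀ (f : (Fin b → F) →ₗ[F] F), f (B *ᵥ u1) • (A *ᵥ w1) + f (B *ᵥ u2) • (A *ᵥ w2) = f u1 • w1 + f u2 • w2 := by
    intro f
    funext i
    simp only [Pi.add_apply, Pi.smul_apply, smul_eq_mul]
    have h4 : (A *ᵥ w1) i • (B *ᵥ u1) + (A *ᵥ w2) i • (B *ᵥ u2) = w1 i • u1 + w2 i • u2 := by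
      funext j
      have := congrFun hvK (i, j)
      simp only [pureT, Pi.add_apply] at this
      simp only [Pi.add_apply, Pi.smul_apply, smul_eq_mul]
      exact this
    have h5 := congrArg f h4
    rw [map_add, map_add, map_smul, map_smul, map_smul, map_smul, smul_eq_mul, smul_eq_mul, smul_eq_mul, smul_eq_mul] at h5
    linear_combination h5
  by_cases hu : LinearIndependent F ![u1, u2]
  · have hBu : LinearIndependent F ![B *ᵥ u1, B *ᵥ u2] := by
      rw [LinearIndependent.pair_iff] at hu ⊢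
      intro s t hst
      apply hu
      apply hB
      rw [Matrix.mulVec_add, Matrix.mulVec_smul, Matrix.mulVec_smul, hst, Matrix.mulVec_zero]
    have hnot : B *ᵥ u1 ∉ Submodule.span F {B *ᵥ u2} := by
      intro h
      rw [Submodule.mem_span_singleton] at h
      obtain ⟨c, hc⟩ := h
      rw [LinearIndependent.pair_iff] at hBu
      have := (hBu 1 (-c) (by rw [one_smul, neg_smul, hc, add_neg_cancel])).1
      exact one_ne_zero this
    obtain ⟨f, hf, hf2⟩ := Submodule.exists_le_ker_of_notMem hnot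
    have hf2' : f (B *ᵥ u2) = 0 := LinearMap.mem_ker.mp (hf2 (Submodule.mem_span_singleton_self _))
    have h6 := hstar f
    rw [hf2', zero_smul, add_zero] at h6
    refine ⟨(f (B *ᵥ u1))⁻¹ * f u1, (f (B *ᵥ u1))⁻¹ * f u2, ?_⟩
    rw [mul_smul, mul_smul, ← smul_add, ← h6, smul_smul, inv_mul_cancel₀ hf, one_smul]
  · exfalso
    obtain ⟨u, s1, s2, hs1, hs2⟩ : ∃ (u : Fin b → F) (s1 s2 : F), u1 = s1 • u ∧ u2 = s2 • u := by
      rw [LinearIndependent.pair_iff] at hu
      push Not at hu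
      obtain ⟨s, t, hst, hne⟩ := hu
      by_cases hs : s = 0
      · have ht := hne hs
        subst hs
        rw [zero_smul, zero_add] at hst
        have hu2 : u2 = 0 := (smul_eq_zero.mp hst).resolve_left ht
        exact ⟨u1, 1, 0, by rw [one_smul], by rw [zero_smul, hu2]⟩
      · refine ⟨u2, -(s⁻¹ * t), 1, ?_, by rw [one_smul]⟩
        have : u1 = s⁻¹ • (s • u1) := by rw [smul_smul, inv_mul_cancel₀ hs, one_smul]
        rw [this, eq_neg_of_add_eq_zero_left hst, smul_neg, smul_smul, neg_smul]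
    have hw : φ (u1, u2) = pureT (s1 • w1 + s2 • w2) u := by
      rw [hφ, hs1, hs2]
      funext p
      simp only [pureT, Pi.add_apply, Pi.smul_apply, smul_eq_mul]; ring
    have hw0 : s1 • w1 + s2 • w2 ≠ 0 := by
      intro h
      apply hv0
      rw [hw, h]
      funext p; simp [pureT]
    have hu0 : u ≠ 0 := by
      rintro rfl
      apply hv0
      rw [hw]
      funext p; simp [pureT]
    have hBu0 : B *ᵥ u ≠ 0 := by
      intro h
      apply hu0
      apply hB
      rw [h, Matrix.mulVec_zero]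
    obtain ⟨j, hj⟩ := Function.ne_iff.mp hBu0
    have h7 := hstar (LinearMap.proj j)
    rw [hs1, hs2, Matrix.mulVec_smul, Matrix.mulVec_smul] at h7
    simp only [LinearMap.proj_apply, Pi.smul_apply, smul_eq_mul] at h7
    apply hev s1 s2 hw0 (((B *ᵥ u) j)⁻¹ * u j)
    have h8 : ((B *ᵥ u) j) • (A *ᵥ (s1 • w1 + s2 • w2)) = (u j) • (s1 • w1 + s2 • w2) := by
      rw [Matrix.mulVec_add, Matrix.mulVec_smul, Matrix.mulVec_smul, smul_add, smul_smul, smul_smul, smul_add, smul_smul, smul_smul,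
        mul_comm _ s1, mul_comm _ s2, mul_comm _ s1, mul_comm _ s2]
      exact h7
    rw [mul_smul, ← h8, smul_smul, inv_mul_cancel₀ hj, one_smul]

/-- the bound on the fixed space of a Kronecker product -/
theorem bound (A : Matrix (Fin a) (Fin a) F) (B : Matrix (Fin b) (Fin b) F) (hB : Function.Injective B.mulVec)
    (Y : Submodule F (Fin a → F)) (hY : ∀ v ∈ Y, A *ᵥ v ∈ Y) (hY3 : 3 ≤ finrank F Y)
    (hev : ∀ v ∈ Y, v ≠ 0 → ∀ c : F, A *ᵥ v ≠ c • v) :
    finrank F (LinearMap.ker (Matrix.toLin' (A ⊗ₖ B) - (1 : F) • (1 : (Fin a × Fin b → F) →ₗ[F] (Fin a × Fin b → F)))) + 2 * b ≤ a * b := by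
  by_contra hcon
  push Not at hcon
  obtain ⟨w1, hw1, hw10⟩ := (Submodule.ne_bot_iff _).mp (fun h => by rw [h, finrank_bot] at hY3; omega : Y ≠ ⊥)
  classical
  have h2 : finrank F (Submodule.span F (({w1, A *ᵥ w1} : Finset (Fin a → F)) : Set (Fin a → F))) ≤ 2 :=
    (finrank_span_finset_le_card _).trans (Finset.card_le_two)
  obtain ⟨w3, hw3, hw3E⟩ : ∃ w3 ∈ Y, w3 ∉ Submodule.span F (({w1, A *ᵥ w1} : Finset (Fin a → F)) : Set (Fin a → F)) := by
    by_contra hcon2
    push Not at hcon2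
    have := Submodule.finrank_mono (R := F) (fun v hv => hcon2 v hv : Y ≤ _)
    omega
  have hwE : w1 ∈ Submodule.span F (({w1, A *ᵥ w1} : Finset (Fin a → F)) : Set (Fin a → F)) := Submodule.subset_span (by simp)
  have hAwE : A *ᵥ w1 ∈ Submodule.span F (({w1, A *ᵥ w1} : Finset (Fin a → F)) : Set (Fin a → F)) := Submodule.subset_span (by simp)
  have hli : LinearIndependent F ![w1, w3] := by
    rw [LinearIndependent.pair_iff]
    intro s t hst
    have ht : t = 0 := by
      by_contra ht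
      apply hw3E
      have h3 : w3 = -(t⁻¹ * s) • w1 := by
        have h4 : t • w3 = -(s • w1) := eq_neg_of_add_eq_zero_right hst
        have h5 : w3 = t⁻¹ • (t • w3) := by rw [smul_smul, inv_mul_cancel₀ ht, one_smul]
        rw [h5, h4, smul_neg, smul_smul, neg_smul]
      rw [h3]
      exact Submodule.smul_mem _ _ hwE
    subst ht
    rw [zero_smul, add_zero] at hst
    exact ⟨(smul_eq_zero.mp hst).resolve_right hw10, rfl⟩
  obtain ⟨s, t, hst⟩ := key A B hB w1 w3 hli (by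
    intro s1 s2 h0 c
    exact hev _ (Y.add_mem (Y.smul_mem _ hw1) (Y.smul_mem _ hw3)) h0 c) hcon
  by_cases ht : t = 0
  · subst ht
    rw [zero_smul, add_zero] at hst
    exact hev w1 hw1 hw10 s hst
  · apply hw3E
    have h3 : w3 = t⁻¹ • (A *ᵥ w1 - s • w1) := by
      rw [hst, add_sub_cancel_left, smul_smul, inv_mul_cancel₀ ht, one_smul]
    rw [h3]
    exact Submodule.smul_mem _ _ (Submodule.sub_mem _ hAwE (Submodule.smul_mem _ _ hwE))

end bound

section norm
variable {F : Type*} [Field F] {a b : ℕ}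

theorem powA (A : Matrix (Fin a) (Fin a) F) (B : Matrix (Fin b) (Fin b) F) (r : ℕ) (u : Fin a → F) (w : Fin b → F) :
    ((A ⊗ₖ B) ^ r) *ᵥ pureT u w = pureT ((A ^ r) *ᵥ u) ((B ^ r) *ᵥ w) := by
  induction r generalizing u w with
  | zero => simp
  | succ r ih => rw [pow_succ, pow_succ, pow_succ, ← Matrix.mulVec_mulVec, ← Matrix.mulVec_mulVec, ← Matrix.mulVec_mulVec, kron_mulVec, ih]

/-- normalizing the factors of a Kronecker product of odd order preserving a product form -/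
theorem normalize {ε₁ ε₂ : F} {f₁ : (Fin a → F) → (Fin a → F) → F} {f₂ : (Fin b → F) → (Fin b → F) → F}
    (h₁ : EForm (RingHom.id F) ε₁ f₁) (h₂ : EForm (RingHom.id F) ε₂ f₂)
    {u₀ u₀' : Fin a → F} (hu₀ : f₁ u₀ u₀' ≠ 0) {w₀ w₀' : Fin b → F} (hw₀ : f₂ w₀ w₀' ≠ 0)
    (A : Matrix (Fin a) (Fin a) F) (B : Matrix (Fin b) (Fin b) F)
    (hiso : ∀ u u' w w', f₁ (A *ᵥ u) (A *ᵥ u') * f₂ (B *ᵥ w) (B *ᵥ w') = f₁ u u' * f₂ w w')
    {r : ℕ} (hr : Odd r) (hpow : ∀ u w, pureT ((A ^ r) *ᵥ u) ((B ^ r) *ᵥ w) = pureT u w) :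
    ∃ κ : F, κ ≠ 0 ∧ (∀ u u', f₁ (Matrix.toLin' (κ⁻¹ • A) u) (Matrix.toLin' (κ⁻¹ • A) u') = f₁ u u') ∧
      (∀ w w', f₂ (Matrix.toLin' (κ • B) w) (Matrix.toLin' (κ • B) w') = f₂ w w') ∧
      (Matrix.toLin' (κ⁻¹ • A)) ^ r = 1 ∧ (Matrix.toLin' (κ • B)) ^ r = 1 := by
  obtain ⟨s, hs⟩ := hr
  -- multipliers
  have hne : f₁ (A *ᵥ u₀) (A *ᵥ u₀') * f₂ (B *ᵥ w₀) (B *ᵥ w₀') ≠ 0 := by
    rw [hiso]; exact mul_ne_zero hu₀ hw₀
  have hne1 : f₁ (A *ᵥ u₀) (A *ᵥ u₀') ≠ 0 := left_ne_zero_of_mul hne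
  have hne2 : f₂ (B *ᵥ w₀) (B *ᵥ w₀') ≠ 0 := right_ne_zero_of_mul hne
  obtain ⟨μ, hμ⟩ : ∃ μ : F, μ = f₂ w₀ w₀' / f₂ (B *ᵥ w₀) (B *ᵥ w₀') := ⟨_, rfl⟩
  have hμ0 : μ ≠ 0 := by rw [hμ]; exact div_ne_zero hw₀ hne2
  have hA : ∀ u u', f₁ (A *ᵥ u) (A *ᵥ u') = μ * f₁ u u' := by
    intro u u'
    have := hiso u u' w₀ w₀'
    rw [hμ]; field_simp; linear_combination this
  have hB : ∀ w w', f₂ (B *ᵥ w) (B *ᵥ w') = μ⁻¹ * f₂ w w' := by
    intro w w'
    have := hiso u₀ u₀' w w'
    rw [hA] at this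
    field_simp
    have h5 : f₁ u₀ u₀' * (μ * f₂ (B *ᵥ w) (B *ᵥ w') - f₂ w w') = 0 := by linear_combination this
    rcases mul_eq_zero.mp h5 with h | h
    · exact absurd h hu₀
    · linear_combination h
  have hApow : ∀ k u u', f₁ ((A ^ k) *ᵥ u) ((A ^ k) *ᵥ u') = μ ^ k * f₁ u u' := by
    intro k
    induction k with
    | zero => intro u u'; simp
    | succ k ih => intro u u'; rw [pow_succ', ← Matrix.mulVec_mulVec, ← Matrix.mulVec_mulVec, hA, ih, pow_succ]; ring
  -- scalars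
  have hw0 : w₀ ≠ 0 := by
    rintro rfl
    exact hw₀ (h₂.oform.zero_left _)
  have hu0 : u₀ ≠ 0 := by
    rintro rfl
    exact hu₀ (h₁.oform.zero_left _)
  obtain ⟨j, hj⟩ := Function.ne_iff.mp hw0
  have hp1 : ∀ u i, ((A ^ r) *ᵥ u) i * ((B ^ r) *ᵥ w₀) j = u i * w₀ j := fun u i => congrFun (hpow u w₀) (i, j)
  obtain ⟨i₀, hi₀⟩ := Function.ne_iff.mp hu0
  have hβ : ((B ^ r) *ᵥ w₀) j ≠ 0 := by
    intro h
    have h6 := hp1 u₀ i₀
    rw [h, mul_zero] at h6
    exact mul_ne_zero hi₀ hj h6.symm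
  obtain ⟨α, hα⟩ : ∃ α : F, α = w₀ j / ((B ^ r) *ᵥ w₀) j := ⟨_, rfl⟩
  have hα0 : α ≠ 0 := by rw [hα]; exact div_ne_zero hj hβ
  have hAr : ∀ u, (A ^ r) *ᵥ u = α • u := by
    intro u
    funext i
    rw [Pi.smul_apply, smul_eq_mul, hα]
    have := hp1 u i
    field_simp
    linear_combination this
  have hBr : ∀ w, (B ^ r) *ᵥ w = α⁻¹ • w := by
    intro w
    funext k
    rw [Pi.smul_apply, smul_eq_mul]
    have := congrFun (hpow u₀ w) (i₀, k)
    simp only [pureT] at this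
    rw [hAr, Pi.smul_apply, smul_eq_mul] at this
    have h7 : u₀ i₀ * (α * ((B ^ r) *ᵥ w) k - w k) = 0 := by linear_combination this
    rcases mul_eq_zero.mp h7 with h | h
    · exact absurd h hi₀
    · rw [sub_eq_zero] at h
      rw [← h]; field_simp
  have hαμ : α ^ 2 = μ ^ r := by
    have h8 := hApow r u₀ u₀'
    rw [hAr, hAr, h₁.oform.smul_left, h₁.smul_right, RingHom.id_apply] at h8
    apply mul_right_cancel₀ hu₀
    rw [← h8]; ring
  obtain ⟨κ, hκ⟩ : ∃ κ : F, κ = α * (μ ^ s)⁻¹ := ⟨_, rfl⟩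
  have hμs : μ ^ s ≠ 0 := pow_ne_zero _ hμ0
  have hκ0 : κ ≠ 0 := by rw [hκ]; exact mul_ne_zero hα0 (inv_ne_zero hμs)
  have hκ2 : κ ^ 2 = μ := by
    rw [hκ, mul_pow, hαμ, hs, inv_pow, ← pow_mul, pow_succ, mul_comm 2 s, mul_assoc, mul_comm μ, ← mul_assoc, mul_inv_cancel₀ (pow_ne_zero _ hμ0), one_mul]
  have hκr : κ ^ r = α := by
    rw [hs, pow_succ, pow_mul, hκ2]
    rw [hκ]; field_simp
  refine ⟨κ, hκ0, ?_, ?_, ?_, ?_⟩
  · intro u u'
    rw [Matrix.toLin'_apply, Matrix.toLin'_apply, Matrix.smul_mulVec, Matrix.smul_mulVec, h₁.oform.smul_left, h₁.smul_right,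
      RingHom.id_apply, hA, ← hκ2]
    field_simp
  · intro w w'
    rw [Matrix.toLin'_apply, Matrix.toLin'_apply, Matrix.smul_mulVec, Matrix.smul_mulVec, h₂.oform.smul_left, h₂.smul_right,
      RingHom.id_apply, hB, ← hκ2]
    field_simp
  · apply LinearMap.ext
    intro u
    rw [← Matrix.toLin'_pow, Matrix.toLin'_apply, smul_pow, Matrix.smul_mulVec, hAr, inv_pow, hκr, smul_smul, inv_mul_cancel₀ hα0, one_smul]
    rfl
  · apply LinearMap.ext
    intro u
    rw [← Matrix.toLin'_pow, Matrix.toLin'_apply, smul_pow, Matrix.smul_mulVec, hBr, hκr, smul_smul, mul_inv_cancel₀ hα0, one_smul]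
    rfl

end norm

section odd
variable {F : Type*} [Field F] [Fintype F] {p : ℕ} [Fact p.Prime] [CharP F p] {r : ℕ} [Fact r.Prime]

theorem not_dvd_card (hrp : r ≠ p) : ¬ r ∣ Fintype.card F := by
  obtain ⟨n, hp, hn⟩ := FiniteField.card F p
  intro h
  rw [hn] at h
  have h1 := (Fact.out : r.Prime).dvd_of_dvd_pow h
  exact hrp ((Nat.prime_dvd_prime_iff_eq Fact.out hp).mp h1)

theorem blkRank (hr2 : r ≠ 2) (hrp : r ≠ p) {V : Type*} [AddCommGroup V] [Module F V] [FiniteDimensional F V] {ε : F} {B : V → V → F}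
    (hE : EForm (RingHom.id F) ε B) (hND : ND B (⊤ : Submodule F V)) {x : V →ₗ[F] V} (hx : ∀ u v, B (x u) (x v) = B u v)
    (hr : x ^ r = 1) (hx1 : x ≠ 1) :
    ∃ Y : Submodule F V, (∀ v ∈ Y, x v ∈ Y) ∧ (∀ v ∈ Y, x v = v → v = 0) ∧
      finrank F (LinearMap.ker (x - 1)) + finrank F Y = finrank F V ∧ blk r (Fintype.card F) ≤ finrank F Y := by
  obtain ⟨h1, h2, h3, h4, h5⟩ := split_fixed hrp hE hx hr (W := ⊤) (fun _ _ => Submodule.mem_top) hND
  rw [top_inf_eq, top_inf_eq, finrank_top] at h5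
  rw [top_inf_eq, top_inf_eq] at h2 h3 h4
  refine ⟨_, h2, h4, h5, ?_⟩
  obtain ⟨h6, -⟩ := exists_isoBlocks hr2 hrp hE (N := 1) ⟨0, by simp⟩ (fun a => by simp) (blk_spec hr2 (not_dvd_card (F := F) hrp)) hx hr _
    h2 h3 h4 rfl
  apply Nat.le_of_dvd _ h6
  rcases Nat.eq_zero_or_pos (finrank F (orth hE.oform (LinearMap.ker (x - 1)))) with h | h
  · exfalso
    apply hx1
    rw [h, add_zero] at h5
    have h7 := Submodule.eq_top_of_finrank_eq h5
    apply LinearMap.ext
    intro v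
    have h8 : v ∈ LinearMap.ker (x - 1) := by rw [h7]; exact Submodule.mem_top
    rw [LinearMap.mem_ker, LinearMap.sub_apply, sub_eq_zero] at h8
    exact h8
  · exact h

theorem odd_case (hr2 : r ≠ 2) (hrp : r ≠ p) {a b : ℕ} (ha : 2 ≤ a) (hb : 3 ≤ b) {ε₁ ε₂ : F}
    {f₁ : (Fin a → F) → (Fin a → F) → F} {f₂ : (Fin b → F) → (Fin b → F) → F}
    (h₁ : EForm (RingHom.id F) ε₁ f₁) (h₂ : EForm (RingHom.id F) ε₂ f₂)
    (hN₁ : ND f₁ (⊤ : Submodule F (Fin a → F))) (hN₂ : ND f₂ (⊤ : Submodule F (Fin b → F)))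
    {u₀ u₀' : Fin a → F} (hu₀ : f₁ u₀ u₀' ≠ 0)
    (A : Matrix (Fin a) (Fin a) F) (B : Matrix (Fin b) (Fin b) F)
    (hA : ∀ u u', f₁ (Matrix.toLin' A u) (Matrix.toLin' A u') = f₁ u u')
    (hB : ∀ w w', f₂ (Matrix.toLin' B w) (Matrix.toLin' B w') = f₂ w w')
    (hAr : (Matrix.toLin' A) ^ r = 1) (hBr : (Matrix.toLin' B) ^ r = 1)
    (hne : A ⊗ₖ B ≠ 1)
    (hk : a * b ≤ finrank F (LinearMap.ker (Matrix.toLin' (A ⊗ₖ B) - (1 : F) • (1 : (Fin a × Fin b → F) →ₗ[F] (Fin a × Fin b → F)))) + blk r (Fintype.card F)) :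
    False := by
  have hr : r.Prime := Fact.out
  have hr0 : 0 < r := hr.pos
  have ho : 0 < orderOf ((Fintype.card F : ℕ) : ZMod r) := by
    have : NeZero r := ⟨hr.ne_zero⟩
    have hq0 : ((Fintype.card F : ℕ) : ZMod r) ≠ 0 := by
      rw [Ne, ZMod.natCast_eq_zero_iff]; exact not_dvd_card (F := F) hrp
    have hu : IsUnit ((Fintype.card F : ℕ) : ZMod r) := hq0.isUnit
    obtain ⟨u, hu⟩ := hu
    rw [← hu, orderOf_units]
    exact orderOf_pos u
  have hblk : 2 ≤ blk r (Fintype.card F) := by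
    unfold blk
    split_ifs with h
    · rcases h with ⟨k, hk⟩; omega
    · omega
  have hblk2 : blk r (Fintype.card F) ≤ 2 * orderOf ((Fintype.card F : ℕ) : ZMod r) := by
    unfold blk
    split_ifs <;> omega
  have hinjB : Function.Injective B.mulVec := by
    intro v w hvw
    have h1 : Matrix.toLin' B v = Matrix.toLin' B w := hvw
    have h2 : ∀ v, ((Matrix.toLin' B) ^ (r - 1)) (Matrix.toLin' B v) = v := by
      intro v
      have h3 : ((Matrix.toLin' B) ^ (r - 1) * Matrix.toLin' B) v = v := by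
        rw [← pow_succ, Nat.sub_add_cancel hr0, hBr]; rfl
      exact h3
    rw [← h2 v, h1, h2]
  by_cases hA1 : Matrix.toLin' A = 1
  · have hA1' : A = 1 := by
      apply Matrix.toLin'.injective
      rw [hA1, Matrix.toLin'_one]; rfl
    have hB1 : Matrix.toLin' B ≠ 1 := by
      intro h
      apply hne
      have hB1' : B = 1 := by
        apply Matrix.toLin'.injective
        rw [h, Matrix.toLin'_one]; rfl
      rw [hA1', hB1', Matrix.one_kronecker_one]
    obtain ⟨Y, -, -, hY3, hY4⟩ := blkRank hr2 hrp h₂ hN₂ hB hBr hB1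
    rw [hA1', finrank_ker_one_kron, one_smul] at hk
    rw [finrank_fin_fun] at hY3
    have h3 : a * b = a * finrank F (LinearMap.ker (Matrix.toLin' B - 1)) + a * finrank F Y := by rw [← mul_add, hY3]
    have h4 : 2 * finrank F Y ≤ a * finrank F Y := Nat.mul_le_mul_right _ ha
    omega
  · obtain ⟨Y, hY1, hY2, hY3, hY4⟩ := blkRank hr2 hrp h₁ hN₁ hA hAr hA1
    rw [finrank_fin_fun] at hY3
    by_cases hB1 : Matrix.toLin' B = 1
    · have hB1' : B = 1 := by
        apply Matrix.toLin'.injective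
        rw [hB1, Matrix.toLin'_one]; rfl
      rw [hB1', finrank_ker_kron_one, one_smul] at hk
      have h3 : a * b = b * finrank F (LinearMap.ker (Matrix.toLin' A - 1)) + b * finrank F Y := by rw [← mul_add, hY3, mul_comm]
      have h4 : 2 * finrank F Y ≤ b * finrank F Y := Nat.mul_le_mul_right _ (by omega)
      omega
    · obtain ⟨Z, -, -, hZ3, hZ4⟩ := blkRank hr2 hrp h₂ hN₂ hB hBr hB1
      rw [finrank_fin_fun] at hZ3
      by_cases ho1 : orderOf ((Fintype.card F : ℕ) : ZMod r) = 1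
      · -- small block
        have h5 := finrank_ker_kron_left A B (by
          intro c hc
          apply hA1
          have hc1 : ∀ v, Matrix.toLin' A v = c • v := by
            intro v
            rw [hc, Matrix.toLin'_apply, Matrix.smul_mulVec, Matrix.one_mulVec]
          have hc2 : c ^ 2 = 1 := by
            have h6 := hA u₀ u₀'
            rw [hc1, hc1, h₁.oform.smul_left, h₁.smul_right, RingHom.id_apply] at h6
            apply mul_right_cancel₀ hu₀
            linear_combination h6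
          have hc3 : c ^ r = 1 := by
            have hu0 : u₀ ≠ 0 := by
              rintro rfl
              exact hu₀ (h₁.oform.zero_left _)
            have h7 : ∀ k (v : Fin a → F), ((Matrix.toLin' A) ^ k) v = c ^ k • v := by
              intro k
              induction k with
              | zero => intro v; simp
              | succ k ih => intro v; rw [pow_succ, Module.End.mul_apply, hc1, map_smul, ih, smul_smul, pow_succ, mul_comm]
            have h8 := h7 r u₀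
            rw [hAr, Module.End.one_apply] at h8
            have h9 : (c ^ r - 1) • u₀ = 0 := by rw [sub_smul, one_smul, ← h8, sub_self]
            exact sub_eq_zero.mp ((smul_eq_zero.mp h9).resolve_right hu0)
          have hc4 : c = 1 := by
            obtain ⟨s, hs⟩ : Odd r := hr.odd_of_ne_two hr2
            rw [hs, pow_succ, pow_mul, hc2, one_pow, one_mul] at hc3
            exact hc3
          apply LinearMap.ext
          intro v
          rw [hc1, hc4, one_smul]; rfl) hinjB 1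
        omega
      · have hblk3 : 3 ≤ blk r (Fintype.card F) ∨ blk r (Fintype.card F) = 2 := by omega
        rcases hblk3 with h3 | h3
        · have h5 := bound A B hinjB Y hY1 (by omega) (by
            intro v hv hv0 c hc
            have hfix : ∀ w ∈ Submodule.span F {v}, Matrix.toLin' A w = w → w = 0 := by
              intro w hw hw2
              exact hY2 w ((Submodule.span_singleton_le_iff_mem _ _).mpr hv hw) hw2
            have hinv : ∀ w ∈ Submodule.span F {v}, Matrix.toLin' A w ∈ Submodule.span F {v} := by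
              intro w hw
              rw [Submodule.mem_span_singleton] at hw ⊢
              obtain ⟨t, rfl⟩ := hw
              refine ⟨t * c, ?_⟩
              rw [map_smul, Matrix.toLin'_apply, hc, smul_smul]
            have h6 := dvd_finrank_of_fix hrp hAr hinv hfix
            rw [finrank_span_singleton hv0] at h6
            exact ho1 (Nat.dvd_one.mp h6))
          omega
        · -- block size two, order two
          have h5 := finrank_ker_kron_left A B (by
            intro c hc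
            have hne0 : finrank F Y ≠ 0 := by omega
            obtain ⟨v, hv, hv0⟩ := (Submodule.ne_bot_iff _).mp (fun h => by rw [h, finrank_bot] at hne0; exact hne0 rfl : Y ≠ ⊥)
            have hc1 : ∀ v, Matrix.toLin' A v = c • v := by
              intro v
              rw [hc, Matrix.toLin'_apply, Matrix.smul_mulVec, Matrix.one_mulVec]
            have hfix : ∀ w ∈ Submodule.span F {v}, Matrix.toLin' A w = w → w = 0 := by
              intro w hw hw2
              exact hY2 w ((Submodule.span_singleton_le_iff_mem _ _).mpr hv hw) hw2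
            have hinv : ∀ w ∈ Submodule.span F {v}, Matrix.toLin' A w ∈ Submodule.span F {v} := by
              intro w hw
              rw [hc1]
              exact Submodule.smul_mem _ _ hw
            have h6 := dvd_finrank_of_fix hrp hAr hinv hfix
            rw [finrank_span_singleton hv0] at h6
            exact ho1 (Nat.dvd_one.mp h6)) hinjB 1
          omega

end odd

section member
variable {F : Type*} [Field F] {d a b : ℕ}

/-- elements of tensor product subgroups act on the model -/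
theorem mem_imp (e : (Fin d ⊕ Fin d) ≃ Fin a × Fin b) (P h : GL (Fin d ⊕ Fin d) F)
    (hh : h ∈ Cfsg.Geo.tensorProductSubgroup a b e P) :
    ∃ (A : GL (Fin a) F) (B : GL (Fin b) F), ∀ t : Fin a × Fin b → F,
      (h : Matrix (Fin d ⊕ Fin d) (Fin d ⊕ Fin d) F) *ᵥ ((P : Matrix (Fin d ⊕ Fin d) (Fin d ⊕ Fin d) F) *ᵥ (t ∘ e)) =
        (P : Matrix (Fin d ⊕ Fin d) (Fin d ⊕ Fin d) F) *ᵥ ((((A : Matrix (Fin a) (Fin a) F) ⊗ₖ (B : Matrix (Fin b) (Fin b) F)) *ᵥ t) ∘ e) := by
  obtain ⟨y, ⟨z, ⟨A, B, hAB⟩, hz⟩, hy⟩ := hh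
  refine ⟨A, B, fun t => ?_⟩
  have h1 : P * y * P⁻¹ = h := hy
  have h2 : h * P = P * y := by rw [← h1]; group
  rw [Matrix.mulVec_mulVec, ← Units.val_mul, h2, Units.val_mul, ← Matrix.mulVec_mulVec]
  congr 1
  have h3 : (y : Matrix (Fin d ⊕ Fin d) (Fin d ⊕ Fin d) F) = ((A : Matrix (Fin a) (Fin a) F) ⊗ₖ (B : Matrix (Fin b) (Fin b) F)).submatrix e e := by
    rw [← hz, ← hAB]; rfl
  rw [h3, Matrix.submatrix_mulVec_equiv]
  congr 2
  funext i
  simp

theorem mem_of (e : (Fin d ⊕ Fin d) ≃ Fin a × Fin b) (P h : GL (Fin d ⊕ Fin d) F) (A : GL (Fin a) F) (B : GL (Fin b) F)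
    (hh : ∀ t : Fin a × Fin b → F,
      (h : Matrix (Fin d ⊕ Fin d) (Fin d ⊕ Fin d) F) *ᵥ ((P : Matrix (Fin d ⊕ Fin d) (Fin d ⊕ Fin d) F) *ᵥ (t ∘ e)) =
        (P : Matrix (Fin d ⊕ Fin d) (Fin d ⊕ Fin d) F) *ᵥ ((((A : Matrix (Fin a) (Fin a) F) ⊗ₖ (B : Matrix (Fin b) (Fin b) F)) *ᵥ t) ∘ e)) :
    h ∈ Cfsg.Geo.tensorProductSubgroup a b e P := by
  have h1 : ((A : Matrix (Fin a) (Fin a) F) ⊗ₖ (B : Matrix (Fin b) (Fin b) F)) *
      (((A⁻¹ : GL (Fin a) F) : Matrix (Fin a) (Fin a) F) ⊗ₖ ((B⁻¹ : GL (Fin b) F) : Matrix (Fin b) (Fin b) F)) = 1 := by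
    rw [← Matrix.mul_kronecker_mul, ← Units.val_mul, ← Units.val_mul, mul_inv_cancel, mul_inv_cancel, Units.val_one, Units.val_one,
      Matrix.one_kronecker_one]
  have h2 : (((A⁻¹ : GL (Fin a) F) : Matrix (Fin a) (Fin a) F) ⊗ₖ ((B⁻¹ : GL (Fin b) F) : Matrix (Fin b) (Fin b) F)) *
      ((A : Matrix (Fin a) (Fin a) F) ⊗ₖ (B : Matrix (Fin b) (Fin b) F)) = 1 := by
    rw [← Matrix.mul_kronecker_mul, ← Units.val_mul, ← Units.val_mul, inv_mul_cancel, inv_mul_cancel, Units.val_one, Units.val_one,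
      Matrix.one_kronecker_one]
  obtain ⟨z, hz⟩ : ∃ z : GL (Fin a × Fin b) F, (z : Matrix (Fin a × Fin b) (Fin a × Fin b) F) = ((A : Matrix (Fin a) (Fin a) F) ⊗ₖ (B : Matrix (Fin b) (Fin b) F)) :=
    ⟨⟨_, _, h1, h2⟩, rfl⟩
  refine ⟨Cfsg.Geo.glReindex e.symm z, ⟨z, ⟨A, B, hz⟩, rfl⟩, ?_⟩
  change P * (Cfsg.Geo.glReindex e.symm z) * P⁻¹ = h
  rw [mul_inv_eq_iff_eq_mul]
  apply Units.ext
  rw [Units.val_mul, Units.val_mul]
  have h3 : ((Cfsg.Geo.glReindex e.symm z : GL (Fin d ⊕ Fin d) F) : Matrix (Fin d ⊕ Fin d) (Fin d ⊕ Fin d) F) =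
      ((A : Matrix (Fin a) (Fin a) F) ⊗ₖ (B : Matrix (Fin b) (Fin b) F)).submatrix e e := by
    rw [← hz]; rfl
  rw [h3]
  apply Matrix.toLin'.injective
  apply LinearMap.ext
  intro s
  rw [Matrix.toLin'_apply, Matrix.toLin'_apply, ← Matrix.mulVec_mulVec, ← Matrix.mulVec_mulVec]
  have h4 : s = (s ∘ e.symm) ∘ e := by funext i; simp
  rw [h4, hh]
  congr 1
  rw [Matrix.submatrix_mulVec_equiv]
  congr 2
  funext i
  simp

/-- tensor forms on pure tensors -/
theorem formOfGram_pure {f₁ : (Fin a → F) → (Fin a → F) → F} {f₂ : (Fin b → F) → (Fin b → F) → F}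
    (h₁ : Cfsg.Geo.IsBilinearForm f₁) (h₂ : Cfsg.Geo.IsBilinearForm f₂) (u u' : Fin a → F) (w w' : Fin b → F) :
    Cfsg.Geo.formOfGram id (Cfsg.Geo.gramMatrix f₁ ⊗ₖ Cfsg.Geo.gramMatrix f₂) (pureT u w) (pureT u' w') = f₁ u u' * f₂ w w' := by
  have hexp : ∀ {n : ℕ} {f : (Fin n → F) → (Fin n → F) → F}, Cfsg.Geo.IsBilinearForm f → ∀ x y : Fin n → F,
      f x y = ∑ i, ∑ j, x i * Cfsg.Geo.gramMatrix f i j * y j := by
    intro n f hf x y
    have hz : ∀ v, f 0 v = 0 := by
      intro v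
      have := hf.smul_left 0 0 v
      rw [zero_smul, zero_mul] at this
      exact this
    have hz' : ∀ v, f v 0 = 0 := by
      intro v
      have := hf.smul_right 0 v 0
      rw [zero_smul, zero_mul] at this
      exact this
    have hs : ∀ (s : Finset (Fin n)) (g : Fin n → (Fin n → F)) (v : Fin n → F), f (∑ i ∈ s, g i) v = ∑ i ∈ s, f (g i) v := by
      intro s g v
      induction s using Finset.induction_on with
      | empty => rw [Finset.sum_empty, Finset.sum_empty, hz]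
      | insert i s hi ih => rw [Finset.sum_insert hi, Finset.sum_insert hi, hf.add_left, ih]
    have hs' : ∀ (s : Finset (Fin n)) (g : Fin n → (Fin n → F)) (v : Fin n → F), f v (∑ i ∈ s, g i) = ∑ i ∈ s, f v (g i) := by
      intro s g v
      induction s using Finset.induction_on with
      | empty => rw [Finset.sum_empty, Finset.sum_empty, hz']
      | insert i s hi ih => rw [Finset.sum_insert hi, Finset.sum_insert hi, hf.add_right, ih]
    have hx : ∀ x : Fin n → F, x = ∑ i, x i • (Pi.single i (1 : F) : Fin n → F) := by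
      intro x
      funext j
      rw [Finset.sum_apply, Finset.sum_eq_single j]
      · simp
      · intro i _ hij
        rw [Pi.smul_apply, Pi.single_eq_of_ne (Ne.symm hij), smul_zero]
      · intro h; exact absurd (Finset.mem_univ _) h
    conv_lhs => rw [hx x, hx y, hs]
    refine Finset.sum_congr rfl fun i _ => ?_
    rw [hs']
    refine Finset.sum_congr rfl fun j _ => ?_
    rw [hf.smul_left, hf.smul_right]
    unfold Cfsg.Geo.gramMatrix
    ring
  rw [hexp h₁ u u', hexp h₂ w w']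
  unfold Cfsg.Geo.formOfGram
  rw [Fintype.sum_prod_type]
  simp only [Fintype.sum_prod_type, Matrix.kroneckerMap_apply, id_eq, pureT, Finset.sum_mul_sum]
  refine Finset.sum_congr rfl fun i _ => Finset.sum_congr rfl fun j _ => Finset.sum_congr rfl fun k _ => Finset.sum_congr rfl fun l _ => ?_
  ring

end member

section glspin
variable {F : Type*} [Field F] {d : ℕ}

theorem exists_gl_of_symp (x : Matrix.symplecticGroup (Fin d) F) :
    ∃ X : GL (Fin d ⊕ Fin d) F, X ∈ Cfsg.spGL d F ∧ (X : Matrix (Fin d ⊕ Fin d) (Fin d ⊕ Fin d) F) = (x : Matrix (Fin d ⊕ Fin d) (Fin d ⊕ Fin d) F) := by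
  refine ⟨⟨(x : Matrix (Fin d ⊕ Fin d) (Fin d ⊕ Fin d) F), ((x⁻¹ : Matrix.symplecticGroup (Fin d) F) : Matrix (Fin d ⊕ Fin d) (Fin d ⊕ Fin d) F), ?_, ?_⟩, ?_, rfl⟩
  · have := congrArg Subtype.val (mul_inv_cancel x)
    exact this
  · have := congrArg Subtype.val (inv_mul_cancel x)
    exact this
  · intro u v
    exact sympForm_mulVec d x.2 u v

theorem mem_spGL {X : GL (Fin d ⊕ Fin d) F} : X ∈ Cfsg.spGL d F ↔
    ∀ u v, Cfsg.sympForm d F ((X : Matrix (Fin d ⊕ Fin d) (Fin d ⊕ Fin d) F) *ᵥ u) ((X : Matrix (Fin d ⊕ Fin d) (Fin d ⊕ Fin d) F) *ᵥ v) = Cfsg.sympForm d F u v :=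
  Iff.rfl

theorem finrank_ker_eq {V W : Type*} [AddCommGroup V] [Module F V] [AddCommGroup W] [Module F W] [FiniteDimensional F V] [FiniteDimensional F W]
    (T : V →ₗ[F] V) (S : W →ₗ[F] W) (Θ : W ≃ₗ[F] V) (h : ∀ t, T (Θ t) = Θ (S t)) :
    finrank F (LinearMap.ker T) = finrank F (LinearMap.ker S) := by
  have h1 : LinearMap.ker T = (LinearMap.ker S).map (Θ : W →ₗ[F] V) := by
    ext v
    rw [Submodule.mem_map]
    constructor
    · intro hv
      refine ⟨Θ.symm v, ?_, by simp⟩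
      rw [LinearMap.mem_ker] at hv ⊢
      apply Θ.injective
      rw [← h, Θ.apply_symm_apply, hv, map_zero]
    · rintro ⟨w, hw, rfl⟩
      rw [LinearMap.mem_ker] at hw ⊢
      change T (Θ w) = 0
      rw [h, hw, map_zero]
  rw [h1, LinearEquiv.finrank_map_eq]

variable {a b : ℕ}

/-- the model of a tensor decomposition -/
theorem exists_model (hab : 2 * d = a * b) (e : (Fin d ⊕ Fin d) ≃ Fin a × Fin b) (P : GL (Fin d ⊕ Fin d) F)
    {f₁ : (Fin a → F) → (Fin a → F) → F} {f₂ : (Fin b → F) → (Fin b → F) → F}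
    (h₁ : Cfsg.Geo.IsBilinearForm f₁) (h₂ : Cfsg.Geo.IsBilinearForm f₂)
    (hS : Cfsg.Geo.IsTensorFormStructure id (Cfsg.sympForm d F) f₁ f₂ e P) :
    ∃ (Θ : (Fin a × Fin b → F) ≃ₗ[F] (Fin d ⊕ Fin d → F)) (c : F), c ≠ 0 ∧
      (∀ t, Θ t = (P : Matrix (Fin d ⊕ Fin d) (Fin d ⊕ Fin d) F) *ᵥ (t ∘ e)) ∧
      ∀ u u' w w', Cfsg.sympForm d F (Θ (pureT u w)) (Θ (pureT u' w')) = c * (f₁ u u' * f₂ w w') := by
  obtain ⟨c, hc, hf⟩ := hS
  have h1 : (P : Matrix (Fin d ⊕ Fin d) (Fin d ⊕ Fin d) F) * ((P⁻¹ : GL (Fin d ⊕ Fin d) F) : Matrix (Fin d ⊕ Fin d) (Fin d ⊕ Fin d) F) = 1 := by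
    rw [← Units.val_mul, mul_inv_cancel, Units.val_one]
  have h2 : ((P⁻¹ : GL (Fin d ⊕ Fin d) F) : Matrix (Fin d ⊕ Fin d) (Fin d ⊕ Fin d) F) * (P : Matrix (Fin d ⊕ Fin d) (Fin d ⊕ Fin d) F) = 1 := by
    rw [← Units.val_mul, inv_mul_cancel, Units.val_one]
  refine ⟨(LinearEquiv.funCongrLeft F F e).trans (Matrix.toLin'OfInv h2 h1), c, hc, fun t => rfl, ?_⟩
  intro u u' w w'
  have h3 := hf (pureT u w) (pureT u' w')
  rw [formOfGram_pure h₁ h₂] at h3
  exact h3

end glspin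

section fwd
variable {F : Type*} [Field F] [Fintype F] {p : ℕ} [Fact p.Prime] [CharP F p] {d a b : ℕ}

theorem symp_eform {n : ℕ} {f : (Fin n → F) → (Fin n → F) → F} (hf : Cfsg.Geo.IsSymplecticForm f) : EForm (RingHom.id F) (-1) f where
  add_left := hf.bilinear.add_left
  smul_left := hf.bilinear.smul_left
  symm x y := by rw [hf.skew y x]; simp
  eps := by ring

theorem symm_eform {n : ℕ} {f : (Fin n → F) → (Fin n → F) → F} (hf : Cfsg.Geo.IsSymmetricForm f) : EForm (RingHom.id F) 1 f where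
  add_left := hf.bilinear.add_left
  smul_left := hf.bilinear.smul_left
  symm x y := by rw [hf.symm y x]; simp
  eps := by ring

theorem nd_of {n : ℕ} {f : (Fin n → F) → (Fin n → F) → F} (hf : Cfsg.Geo.IsNondegenerateForm f) : ND f (⊤ : Submodule F (Fin n → F)) := by
  intro v _ h
  by_contra hv
  obtain ⟨-, x, hx⟩ := hf v hv
  exact hx (h x Submodule.mem_top)

end fwd

end Cfsg.Agent.H43.TensSp
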