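import Mathlib
import Cfsg.Agent.H43.TensSp
/-!
# Tensor decompositions of symplectic spaces and elements of prime order: the two directions
-/
set_option autoImplicit false
set_option linter.unusedSectionVars false
set_option linter.unusedVariables false

namespace Cfsg.Agent.H43.TensSp

open Module Matrix Cfsg.Agent.H99
open scoped Kronecker

section small
variable {F : Type*} [Field F] {a b : ℕ}

theorem small {V : Type*} [AddCommGroup V] [Module F V] [FiniteDimensional F V] (A : GL (Fin a) F) (B : GL (Fin b) F)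
    (Ψ : (Fin a × Fin b → F) ≃ₗ[F] V) (X : V →ₗ[F] V)
    (hΨ : ∀ t, X (Ψ t) = Ψ (((A : Matrix (Fin a) (Fin a) F) ⊗ₖ (B : Matrix (Fin b) (Fin b) F)) *ᵥ t)) (hX : X ≠ 1) :
    finrank F (LinearMap.ker (X - 1)) + b ≤ a * b ∨ finrank F (LinearMap.ker (X - 1)) + a ≤ a * b := by
  have h1 : finrank F (LinearMap.ker (X - 1)) = finrank F (LinearMap.ker (Matrix.toLin' ((A : Matrix (Fin a) (Fin a) F) ⊗ₖ (B : Matrix (Fin b) (Fin b) F)) -
      (1 : F) • (1 : (Fin a × Fin b → F) →ₗ[F] (Fin a × Fin b → F)))) := by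
    apply finrank_ker_eq _ _ Ψ
    intro t
    rw [LinearMap.sub_apply, hΨ, LinearMap.sub_apply, map_sub, one_smul]
    rfl
  have hinjB : Function.Injective ((B : Matrix (Fin b) (Fin b) F)).mulVec := by
    intro v w hvw
    have h2 : ((B⁻¹ : GL (Fin b) F) : Matrix (Fin b) (Fin b) F) *ᵥ ((B : Matrix (Fin b) (Fin b) F) *ᵥ v) = ((B⁻¹ : GL (Fin b) F) : Matrix (Fin b) (Fin b) F) *ᵥ ((B : Matrix (Fin b) (Fin b) F) *ᵥ w) :=
      congrArg _ hvw
    rwa [Matrix.mulVec_mulVec, Matrix.mulVec_mulVec, ← Units.val_mul, inv_mul_cancel, Units.val_one, Matrix.one_mulVec, Matrix.one_mulVec] at h2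
  by_cases hA : ∃ c : F, (A : Matrix (Fin a) (Fin a) F) = c • (1 : Matrix (Fin a) (Fin a) F)
  · right
    obtain ⟨c, hc⟩ := hA
    have h2 : (A : Matrix (Fin a) (Fin a) F) ⊗ₖ (B : Matrix (Fin b) (Fin b) F) = (1 : Matrix (Fin a) (Fin a) F) ⊗ₖ (c • (B : Matrix (Fin b) (Fin b) F)) := by
      rw [hc, Matrix.smul_kronecker, Matrix.kronecker_smul]
    rw [h1, h2, finrank_ker_one_kron, one_smul]
    have h3 : finrank F (LinearMap.ker (Matrix.toLin' (c • (B : Matrix (Fin b) (Fin b) F)) - 1)) < b := by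
      have h4 : LinearMap.ker (Matrix.toLin' (c • (B : Matrix (Fin b) (Fin b) F)) - 1) ≠ ⊤ := by
        intro h
        apply hX
        have h5 : Matrix.toLin' (c • (B : Matrix (Fin b) (Fin b) F)) = 1 := by
          rw [LinearMap.ker_eq_top, sub_eq_zero] at h
          exact h
        have h6 : c • (B : Matrix (Fin b) (Fin b) F) = 1 := by
          apply Matrix.toLin'.injective
          rw [h5, Matrix.toLin'_one]; rfl
        apply LinearMap.ext
        intro v
        obtain ⟨t, rfl⟩ := Ψ.surjective v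
        rw [hΨ, h2, h6, Matrix.one_kronecker_one, Matrix.one_mulVec]
        rfl
      have h7 := Submodule.finrank_lt h4
      rwa [finrank_fin_fun] at h7
    obtain ⟨k, hk⟩ : ∃ k, finrank F (LinearMap.ker (Matrix.toLin' (c • (B : Matrix (Fin b) (Fin b) F)) - 1)) = k := ⟨_, rfl⟩
    rw [hk] at h3 ⊢
    calc a * k + a = a * (k + 1) := by ring
      _ ≤ a * b := Nat.mul_le_mul_left _ h3
  · left
    push Not at hA
    rw [h1]
    exact finrank_ker_kron_left _ _ hA hinjB 1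

/-- transvections -/
theorem exists_transv {V : Type*} [AddCommGroup V] [Module F V] [FiniteDimensional F V] {p : ℕ} [CharP F p] {f : V → V → F} (hA : AltForm f)
    (hND : ND f (⊤ : Submodule F V)) (hV : 2 ≤ finrank F V) :
    ∃ T : V →ₗ[F] V, (∀ u v, f (T u) (T v) = f u v) ∧ T ^ p = 1 ∧ (∀ z : F, T ≠ z • (1 : V →ₗ[F] V)) ∧
      finrank F V ≤ finrank F (LinearMap.ker (T - 1)) + 1 := by
  have hB := hA.oform
  obtain ⟨u, hu0⟩ : ∃ u : V, u ≠ 0 := by
    have : Nontrivial V := Module.nontrivial_of_finrank_pos (R := F) (by omega)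
    exact exists_ne 0
  obtain ⟨w, hw⟩ : ∃ w, f w u ≠ 0 := by
    by_contra hcon
    push Not at hcon
    exact hu0 (hND u Submodule.mem_top (fun v _ => hB.refl _ _ (hcon v)))
  obtain ⟨N, hN⟩ : ∃ N : V →ₗ[F] V, ∀ v, N v = f v u • u :=
    ⟨(hB.toLin u).smulRight u, fun v => rfl⟩
  have huu : f u u = 0 := hA.alt u
  have hN2 : N * N = 0 := by
    apply LinearMap.ext
    intro v
    rw [Module.End.mul_apply, hN v, map_smul, hN u, huu, zero_smul, smul_zero]; rfl
  have hTk : ∀ k : ℕ, (1 + N) ^ k = 1 + (k : F) • N := by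
    intro k
    induction k with
    | zero => simp
    | succ k ih =>
      rw [pow_succ, ih, add_mul, one_mul, mul_add, mul_one, smul_mul_assoc, hN2, smul_zero, add_zero, Nat.cast_succ, add_smul, one_smul]
      abel
  refine ⟨1 + N, ?_, ?_, ?_, ?_⟩
  · intro v v'
    rw [LinearMap.add_apply, LinearMap.add_apply, Module.End.one_apply, Module.End.one_apply, hN, hN, hA.add_left, hA.add_right, hA.add_right,
      hA.smul_left, hA.smul_left, hA.smul_right, hA.smul_right, huu]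
    have h1 : f u v' = - f v' u := by
      have h2 := hA.alt (u + v')
      rw [hA.add_left, hA.add_right, hA.add_right, huu, hA.alt v'] at h2
      linear_combination h2
    rw [h1]; ring
  · rw [hTk, CharP.cast_eq_zero, zero_smul, add_zero]
  · intro z hz
    have h1 := LinearMap.congr_fun hz u
    rw [LinearMap.add_apply, hN, huu, zero_smul, add_zero, Module.End.one_apply, LinearMap.smul_apply, Module.End.one_apply] at h1
    have h2 : (z - 1) • u = 0 := by rw [sub_smul, one_smul, ← h1, sub_self]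
    have h3 := (smul_eq_zero.mp h2).resolve_right hu0
    have h4 : z = 1 := by linear_combination h3
    have h5 := LinearMap.congr_fun hz w
    rw [LinearMap.add_apply, hN, h4, one_smul] at h5
    have h6 : f w u • u = 0 := add_left_cancel (h5.trans (add_zero _).symm)
    exact (smul_ne_zero hw hu0) h6
  · rw [add_sub_cancel_left]
    have h1 := N.finrank_range_add_finrank_ker
    have h2 : finrank F (LinearMap.range N) ≤ 1 := by
      have h3 : LinearMap.range N ≤ Submodule.span F {u} := by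
        rintro _ ⟨v, rfl⟩
        rw [hN]
        exact Submodule.smul_mem _ _ (Submodule.mem_span_singleton_self u)
      have h4 := Submodule.finrank_mono h3
      rwa [finrank_span_singleton hu0] at h4
    omega

/-- reflections in planes -/
theorem exists_neg {V : Type*} [AddCommGroup V] [Module F V] [Fintype F] [FiniteDimensional F V] {f : V → V → F} (hA : AltForm f) (h2 : (2 : F) ≠ 0)
    (hND : ND f (⊤ : Submodule F V)) (hV : 3 ≤ finrank F V) :
    ∃ T : V →ₗ[F] V, (∀ u v, f (T u) (T v) = f u v) ∧ T ^ 2 = 1 ∧ (∀ z : F, T ≠ z • (1 : V →ₗ[F] V)) ∧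
      finrank F V ≤ finrank F (LinearMap.ker (T - 1)) + 2 := by
  have hB := hA.oform
  obtain ⟨U, -, hU, hUd⟩ := hA.exists_ND_sub 1 ⊤ hND (by rw [finrank_top]; omega)
  have hc := isCompl_orth hA.oform hU
  have hd2 := Submodule.finrank_add_eq_of_isCompl hc
  have hker : finrank F (orth hA.oform U) ≤ finrank F (LinearMap.ker (glue hc (-1) 1 - 1)) := by
    apply Submodule.finrank_mono
    intro v hv
    rw [LinearMap.mem_ker, LinearMap.sub_apply, sub_eq_zero]
    have h1 := glue_right hc (-1) 1 ⟨v, hv⟩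
    exact h1
  refine ⟨glue hc (-1) 1, ?_, ?_, ?_, ?_⟩
  · apply glue_isom hA.eform hc
    · intro u hu v hv
      exact hA.oform.refl _ _ (hv u hu)
    · intro u v
      change f (-(u : V)) (-(v : V)) = _
      rw [← neg_one_smul F (u : V), ← neg_one_smul F (v : V), hA.smul_left, hA.smul_right]; ring
    · intro u v
      rfl
  · have hn : ((-1 : U →ₗ[F] U)) ^ 2 = 1 := by
      apply LinearMap.ext
      intro v
      rw [pow_two, Module.End.mul_apply, LinearMap.neg_apply, LinearMap.neg_apply, Module.End.one_apply, Module.End.one_apply, neg_neg]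
    rw [glue_pow, hn, one_pow, glue_one]
  · intro z hz
    obtain ⟨u, hu, hu0⟩ := (Submodule.ne_bot_iff _).mp (fun h => by rw [h, finrank_bot] at hUd; omega : U ≠ ⊥)
    obtain ⟨v, hv, hv0⟩ := (Submodule.ne_bot_iff _).mp (fun h => by rw [h, finrank_bot] at hd2; omega : orth hA.oform U ≠ ⊥)
    have h1 := glue_left hc (-1) 1 ⟨u, hu⟩
    have h3 := glue_right hc (-1) 1 ⟨v, hv⟩
    rw [hz] at h1 h3
    have h4 : z • u = -u := h1
    have h5 : z • v = v := h3
    have h6 : (z - 1) • v = 0 := by rw [sub_smul, one_smul, h5, sub_self]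
    have h7 : (z + 1) • u = 0 := by rw [add_smul, one_smul, h4, neg_add_cancel]
    have h8 := (smul_eq_zero.mp h6).resolve_right hv0
    have h9 := (smul_eq_zero.mp h7).resolve_right hu0
    apply h2
    linear_combination h9 - h8
  · omega

end small

section fwd
variable {F : Type*} [Field F] [Fintype F] {d a b : ℕ}

theorem two_ne (hodd : Odd (Fintype.card F)) : (2 : F) ≠ 0 := by
  intro h2
  have hchar : ringChar F = 2 := by
    have h3 : ringChar F ∣ 2 := ringChar.dvd (by exact_mod_cast h2)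
    rcases (Nat.dvd_prime Nat.prime_two).mp h3 with h | h
    · exact absurd h (CharP.ringChar_ne_one)
    · exact h
  have := FiniteField.even_card_of_char_two hchar
  exact (Nat.not_even_iff_odd.mpr hodd) (Nat.even_iff.mpr this)

/-- forward direction -/
theorem forward {p : ℕ} [Fact p.Prime] [CharP F p] (hodd : Odd (Fintype.card F)) (hd : 2 ≤ d) (hab : 2 * d = a * b) (ha2 : 2 ≤ a) (hae : Even a) (hb : 3 ≤ b)
    (e : (Fin d ⊕ Fin d) ≃ Fin a × Fin b) (P : GL (Fin d ⊕ Fin d) F)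
    {f₁ : (Fin a → F) → (Fin a → F) → F} {f₂ : (Fin b → F) → (Fin b → F) → F}
    (hf₁ : Cfsg.Geo.IsSymplecticForm f₁) (hf₂ : Cfsg.Geo.IsSymmetricForm f₂)
    (hS : Cfsg.Geo.IsTensorFormStructure id (Cfsg.sympForm d F) f₁ f₂ e P)
    (r : ℕ) [Fact r.Prime] (hrd : r ∣ Nat.card (Matrix.symplecticGroup (Fin d) F))
    (H : ∀ x ∈ Cfsg.spGL d F, (∃ z : F, ((x ^ r : GL (Fin d ⊕ Fin d) F) : Matrix (Fin d ⊕ Fin d) (Fin d ⊕ Fin d) F) = z • (1 : Matrix (Fin d ⊕ Fin d) (Fin d ⊕ Fin d) F)) →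
      (∀ z : F, (x : Matrix (Fin d ⊕ Fin d) (Fin d ⊕ Fin d) F) ≠ z • (1 : Matrix (Fin d ⊕ Fin d) (Fin d ⊕ Fin d) F)) →
      ∃ g ∈ Cfsg.spGL d F, g⁻¹ * x * g ∈ Cfsg.Geo.tensorProductSubgroup a b e P) : r = 2 ∧ a = 2 := by
  classical
  have hr : r.Prime := Fact.out
  obtain ⟨Θ, c, hc, hΘ, hΘf⟩ := exists_model hab e P hf₁.bilinear hf₂.bilinear hS
  -- consequence of `H`
  have H2 : ∀ x : Matrix.symplecticGroup (Fin d) F, x ^ r = 1 →
      (∀ z : F, (x : Matrix (Fin d ⊕ Fin d) (Fin d ⊕ Fin d) F) ≠ z • (1 : Matrix (Fin d ⊕ Fin d) (Fin d ⊕ Fin d) F)) →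
      ∃ (A : GL (Fin a) F) (B : GL (Fin b) F) (Ψ : (Fin a × Fin b → F) ≃ₗ[F] (Fin d ⊕ Fin d → F)),
        (∀ t, Matrix.toLin' (x : Matrix (Fin d ⊕ Fin d) (Fin d ⊕ Fin d) F) (Ψ t) = Ψ (((A : Matrix (Fin a) (Fin a) F) ⊗ₖ (B : Matrix (Fin b) (Fin b) F)) *ᵥ t)) ∧
        ∀ u u' w w', Cfsg.sympForm d F (Ψ (pureT u w)) (Ψ (pureT u' w')) = c * (f₁ u u' * f₂ w w') := by
    intro x hx1 hx3
    obtain ⟨X, hX, hXx⟩ := exists_gl_of_symp x
    obtain ⟨g, hg, hgx⟩ := H X hX ⟨1, by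
      rw [Units.val_pow_eq_pow_val, hXx, ← symp_coe_pow, hx1, one_smul]; rfl⟩ (by rw [hXx]; exact hx3)
    obtain ⟨A, B, hAB⟩ := mem_imp e P _ hgx
    have h1 : (g : Matrix (Fin d ⊕ Fin d) (Fin d ⊕ Fin d) F) * ((g⁻¹ : GL (Fin d ⊕ Fin d) F) : Matrix (Fin d ⊕ Fin d) (Fin d ⊕ Fin d) F) = 1 := by
      rw [← Units.val_mul, mul_inv_cancel, Units.val_one]
    have h2 : ((g⁻¹ : GL (Fin d ⊕ Fin d) F) : Matrix (Fin d ⊕ Fin d) (Fin d ⊕ Fin d) F) * (g : Matrix (Fin d ⊕ Fin d) (Fin d ⊕ Fin d) F) = 1 := by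
      rw [← Units.val_mul, inv_mul_cancel, Units.val_one]
    refine ⟨A, B, Θ.trans (Matrix.toLin'OfInv h2 h1), ?_, ?_⟩
    · intro t
      have h3 := hAB t
      have h4 : X * g = g * (g⁻¹ * X * g) := by group
      have h5 : ∀ s, (x : Matrix (Fin d ⊕ Fin d) (Fin d ⊕ Fin d) F) *ᵥ ((g : Matrix (Fin d ⊕ Fin d) (Fin d ⊕ Fin d) F) *ᵥ s) =
          (g : Matrix (Fin d ⊕ Fin d) (Fin d ⊕ Fin d) F) *ᵥ (((g⁻¹ * X * g : GL (Fin d ⊕ Fin d) F) : Matrix (Fin d ⊕ Fin d) (Fin d ⊕ Fin d) F) *ᵥ s) := by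
        intro s
        rw [Matrix.mulVec_mulVec, Matrix.mulVec_mulVec, ← hXx, ← Units.val_mul, ← Units.val_mul, h4]
      change (x : Matrix (Fin d ⊕ Fin d) (Fin d ⊕ Fin d) F) *ᵥ ((g : Matrix (Fin d ⊕ Fin d) (Fin d ⊕ Fin d) F) *ᵥ (Θ t)) =
        (g : Matrix (Fin d ⊕ Fin d) (Fin d ⊕ Fin d) F) *ᵥ (Θ (((A : Matrix (Fin a) (Fin a) F) ⊗ₖ (B : Matrix (Fin b) (Fin b) F)) *ᵥ t))
      rw [h5, hΘ, hΘ, h3]
    · intro u u' w w'
      change Cfsg.sympForm d F ((g : Matrix (Fin d ⊕ Fin d) (Fin d ⊕ Fin d) F) *ᵥ (Θ (pureT u w))) ((g : Matrix (Fin d ⊕ Fin d) (Fin d ⊕ Fin d) F) *ᵥ (Θ (pureT u' w'))) = _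
      rw [mem_spGL.mp hg, hΘf]
  -- a linear version
  have H3 : ∀ T : (Fin d ⊕ Fin d → F) →ₗ[F] (Fin d ⊕ Fin d → F), (∀ u v, Cfsg.sympForm d F (T u) (T v) = Cfsg.sympForm d F u v) →
      T ^ r = 1 → (∀ z : F, T ≠ z • (1 : (Fin d ⊕ Fin d → F) →ₗ[F] (Fin d ⊕ Fin d → F))) →
      ∃ (A : GL (Fin a) F) (B : GL (Fin b) F) (Ψ : (Fin a × Fin b → F) ≃ₗ[F] (Fin d ⊕ Fin d → F)),
        (∀ t, T (Ψ t) = Ψ (((A : Matrix (Fin a) (Fin a) F) ⊗ₖ (B : Matrix (Fin b) (Fin b) F)) *ᵥ t)) ∧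
        ∀ u u' w w', Cfsg.sympForm d F (Ψ (pureT u w)) (Ψ (pureT u' w')) = c * (f₁ u u' * f₂ w w') := by
    intro T hT1 hT2 hT3
    obtain ⟨x, hx⟩ := exists_symp_of_isometry T hT1
    obtain ⟨A, B, Ψ, h1, h2⟩ := H2 x (by
      apply Subtype.ext
      rw [symp_coe_pow]
      apply Matrix.toLin'.injective
      rw [Matrix.toLin'_pow, hx, hT2]
      change _ = Matrix.toLin' (1 : Matrix (Fin d ⊕ Fin d) (Fin d ⊕ Fin d) F)
      rw [Matrix.toLin'_one]
      rfl) (by
      intro z hz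
      apply hT3 z
      rw [← hx, hz, map_smul, Matrix.toLin'_one]
      rfl)
    exact ⟨A, B, Ψ, by rw [← hx]; exact h1, h2⟩
  have hA := sympForm_altForm (F := F) d
  have hNDt := sympForm_ND (F := F) d
  have hfin := finrank_symp d F
  have h2F : (2 : F) ≠ 0 := two_ne hodd
  have one_of : ∀ T : (Fin d ⊕ Fin d → F) →ₗ[F] (Fin d ⊕ Fin d → F), (∀ z : F, T ≠ z • (1 : (Fin d ⊕ Fin d → F) →ₗ[F] (Fin d ⊕ Fin d → F))) → T ≠ 1 := by
    intro T h h'
    apply h 1
    rw [one_smul, h']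
  have hp2 : p ≠ 2 := by
    rintro rfl
    apply h2F
    have := CharP.cast_eq_zero F 2
    exact_mod_cast this
  by_cases hr2 : r = 2
  · refine ⟨hr2, ?_⟩
    by_contra ha
    have ha4 : 4 ≤ a := by
      obtain ⟨k, hk⟩ := hae
      omega
    obtain ⟨T, hT1, hT2, hT3, hT4⟩ := exists_neg hA h2F hNDt (by rw [hfin]; omega)
    obtain ⟨A, B, Ψ, h1, -⟩ := H3 T hT1 (by rw [hr2]; exact hT2) hT3
    have h3 := small A B Ψ T h1 (one_of T hT3)
    omega
  · exfalso
    by_cases hrp : r = p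
    · subst hrp
      obtain ⟨T, hT1, hT2, hT3, hT4⟩ := exists_transv (p := r) hA hNDt (by rw [hfin]; omega)
      obtain ⟨A, B, Ψ, h1, -⟩ := H3 T hT1 hT2 hT3
      have h3 := small A B Ψ T h1 (one_of T hT3)
      omega
    · have hblk := blk_le_of_dvd_card hr2 hrp hrd
      obtain ⟨x, hxr, hxk⟩ := exists_symp_elt (F := F) hr2 hrp (d := d) 1 (by rw [one_mul]; exact hblk)
      rw [one_mul] at hxk
      have ho : 0 < orderOf ((Fintype.card F : ℕ) : ZMod r) := by
        have : NeZero r := ⟨hr.ne_zero⟩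
        have hq0 : ((Fintype.card F : ℕ) : ZMod r) ≠ 0 := by
          rw [Ne, ZMod.natCast_eq_zero_iff]; exact not_dvd_card (F := F) hrp
        have hu : IsUnit ((Fintype.card F : ℕ) : ZMod r) := hq0.isUnit
        obtain ⟨u, hu⟩ := hu
        rw [← hu, orderOf_units]
        exact orderOf_pos u
      have hblk2 : 2 ≤ blk r (Fintype.card F) := by
        unfold blk
        split_ifs with h
        · rcases h with ⟨k, hk⟩; omega
        · omega
      have hx1 : x ≠ 1 := by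
        rintro rfl
        have h1 : Matrix.toLin' ((1 : Matrix.symplecticGroup (Fin d) F) : Matrix (Fin d ⊕ Fin d) (Fin d ⊕ Fin d) F) - 1 = 0 := by
          change Matrix.toLin' (1 : Matrix (Fin d ⊕ Fin d) (Fin d ⊕ Fin d) F) - 1 = 0
          rw [Matrix.toLin'_one, sub_eq_zero]
          rfl
        rw [h1, LinearMap.ker_zero, finrank_top, hfin] at hxk
        omega
      obtain ⟨A, B, Ψ, h1, hf⟩ := H2 x hxr (symp_not_scalar (by omega) hr2 x hxr hx1)
      obtain ⟨T, hT⟩ : ∃ T, T = Matrix.toLin' (x : Matrix (Fin d ⊕ Fin d) (Fin d ⊕ Fin d) F) := ⟨_, rfl⟩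
      rw [← hT] at hxk h1
      have hTr : T ^ r = 1 := by
        rw [hT, ← Matrix.toLin'_pow, ← symp_coe_pow, hxr]
        change Matrix.toLin' (1 : Matrix (Fin d ⊕ Fin d) (Fin d ⊕ Fin d) F) = _
        rw [Matrix.toLin'_one]
        rfl
      have hTi : ∀ u v, Cfsg.sympForm d F (T u) (T v) = Cfsg.sympForm d F u v := by
        rw [hT]; exact sympForm_toLin' d x.2
      -- the two forms
      have hE₁ := symp_eform hf₁
      have hE₂ := symm_eform hf₂
      have hN₁ := nd_of hf₁.nondegenerate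
      have hN₂ := nd_of hf₂.nondegenerate
      obtain ⟨u₀, u₀', hu₀⟩ : ∃ u₀ u₀', f₁ u₀ u₀' ≠ 0 := by
        have hne : (Pi.single ⟨0, by omega⟩ 1 : Fin a → F) ≠ 0 := by
          intro h
          have := congrFun h ⟨0, by omega⟩
          simp at this
        obtain ⟨-, v, hv⟩ := hf₁.nondegenerate _ hne
        exact ⟨_, _, hv⟩
      obtain ⟨w₀, w₀', hw₀⟩ : ∃ w₀ w₀', f₂ w₀ w₀' ≠ 0 := by
        have hne : (Pi.single ⟨0, by omega⟩ 1 : Fin b → F) ≠ 0 := by
          intro h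
          have := congrFun h ⟨0, by omega⟩
          simp at this
        obtain ⟨-, v, hv⟩ := hf₂.nondegenerate _ hne
        exact ⟨_, _, hv⟩
      have hiso : ∀ u u' w w', f₁ ((A : Matrix (Fin a) (Fin a) F) *ᵥ u) ((A : Matrix (Fin a) (Fin a) F) *ᵥ u') *
          f₂ ((B : Matrix (Fin b) (Fin b) F) *ᵥ w) ((B : Matrix (Fin b) (Fin b) F) *ᵥ w') = f₁ u u' * f₂ w w' := by
        intro u u' w w'
        have h3 := hTi (Ψ (pureT u w)) (Ψ (pureT u' w'))
        rw [h1, h1, kron_mulVec, kron_mulVec, hf, hf] at h3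
        exact mul_left_cancel₀ hc h3
      have hTpow : ∀ k t, (T ^ k) (Ψ t) = Ψ ((((A : Matrix (Fin a) (Fin a) F) ⊗ₖ (B : Matrix (Fin b) (Fin b) F)) ^ k) *ᵥ t) := by
        intro k
        induction k with
        | zero => intro t; simp
        | succ k ih => intro t; rw [pow_succ', Module.End.mul_apply, ih, h1, Matrix.mulVec_mulVec, pow_succ']
      have hpow : ∀ u w, pureT (((A : Matrix (Fin a) (Fin a) F) ^ r) *ᵥ u) (((B : Matrix (Fin b) (Fin b) F) ^ r) *ᵥ w) = pureT u w := by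
        intro u w
        have h3 := hTpow r (pureT u w)
        rw [hTr, powA, Module.End.one_apply] at h3
        exact (Ψ.injective h3).symm
      obtain ⟨κ, hκ, g1, g2, g3, g4⟩ := normalize hE₁ hE₂ hu₀ hw₀ (A : Matrix (Fin a) (Fin a) F) (B : Matrix (Fin b) (Fin b) F) hiso
        (hr.odd_of_ne_two hr2) hpow
      have hkr : (κ⁻¹ • (A : Matrix (Fin a) (Fin a) F)) ⊗ₖ (κ • (B : Matrix (Fin b) (Fin b) F)) =
          (A : Matrix (Fin a) (Fin a) F) ⊗ₖ (B : Matrix (Fin b) (Fin b) F) := by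
        rw [Matrix.smul_kronecker, Matrix.kronecker_smul, smul_smul, inv_mul_cancel₀ hκ, one_smul]
      have hT1 : T ≠ 1 := by
        intro h
        rw [h, sub_self, LinearMap.ker_zero, finrank_top, hfin] at hxk
        omega
      refine odd_case hr2 hrp ha2 hb hE₁ hE₂ hN₁ hN₂ hu₀ (κ⁻¹ • (A : Matrix (Fin a) (Fin a) F)) (κ • (B : Matrix (Fin b) (Fin b) F)) g1 g2 g3 g4 ?_ ?_
      · rw [hkr]
        intro h
        apply hT1
        apply LinearMap.ext
        intro v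
        obtain ⟨t, rfl⟩ := Ψ.surjective v
        rw [h1, h, Matrix.one_mulVec]; rfl
      · rw [hkr, ← hab, ← hxk, Nat.add_le_add_iff_right]
        apply le_of_eq
        apply finrank_ker_eq _ _ Ψ
        intro t
        rw [LinearMap.sub_apply, h1, LinearMap.sub_apply, map_sub, one_smul]
        rfl

end fwd

end Cfsg.Agent.H43.TensSp
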