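import Mathlib
import Cfsg.Agent.H43.FExt
import Cfsg.Agent.H43.TensSp2
/-!
# Field extension subgroups of symplectic groups: elements of prime order
-/
set_option autoImplicit false
set_option linter.unusedSectionVars false
set_option linter.unusedVariables false

namespace Cfsg.Agent.H43.FExtSp

open Module Matrix Cfsg.Agent.H99 Cfsg.Agent.H43.FExt Cfsg.Agent.H43.TensSp

section num
variable {r : ℕ} [Fact r.Prime] {q k : ℕ}

theorem dvd_of_blk (hk : k.Prime) (hq : 0 < q) (hrq : ¬ r ∣ q) (h : k * blk r (q ^ k) ≤ blk r q) (j : ℕ) (hj : r ∣ q ^ (2 * j) - 1) : k ∣ j := by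
  rw [dvd_pow_sub_one_iff hq] at hj
  have hi := orderOf_pos_of_not_dvd hrq
  obtain ⟨i, hi'⟩ : ∃ i, i = orderOf (q : ZMod r) := ⟨_, rfl⟩
  have h1 : orderOf ((q ^ k : ℕ) : ZMod r) = i / Nat.gcd i k := by
    rw [Nat.cast_pow, orderOf_pow' _ hk.ne_zero, hi']
  unfold blk at h
  rw [h1, ← hi'] at h
  rw [← hi'] at hj hi
  by_cases hki : k ∣ i
  · obtain ⟨m, rfl⟩ := hki
    have hm : 0 < m := Nat.pos_of_mul_pos_left hi
    rw [Nat.gcd_mul_right_left, Nat.mul_div_cancel_left _ hk.pos] at h
    by_cases hme : Even m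
    · obtain ⟨s, hs⟩ := hme
      have h2 : 2 * (k * s) ∣ 2 * j := by
        have h3 : 2 * (k * s) = k * m := by rw [hs]; ring
        rw [h3]; exact hj
      exact (dvd_mul_right k s).trans (Nat.dvd_of_mul_dvd_mul_left (by norm_num) h2)
    · rw [if_neg hme] at h
      by_cases hkm : Even (k * m)
      · exfalso
        rw [if_pos hkm] at h
        have h2 : k * (2 * m) = 2 * (k * m) := by ring
        omega
      · rw [Nat.not_even_iff_odd] at hkm
        have h2 : k * m ∣ j := (Nat.Coprime.dvd_mul_left ((Nat.coprime_two_right).mpr hkm)).mp hj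
        exact (dvd_mul_right k m).trans h2
  · exfalso
    have h2 : Nat.gcd i k = 1 := by
      have := (Nat.Prime.coprime_iff_not_dvd hk).mpr hki
      exact Nat.coprime_comm.mp this
    rw [h2, Nat.div_one] at h
    have hk2 := hk.two_le
    split_ifs at h with he
    · have h3 : 2 * i ≤ k * i := Nat.mul_le_mul_right _ hk2
      omega
    · have h3 : 2 * (2 * i) ≤ k * (2 * i) := Nat.mul_le_mul_right _ hk2
      omega

theorem blk_le (hr2 : r ≠ 2) (hrq : ¬ r ∣ q) : blk r q ≤ r - 1 := by
  have hr : r.Prime := Fact.out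
  have h1 : orderOf (q : ZMod r) ∣ r - 1 := by
    apply ZMod.orderOf_dvd_card_sub_one
    rw [Ne, ZMod.natCast_eq_zero_iff]; exact hrq
  have hr3 : 2 < r := lt_of_le_of_ne hr.two_le (Ne.symm hr2)
  obtain ⟨s, hs⟩ : Odd r := hr.odd_of_ne_two hr2
  unfold blk
  split_ifs with h
  · exact Nat.le_of_dvd (by omega) h1
  · rw [Nat.not_even_iff_odd] at h
    have h2 : r - 1 = 2 * s := by omega
    rw [h2] at h1 ⊢
    have h3 := (Nat.Coprime.dvd_mul_left ((Nat.coprime_two_right).mpr h)).mp h1
    have h4 := Nat.le_of_dvd (by omega) h3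
    omega

theorem prod_split (hk : 0 < k) (hN : ∀ j, r ∣ q ^ (2 * j) - 1 → k ∣ j) (m : ℕ) :
    ∃ N, ¬ r ∣ N ∧ ∏ i ∈ Finset.range (k * m), (q ^ (2 * (i + 1)) - 1) = N * ∏ i ∈ Finset.range m, ((q ^ k) ^ (2 * (i + 1)) - 1) := by
  have hr : r.Prime := Fact.out
  obtain ⟨k', rfl⟩ : ∃ k', k = k' + 1 := ⟨k - 1, by omega⟩
  induction m with
  | zero => exact ⟨1, fun h => hr.one_lt.ne' (Nat.dvd_one.mp h), by simp⟩
  | succ m ih =>
    obtain ⟨N, hN1, hN2⟩ := ih
    refine ⟨N * ∏ x ∈ Finset.range k', (q ^ (2 * ((k' + 1) * m + x + 1)) - 1), ?_, ?_⟩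
    · intro h
      rcases hr.dvd_mul.mp h with h | h
      · exact hN1 h
      · obtain ⟨x, hx, h1⟩ := (Prime.dvd_finsetProd_iff hr.prime _).mp h
        rw [Finset.mem_range] at hx
        have h2 := hN _ h1
        have h3 : k' + 1 ∣ x + 1 := by
          rw [add_assoc] at h2
          exact (Nat.dvd_add_right (dvd_mul_right _ _)).mp h2
        have := Nat.le_of_dvd (by omega) h3
        omega
    · rw [mul_add, mul_one, Finset.prod_range_add, hN2, Finset.prod_range_succ (n := k'), Finset.prod_range_succ (n := m)]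
      have h1 : q ^ (2 * ((k' + 1) * m + k' + 1)) = (q ^ (k' + 1)) ^ (2 * (m + 1)) := by
        rw [← pow_mul]
        congr 1; ring
      rw [h1]
      ring

theorem card_sp_dvd {F E : Type*} [Field F] [Fintype F] [Field E] [Fintype E] (hk : k.Prime) (hE : Fintype.card E = Fintype.card F ^ k)
    (hrq : ¬ r ∣ Fintype.card F) (hN : ∀ j, r ∣ Fintype.card F ^ (2 * j) - 1 → k ∣ j) (m t : ℕ)
    (ht : r ^ t ∣ Nat.card (Matrix.symplecticGroup (Fin (k * m)) F)) : r ^ t ∣ Nat.card (Matrix.symplecticGroup (Fin m) E) := by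
  have hr : r.Prime := Fact.out
  rw [Cfsg.Agent.ClassSp.card_fin] at ht ⊢
  obtain ⟨N, hN1, hN2⟩ := prod_split hk.pos hN m
  rw [hN2] at ht
  have h1 : Nat.Coprime (r ^ t) (Fintype.card F ^ (k * m) ^ 2) :=
    Nat.Coprime.pow _ _ ((Nat.Prime.coprime_iff_not_dvd hr).mpr hrq)
  have h2 : Nat.Coprime (r ^ t) N := Nat.Coprime.pow_left _ ((Nat.Prime.coprime_iff_not_dvd hr).mpr hN1)
  have h3 := h2.dvd_of_dvd_mul_left (h1.dvd_of_dvd_mul_left ht)
  rw [hE]
  exact h3.mul_left _

end num

section fwd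
variable {F E : Type*} [Field F] [Fintype F] {p : ℕ} [Fact p.Prime] [CharP F p] [Field E] [Fintype E] [Algebra F E]
  {V : Type*} [AddCommGroup V] [Module F V] [Module E V] [IsScalarTower F E V] [FiniteDimensional F V] {d k r : ℕ} [Fact r.Prime]

theorem forward (hk : k.Prime) (hE : finrank F E = k) (hd : 2 ≤ d) (hV : finrank F V = 2 * d) {f : V → V → F} (hA : AltForm f)
    (hND : ND f (⊤ : Submodule F V)) (hsa : ∀ (a : E) u v, f (a • u) v = f u (a • v)) (halt : ∀ (a : E) v, f (a • v) v = 0)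
    (hblk : r ≠ 2 → r ≠ p → blk r (Fintype.card F) ≤ 2 * d)
    (hN : r ≠ 2 → r ≠ p → ¬ ∀ j, r ∣ (Fintype.card F) ^ (2 * j) - 1 → k ∣ j)
    (H : ∀ T : V →ₗ[F] V, (∀ u v, f (T u) (T v) = f u v) → T ^ r = 1 → (∀ z : F, T ≠ z • (1 : V →ₗ[F] V)) →
      ∃ (y : V →ₗ[F] V) (σ : E →ₐ[F] E), (∀ u v, f (y u) (y v) = f u v) ∧ y ^ r = 1 ∧ finrank F (LinearMap.ker (y - 1)) = finrank F (LinearMap.ker (T - 1)) ∧
        ∀ (a : E) v, y (a • v) = σ a • y v) :
    r = 2 ∧ d = 2 ∧ k = 2 ∧ Odd (Fintype.card F) := by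
  have hr : r.Prime := Fact.out
  have hp : p.Prime := Fact.out
  have hFE : FiniteDimensional F E := FiniteDimensional.of_finrank_pos (by rw [hE]; exact hk.pos)
  have hEV : FiniteDimensional E V := FiniteDimensional.right F E V
  have hnt : Nontrivial V := Module.nontrivial_of_finrank_pos (R := F) (by omega)
  have hcE : CharP E p := charP_of_injective_algebraMap (algebraMap F E).injective p
  have hcard : Fintype.card E = Fintype.card F ^ k := by rw [← hE]; exact Module.card_eq_pow_finrank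
  obtain ⟨l, hl⟩ : ∃ l : E →ₗ[F] F, l ≠ 0 := ⟨Algebra.trace F E, Algebra.trace_ne_zero F E⟩
  obtain ⟨φ, hφ⟩ := exists_val l hl hA.add_left hA.smul_left
  have hAφ := val_altForm l hl hA hsa halt hφ
  have hNφ := val_ND l hφ hND
  have hdim : k * finrank E V = 2 * d := by rw [← hE, Module.finrank_mul_finrank, hV]
  obtain ⟨m, hm⟩ : Even (finrank E V) := by
    have := hAφ.even_finrank_sub hNφ
    rwa [finrank_top] at this
  have hdm : d = k * m := by
    rw [hm] at hdim
    have h1 : 2 * (k * m) = 2 * d := by rw [← hdim]; ring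
    omega
  have hk2 := hk.two_le
  -- lower bound in terms of a nonlinear element
  have semi : ∀ (y : V →ₗ[F] V) (σ : E →ₐ[F] E), y ^ r = 1 → (∀ (a : E) v, y (a • v) = σ a • y v) → (¬ ∀ a, σ a = a) →
      r = k ∧ 2 * finrank F (LinearMap.ker (y - 1)) ≤ 2 * d := by
    intro y σ hy hσ hne
    push Not at hne
    obtain ⟨a₀, ha₀⟩ := hne
    refine ⟨eq_of_semi hk hr hE y σ hσ hy ha₀, ?_⟩
    rw [← hV]
    exact semi_bound y (σ : E →+* E) hσ ha₀
  -- linear elements
  have lin : ∀ (y : V →ₗ[F] V) (σ : E →ₐ[F] E), (∀ u v, f (y u) (y v) = f u v) → y ^ r = 1 → (∀ (a : E) v, y (a • v) = σ a • y v) → (∀ a, σ a = a) →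
      ∃ yE : V →ₗ[E] V, (∀ v, y v = yE v) ∧ (∀ u v, φ (yE u) (yE v) = φ u v) ∧ yE ^ r = 1 ∧
        finrank F (LinearMap.ker (y - 1)) = k * finrank E (LinearMap.ker (yE - 1)) := by
    intro y σ hyi hy hσ hid
    obtain ⟨yE, hyE⟩ : ∃ yE : V →ₗ[E] V, ∀ v, yE v = y v :=
      ⟨{ toFun := y, map_add' := map_add y, map_smul' := fun a v => by rw [hσ, hid]; rfl }, fun _ => rfl⟩
    refine ⟨yE, fun v => (hyE v).symm, ?_, ?_, ?_⟩
    · apply val_isom l hl hφ
      intro u v
      rw [hyE, hyE, hyi]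
    · have h1 : ∀ n v, (yE ^ n) v = (y ^ n) v := by
        intro n
        induction n with
        | zero => intro v; rfl
        | succ n ih => intro v; rw [pow_succ, pow_succ, Module.End.mul_apply, Module.End.mul_apply, hyE, ih]
      apply LinearMap.ext
      intro v
      rw [h1, hy]; rfl
    · rw [finrank_ker_restrict yE y (fun v => (hyE v).symm), hE]
  have one_of : ∀ T : V →ₗ[F] V, (∀ z : F, T ≠ z • (1 : V →ₗ[F] V)) → finrank F (LinearMap.ker (T - 1)) < 2 * d := by
    intro T h
    rw [← hV]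
    apply Submodule.finrank_lt
    intro h'
    apply h 1
    rw [LinearMap.ker_eq_top, sub_eq_zero] at h'
    rw [one_smul, h']
  by_cases hrp : r = p
  · exfalso
    subst hrp
    obtain ⟨T, hT1, hT2, hT3, hT4⟩ := exists_transv (p := r) hA hND (by rw [hV]; omega)
    obtain ⟨y, σ, hy1, hy2, hy3, hy4⟩ := H T hT1 hT2 hT3
    have hlt := one_of T hT3
    rw [hV] at hT4
    have hk1 : finrank F (LinearMap.ker (y - 1)) = 2 * d - 1 := by omega
    by_cases hid : ∀ a, σ a = a
    · obtain ⟨yE, -, -, -, h5⟩ := lin y σ hy1 hy2 hy4 hid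
      rw [hk1] at h5
      have h6 : k ∣ 1 := by
        have h7 : k ∣ 2 * d := ⟨_, hdim.symm⟩
        have h8 : k ∣ 2 * d - 1 := ⟨_, h5⟩
        have h9 := Nat.dvd_sub h7 h8
        have h10 : 2 * d - (2 * d - 1) = 1 := by omega
        rwa [h10] at h9
      exact hk.one_lt.ne' (Nat.dvd_one.mp h6)
    · have := (semi y σ hy2 hy4 hid).2
      omega
  · by_cases hr2 : r = 2
    · subst hr2
      have h2F : (2 : F) ≠ 0 := by
        intro h
        apply hrp
        have h1 : ((2 : ℕ) : F) = 0 := by exact_mod_cast h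
        rw [CharP.cast_eq_zero_iff F p] at h1
        exact ((Nat.prime_dvd_prime_iff_eq hp Nat.prime_two).mp h1).symm
      obtain ⟨T, hT1, hT2, hT3, hT4⟩ := exists_neg hA h2F hND (by rw [hV]; omega)
      obtain ⟨y, σ, hy1, hy2, hy3, hy4⟩ := H T hT1 hT2 hT3
      have hlt := one_of T hT3
      rw [hV] at hT4
      by_cases hid : ∀ a, σ a = a
      · exfalso
        obtain ⟨yE, h1, h2, h3, h5⟩ := lin y σ hy1 hy2 hy4 hid
        have h6 := (split_fixed hrp hAφ.eform h2 h3 (W := ⊤) (fun _ _ => Submodule.mem_top) hNφ).1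
        rw [top_inf_eq] at h6
        obtain ⟨s, hs⟩ := hAφ.even_finrank_sub h6
        rw [hs] at h5
        have h7 : finrank F (LinearMap.ker (y - 1)) = 2 * (k * s) := by rw [h5]; ring
        have h8 : k * s < k * m := by omega
        have h9 : s < m := lt_of_mul_lt_mul_left h8 (Nat.zero_le _)
        have h10 : k * (s + 1) ≤ k * m := Nat.mul_le_mul_left _ h9
        rw [mul_add, mul_one] at h10
        omega
      · obtain ⟨h1, h2⟩ := semi y σ hy2 hy4 hid
        refine ⟨rfl, by omega, h1.symm, ?_⟩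
        have h3 : ¬ Even (Fintype.card F) := by
          intro he
          obtain ⟨n, hp', hn⟩ := FiniteField.card F p
          rw [hn] at he
          have h4 : (2 : ℕ) ∣ p ^ (n : ℕ) := he.two_dvd
          have h5 := Nat.prime_two.dvd_of_dvd_pow h4
          exact hrp ((Nat.prime_dvd_prime_iff_eq Nat.prime_two hp).mp h5)
        exact Nat.not_even_iff_odd.mp h3
    · exfalso
      have hrq : ¬ r ∣ Fintype.card F := prime_not_dvd_card hrp
      have hblk' := hblk hr2 hrp
      obtain ⟨T, hT1, hT2, hT3⟩ := exists_alt_blocks hr2 hrp 1 V f hA hND (by rw [one_mul, hV]; exact hblk')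
      rw [one_mul, hV] at hT3
      have ho := orderOf_pos_of_not_dvd hrq
      have hblk2 : 2 ≤ blk r (Fintype.card F) := by
        unfold blk
        split_ifs with h
        · rcases h with ⟨k, hk⟩; omega
        · omega
      have hTz : ∀ z : F, T ≠ z • (1 : V →ₗ[F] V) := by
        intro z hz
        obtain ⟨u, hu0⟩ := exists_ne (0 : V)
        obtain ⟨w, hw⟩ : ∃ w, f u w ≠ 0 := by
          by_contra hcon
          push Not at hcon
          exact hu0 (hND u Submodule.mem_top (fun v _ => hcon v))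
        have h1 := hT1 u w
        rw [hz, LinearMap.smul_apply, LinearMap.smul_apply, Module.End.one_apply, Module.End.one_apply, hA.smul_left, hA.smul_right] at h1
        have h4 : z * z = 1 := by
          apply mul_right_cancel₀ hw
          rw [one_mul, mul_assoc]
          exact h1
        have h5 : z ^ r = 1 := by
          have h6 := hT2
          rw [hz, _root_.smul_pow, one_pow] at h6
          have h7 := LinearMap.congr_fun h6 u
          rw [LinearMap.smul_apply, Module.End.one_apply] at h7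
          have h8 : (z ^ r - 1) • u = 0 := by rw [sub_smul, one_smul, h7, sub_self]
          exact sub_eq_zero.mp ((smul_eq_zero.mp h8).resolve_right hu0)
        obtain ⟨s, hs⟩ : Odd r := hr.odd_of_ne_two hr2
        rw [hs, pow_succ, pow_mul, pow_two, h4, one_pow, one_mul] at h5
        rw [hz, h5, one_smul, sub_self, LinearMap.ker_zero, finrank_top, hV] at hT3
        omega
      obtain ⟨y, σ, hy1, hy2, hy3, hy4⟩ := H T hT1 hT2 hTz
      by_cases hid : ∀ a, σ a = a
      · obtain ⟨yE, h1, h2, h3, h5⟩ := lin y σ hy1 hy2 hy4 hid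
        have hyE1 : yE ≠ 1 := by
          rintro rfl
          rw [sub_self, LinearMap.ker_zero, finrank_top, hdim, hy3] at h5
          omega
        obtain ⟨Y, -, -, h6, h7⟩ := blkRank hr2 hrp hAφ.eform hNφ h2 h3 hyE1
        apply hN hr2 hrp
        intro j hj
        apply dvd_of_blk hk Fintype.card_pos hrq _ j hj
        rw [← hcard]
        have h8 : k * blk r (Fintype.card E) ≤ k * finrank E Y := Nat.mul_le_mul_left _ h7
        have h9 : k * finrank E (LinearMap.ker (yE - 1)) + k * finrank E Y = 2 * d := by rw [← mul_add, h6, hdim]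
        omega
      · obtain ⟨h1, h2⟩ := semi y σ hy2 hy4 hid
        have h3 := blk_le hr2 hrq
        have hm0 : 0 < m := by
          rcases Nat.eq_zero_or_pos m with h | h
          · rw [h, mul_zero] at hdm; omega
          · exact h
        have h4 : k * 1 ≤ k * m := Nat.mul_le_mul_left _ hm0
        have := hr.two_le
        omega

end fwd

end Cfsg.Agent.H43.FExtSp
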