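import Mathlib
import Cfsg.Agent.H43.TensSp2
/-!
# Involutions of projective symplectic groups and tensor decompositions Sp_2 ⊗ O_d
-/
set_option autoImplicit false
set_option linter.unusedSectionVars false
set_option linter.unusedVariables false

namespace Cfsg.Agent.H43.TensSp

open Module Matrix Cfsg.Agent.H99
open scoped Kronecker

section matching
variable {F : Type*} [Field F] {d : ℕ}

theorem matching (X : GL (Fin d ⊕ Fin d) F) (Z : (Fin d ⊕ Fin d → F) →ₗ[F] (Fin d ⊕ Fin d → F)) (v u m n : Fin d → (Fin d ⊕ Fin d → F))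
    (hv : ∀ i j, Cfsg.sympForm d F (v i) (v j) = 0) (hu : ∀ i j, Cfsg.sympForm d F (u i) (u j) = 0)
    (hvu : ∀ i j, Cfsg.sympForm d F (v i) (u j) = if i = j then 1 else 0)
    (hm : ∀ i j, Cfsg.sympForm d F (m i) (m j) = 0) (hn : ∀ i j, Cfsg.sympForm d F (n i) (n j) = 0)
    (hmn : ∀ i j, Cfsg.sympForm d F (m i) (n j) = if i = j then 1 else 0)
    (α β γ δ : Fin d → F)
    (h1 : ∀ i, (X : Matrix (Fin d ⊕ Fin d) (Fin d ⊕ Fin d) F) *ᵥ v i = α i • v i + β i • u i)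
    (h2 : ∀ i, (X : Matrix (Fin d ⊕ Fin d) (Fin d ⊕ Fin d) F) *ᵥ u i = γ i • v i + δ i • u i)
    (h3 : ∀ i, Z (m i) = α i • m i + β i • n i) (h4 : ∀ i, Z (n i) = γ i • m i + δ i • n i) :
    ∃ g ∈ Cfsg.spGL d F, ∀ s, ((g⁻¹ * X * g : GL (Fin d ⊕ Fin d) F) : Matrix (Fin d ⊕ Fin d) (Fin d ⊕ Fin d) F) *ᵥ s = Z s := by
  obtain ⟨g1, h5, h6⟩ := exists_symp_of_family u v hu hv hvu
  obtain ⟨g2, h7, h8⟩ := exists_symp_of_family n m hn hm hmn
  obtain ⟨G1, hG1, hG1'⟩ := exists_gl_of_symp g1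
  obtain ⟨G2, hG2, hG2'⟩ := exists_gl_of_symp g2
  rw [← hG1'] at h5 h6
  rw [← hG2'] at h7 h8
  refine ⟨G1 * G2⁻¹, mul_mem hG1 (inv_mem hG2), ?_⟩
  have key : Matrix.toLin' (((G1 * G2⁻¹)⁻¹ * X * (G1 * G2⁻¹) : GL (Fin d ⊕ Fin d) F) : Matrix (Fin d ⊕ Fin d) (Fin d ⊕ Fin d) F) ∘ₗ
      Matrix.toLin' (G2 : Matrix (Fin d ⊕ Fin d) (Fin d ⊕ Fin d) F) = Z ∘ₗ Matrix.toLin' (G2 : Matrix (Fin d ⊕ Fin d) (Fin d ⊕ Fin d) F) := by
    have h9 : ∀ s, (((G1 * G2⁻¹)⁻¹ * X * (G1 * G2⁻¹) : GL (Fin d ⊕ Fin d) F) : Matrix (Fin d ⊕ Fin d) (Fin d ⊕ Fin d) F) *ᵥ ((G2 : Matrix (Fin d ⊕ Fin d) (Fin d ⊕ Fin d) F) *ᵥ s) =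
        (G2 : Matrix (Fin d ⊕ Fin d) (Fin d ⊕ Fin d) F) *ᵥ (((G1⁻¹ : GL (Fin d ⊕ Fin d) F) : Matrix (Fin d ⊕ Fin d) (Fin d ⊕ Fin d) F) *ᵥ
          ((X : Matrix (Fin d ⊕ Fin d) (Fin d ⊕ Fin d) F) *ᵥ ((G1 : Matrix (Fin d ⊕ Fin d) (Fin d ⊕ Fin d) F) *ᵥ s))) := by
      intro s
      rw [Matrix.mulVec_mulVec, Matrix.mulVec_mulVec, Matrix.mulVec_mulVec, Matrix.mulVec_mulVec, ← Units.val_mul, ← Units.val_mul, ← Units.val_mul, ← Units.val_mul]
      congr 2
      group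
    have h10 : ∀ s, ((G1⁻¹ : GL (Fin d ⊕ Fin d) F) : Matrix (Fin d ⊕ Fin d) (Fin d ⊕ Fin d) F) *ᵥ ((G1 : Matrix (Fin d ⊕ Fin d) (Fin d ⊕ Fin d) F) *ᵥ s) = s := by
      intro s
      rw [Matrix.mulVec_mulVec, ← Units.val_mul, inv_mul_cancel, Units.val_one, Matrix.one_mulVec]
    apply (Pi.basisFun F (Fin d ⊕ Fin d)).ext
    rintro (i | i)
    · rw [Pi.basisFun_apply, LinearMap.comp_apply, LinearMap.comp_apply, Matrix.toLin'_apply, Matrix.toLin'_apply, h9, h5, h2, h7, h4,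
        ← h5, ← h6, Matrix.mulVec_add, Matrix.mulVec_smul, Matrix.mulVec_smul, h10, h10, Matrix.mulVec_add, Matrix.mulVec_smul, Matrix.mulVec_smul, h7, h8]
    · rw [Pi.basisFun_apply, LinearMap.comp_apply, LinearMap.comp_apply, Matrix.toLin'_apply, Matrix.toLin'_apply, h9, h6, h1, h8, h3,
        ← h5, ← h6, Matrix.mulVec_add, Matrix.mulVec_smul, Matrix.mulVec_smul, h10, h10, Matrix.mulVec_add, Matrix.mulVec_smul, Matrix.mulVec_smul, h7, h8]
  intro s
  have h11 := LinearMap.congr_fun key (((G2⁻¹ : GL (Fin d ⊕ Fin d) F) : Matrix (Fin d ⊕ Fin d) (Fin d ⊕ Fin d) F) *ᵥ s)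
  rw [LinearMap.comp_apply, LinearMap.comp_apply, Matrix.toLin'_apply, Matrix.toLin'_apply, Matrix.mulVec_mulVec _ (G2 : Matrix (Fin d ⊕ Fin d) (Fin d ⊕ Fin d) F),
    ← Units.val_mul, mul_inv_cancel, Units.val_one, Matrix.one_mulVec] at h11
  exact h11

end matching

section eigen
variable {F : Type*} [Field F] {V : Type*} [AddCommGroup V] [Module F V] [FiniteDimensional F V]

/-- hyperbolic systems of eigenvectors of an involutory isometry -/
theorem hyp_one {f : V → V → F} (hA : AltForm f) (h2F : (2 : F) ≠ 0) (hND : ND f (⊤ : Submodule F V)) (T : V →ₗ[F] V)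
    (hiso : ∀ u v, f (T u) (T v) = f u v) (hsq : ∀ v, T (T v) = v) {n : ℕ} (hn : finrank F V = 2 * n) :
    ∃ v u : Fin n → V, (∀ i j, f (v i) (v j) = 0) ∧ (∀ i j, f (u i) (u j) = 0) ∧ (∀ i j, i ≠ j → f (v i) (u j) = 0) ∧
      (∀ i, f (v i) (u i) ≠ 0) ∧ ∀ i, ∃ κ : F, κ * κ = 1 ∧ T (v i) = κ • v i ∧ T (u i) = κ • u i := by
  obtain ⟨ι, _, _, v, u, hS, hc⟩ := exists_hypSys hA (fun v u => ∃ c : F, c * c = 1 ∧ T v = c • v ∧ T u = c • u)
    T (fun u v h => by rw [hiso, h]) (by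
      intro W hW hNDW hinv
      obtain ⟨w, hw, hw0⟩ := (Submodule.ne_bot_iff W).mp hW
      obtain ⟨v, c, hv, hv0, hc1, hfv⟩ : ∃ (v : V) (c : F), v ∈ W ∧ v ≠ 0 ∧ c * c = 1 ∧ T v = c • v := by
        by_cases h : w + T w = 0
        · refine ⟨w, -1, hw, hw0, by ring, ?_⟩
          rw [neg_smul, one_smul]
          exact (eq_neg_of_add_eq_zero_right h)
        · refine ⟨w + T w, 1, W.add_mem hw (hinv w hw), h, by ring, ?_⟩
          rw [map_add, hsq, one_smul, add_comm]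
      obtain ⟨u₀, hu₀, hvu₀⟩ : ∃ u₀ ∈ W, f v u₀ ≠ 0 := by
        by_contra hcon
        push Not at hcon
        exact hv0 (hNDW v hv hcon)
      have hc0 : c ≠ 0 := by rintro rfl; simp at hc1
      have hfu : T (u₀ + c • T u₀) = c • (u₀ + c • T u₀) := by
        rw [map_add, map_smul, hsq, smul_add, smul_smul, hc1, one_smul, add_comm]
      refine ⟨v, hv, u₀ + c • T u₀, W.add_mem hu₀ (W.smul_mem c (hinv _ hu₀)), ?_, ⟨c, hc1, hfv, hfu⟩, ?_⟩
      · have h1 : f v (T u₀) = c * f v u₀ := by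
          rw [← hiso v (T u₀), hsq, hfv, hA.smul_left]
        rw [hA.add_right, hA.smul_right, h1, ← mul_assoc, hc1, one_mul, ← two_mul]
        exact mul_ne_zero h2F hvu₀
      · rw [Submodule.span_le]
        intro y hy
        rcases hy with rfl | hy
        · exact mem_of_smul_mem hc0 hfv ⟨y, Submodule.subset_span (by simp), rfl⟩
        · rw [Set.mem_singleton_iff.mp hy]
          exact mem_of_smul_mem hc0 hfu ⟨_, Submodule.subset_span (by simp), rfl⟩)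
    _ ⊤ (finrank_top F _) hND (fun _ _ => Submodule.mem_top)
  have hcard : Fintype.card ι = Fintype.card (Fin n) := by rw [Fintype.card_fin]; omega
  obtain ⟨σ⟩ := Fintype.card_eq.mp hcard
  have hne : ∀ i j : Fin n, i ≠ j → σ.symm i ≠ σ.symm j := fun i j h h' => h (σ.symm.injective h')
  refine ⟨v ∘ σ.symm, u ∘ σ.symm, ?_, ?_, fun i j hij => hS.vu _ _ (hne i j hij), fun i => hS.ne _, fun i => hS.rel _⟩
  · intro i j
    by_cases hij : i = j
    · rw [hij]; exact hA.alt _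
    · exact hS.vv _ _ (hne i j hij)
  · intro i j
    by_cases hij : i = j
    · rw [hij]; exact hA.alt _
    · exact hS.uu _ _ (hne i j hij)

/-- hyperbolic systems for an isometry of square minus one -/
theorem hyp_neg {f : V → V → F} (hA : AltForm f) (h2F : (2 : F) ≠ 0) (hND : ND f (⊤ : Submodule F V)) (T : V →ₗ[F] V)
    (hiso : ∀ u v, f (T u) (T v) = f u v) (hsq : ∀ v, T (T v) = -v) {n : ℕ} (hn : finrank F V = 2 * n) :
    ∃ v : Fin n → V, (∀ i j, f (v i) (v j) = 0) ∧ (∀ i j, f (T (v i)) (T (v j)) = 0) ∧ (∀ i j, i ≠ j → f (v i) (T (v j)) = 0) ∧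
      (∀ i, f (v i) (T (v i)) ≠ 0) := by
  obtain ⟨ι, _, _, v, u, hS, hc⟩ := exists_hypSys hA (fun v u => u = T v)
    T (fun u v h => by rw [hiso, h]) (by
      intro W hW hNDW hinv
      obtain ⟨v, hv, hvv⟩ : ∃ v ∈ W, f v (T v) ≠ 0 := by
        by_contra hcon
        push Not at hcon
        obtain ⟨w, hw, hw0⟩ := (Submodule.ne_bot_iff W).mp hW
        apply hw0
        apply hNDW w hw
        intro b hb
        have hpol : ∀ a ∈ W, ∀ b ∈ W, f a (T b) = 0 := by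
          intro a ha b hb
          have h3 := hcon (a + b) (W.add_mem ha hb)
          rw [map_add, hA.add_left, hA.add_right, hA.add_right, hcon a ha, hcon b hb] at h3
          have h4 : f b (T a) = f a (T b) := by
            rw [← hiso b (T a), hsq, ← neg_one_smul F, hA.smul_right, hA.skew]; ring
          rw [h4] at h3
          have h5 : 2 * f a (T b) = 0 := by linear_combination h3
          exact (mul_eq_zero.mp h5).resolve_left h2F
        have h6 := hpol w hw (-(T b)) (W.neg_mem (hinv b hb))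
        rw [map_neg, hsq, neg_neg] at h6
        exact h6
      refine ⟨v, hv, T v, hinv v hv, hvv, rfl, ?_⟩
      rw [Submodule.span_le]
      intro y hy
      rcases hy with rfl | hy
      · refine mem_of_smul_mem (c := (-1 : F)) (by simp) (y := T (T y)) ?_ ⟨_, Submodule.subset_span (by simp), rfl⟩
        rw [hsq, neg_one_smul]
      · rw [Set.mem_singleton_iff.mp hy]
        exact ⟨v, Submodule.subset_span (by simp), rfl⟩)
    _ ⊤ (finrank_top F _) hND (fun _ _ => Submodule.mem_top)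
  have hcard : Fintype.card ι = Fintype.card (Fin n) := by rw [Fintype.card_fin]; omega
  obtain ⟨σ⟩ := Fintype.card_eq.mp hcard
  have hne : ∀ i j : Fin n, i ≠ j → σ.symm i ≠ σ.symm j := fun i j h h' => h (σ.symm.injective h')
  have hrel : ∀ i, u i = T (v i) := hS.rel
  have hvv : ∀ i j : Fin n, f (v (σ.symm i)) (v (σ.symm j)) = 0 := by
    intro i j
    by_cases hij : i = j
    · rw [hij]; exact hA.alt _
    · exact hS.vv _ _ (hne i j hij)
  refine ⟨v ∘ σ.symm, hvv, fun i j => ?_, fun i j hij => ?_, fun i => ?_⟩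
  · rw [hiso]; exact hvv i j
  · have := hS.vu _ _ (hne i j hij)
    rw [hrel] at this
    exact this
  · have := hS.ne (σ.symm i)
    rw [hrel] at this
    exact this

/-- sums of two squares -/
theorem sum_two_sq [Fintype F] (h2F : (2 : F) ≠ 0) (hodd : Odd (Fintype.card F)) (t : F) : ∃ x y : F, x ^ 2 + y ^ 2 = t := by
  obtain ⟨x, y, hxy⟩ := FiniteField.exists_root_sum_quadratic (R := F) (f := Polynomial.X ^ 2) (g := Polynomial.X ^ 2 - Polynomial.C t)
    (Polynomial.degree_X_pow 2) (Polynomial.degree_X_pow_sub_C (by norm_num) _) (Nat.odd_iff.mp hodd)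
  refine ⟨x, y, ?_⟩
  simp only [Polynomial.eval_pow, Polynomial.eval_X, Polynomial.eval_sub, Polynomial.eval_C] at hxy
  linear_combination hxy

/-- orthogonal bases of symmetric forms -/
theorem exists_orth {b : ℕ} (h2F : (2 : F) ≠ 0) {f₂ : (Fin b → F) → (Fin b → F) → F} (hf₂ : Cfsg.Geo.IsSymmetricForm f₂) :
    ∃ η : Basis (Fin b) F (Fin b → F), (∀ i j, i ≠ j → f₂ (η i) (η j) = 0) ∧ ∀ i, f₂ (η i) (η i) ≠ 0 := by
  have : Invertible (2 : F) := invertibleOfNonzero h2F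
  obtain ⟨L, hL⟩ : ∃ L : LinearMap.BilinForm F (Fin b → F), ∀ x y, L x y = f₂ x y :=
    ⟨LinearMap.mk₂ F f₂ hf₂.bilinear.add_left hf₂.bilinear.smul_left (fun m n₁ n₂ => hf₂.bilinear.add_right m n₁ n₂)
      (fun c m n => hf₂.bilinear.smul_right c m n), fun _ _ => rfl⟩
  obtain ⟨η, hη⟩ := LinearMap.BilinForm.exists_orthogonal_basis (B := L) ⟨fun x y => by
    rw [RingHom.id_apply, hL, hL]; exact hf₂.symm x y⟩
  have hb : finrank F (Fin b → F) = b := finrank_fin_fun F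
  have h1 : ∀ i j, i ≠ j → f₂ (η i) (η j) = 0 := by
    intro i j hij
    rw [← hL]; exact hη hij
  refine ⟨η.reindex (finCongr hb), ?_, ?_⟩
  · intro i j hij
    rw [Basis.reindex_apply, Basis.reindex_apply]
    exact h1 _ _ (fun h => hij ((finCongr hb).symm.injective h))
  · intro i
    rw [Basis.reindex_apply]
    intro h
    obtain ⟨k, hk⟩ : ∃ k, (finCongr hb).symm i = k := ⟨_, rfl⟩
    rw [hk] at h
    have h3 : L (η k) = 0 := by
      apply η.ext
      intro j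
      rw [hL, LinearMap.zero_apply]
      by_cases hkj : k = j
      · rw [← hkj]; exact h
      · exact h1 k j hkj
    obtain ⟨-, x, hx⟩ := hf₂.nondegenerate (η k) (η.ne_zero k)
    apply hx
    rw [← hL, h3, LinearMap.zero_apply]

end eigen

section bwd
variable {F : Type*} [Field F] [Fintype F] {d : ℕ}

/-- backward direction -/
theorem backward (hodd : Odd (Fintype.card F)) (hd : 2 ≤ d)
    (e : (Fin d ⊕ Fin d) ≃ Fin 2 × Fin d) (P : GL (Fin d ⊕ Fin d) F)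
    {f₁ : (Fin 2 → F) → (Fin 2 → F) → F} {f₂ : (Fin d → F) → (Fin d → F) → F}
    (hf₁ : Cfsg.Geo.IsSymplecticForm f₁) (hf₂ : Cfsg.Geo.IsSymmetricForm f₂)
    (hS : Cfsg.Geo.IsTensorFormStructure id (Cfsg.sympForm d F) f₁ f₂ e P)
    (X : GL (Fin d ⊕ Fin d) F) (hX : X ∈ Cfsg.spGL d F)
    (hz : ∃ z : F, ((X ^ 2 : GL (Fin d ⊕ Fin d) F) : Matrix (Fin d ⊕ Fin d) (Fin d ⊕ Fin d) F) = z • (1 : Matrix (Fin d ⊕ Fin d) (Fin d ⊕ Fin d) F)) :
    ∃ g ∈ Cfsg.spGL d F, g⁻¹ * X * g ∈ Cfsg.Geo.tensorProductSubgroup 2 d e P := by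
  classical
  obtain ⟨z, hz⟩ := hz
  obtain ⟨Θ, c, hc, hΘ, hΘf⟩ := exists_model rfl e P hf₁.bilinear hf₂.bilinear hS
  have h2F : (2 : F) ≠ 0 := two_ne hodd
  obtain ⟨η, hη1, hη2⟩ := exists_orth h2F hf₂
  have hA := sympForm_altForm (F := F) d
  have hND := sympForm_ND (F := F) d
  have hfin := finrank_symp d F
  obtain ⟨T, hT⟩ : ∃ T, T = Matrix.toLin' (X : Matrix (Fin d ⊕ Fin d) (Fin d ⊕ Fin d) F) := ⟨_, rfl⟩
  have hTX : ∀ v, (X : Matrix (Fin d ⊕ Fin d) (Fin d ⊕ Fin d) F) *ᵥ v = T v := by intro v; rw [hT]; rfl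
  have hiso : ∀ u v, Cfsg.sympForm d F (T u) (T v) = Cfsg.sympForm d F u v := by rw [hT]; exact mem_spGL.mp hX
  have hsq : ∀ v, T (T v) = z • v := by
    intro v
    rw [← hTX, ← hTX, Matrix.mulVec_mulVec, ← pow_two, ← Units.val_pow_eq_pow_val, hz, Matrix.smul_mulVec, Matrix.one_mulVec]
  have hzz : z = 1 ∨ z = -1 := by
    obtain ⟨u, v, huv⟩ := exists_symp_ne_zero (F := F) (d := d) (by omega)
    have h1 := hiso (T u) (T v)
    rw [hsq, hsq, hiso, hA.smul_left, hA.smul_right, ← mul_assoc] at h1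
    have h2 : z * z = 1 := mul_right_cancel₀ huv (by rw [h1, one_mul])
    exact mul_self_eq_one_iff.mp h2
  -- the first factor
  obtain ⟨γ, hγ⟩ : ∃ γ : F, γ = f₁ ![1, 0] ![0, 1] := ⟨_, rfl⟩
  have hb1 := hf₁.bilinear
  have hγ0 : γ ≠ 0 := by
    intro h
    obtain ⟨-, x, hx⟩ := hf₁.nondegenerate (![1, 0] : Fin 2 → F) (by
      intro h
      have := congrFun h 0
      simp at this)
    apply hx
    have h1 : x = x 0 • (![1, 0] : Fin 2 → F) + x 1 • (![0, 1] : Fin 2 → F) := by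
      funext i; fin_cases i <;> simp
    rw [h1, hb1.add_right, hb1.smul_right, hb1.smul_right, hf₁.alternating, ← hγ, h, mul_zero, mul_zero, add_zero]
  have hγ' : f₁ ![0, 1] ![1, 0] = -γ := by rw [hf₁.skew, hγ]
  obtain ⟨s, hs⟩ : ∃ s : Fin d → F, ∀ i, s i = c * (γ * f₂ (η i) (η i)) := ⟨_, fun _ => rfl⟩
  have hs0 : ∀ i, s i ≠ 0 := fun i => by rw [hs]; exact mul_ne_zero hc (mul_ne_zero hγ0 (hη2 i))
  -- the model
  obtain ⟨m, hm⟩ : ∃ m : Fin d → (Fin d ⊕ Fin d → F), ∀ i, m i = Θ (pureT ![1, 0] (η i)) := ⟨_, fun _ => rfl⟩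
  obtain ⟨n, hn⟩ : ∃ n : Fin d → (Fin d ⊕ Fin d → F), ∀ i, n i = Θ (pureT ((s i)⁻¹ • ![0, 1]) (η i)) := ⟨_, fun _ => rfl⟩
  have hmm : ∀ i j, Cfsg.sympForm d F (m i) (m j) = 0 := by
    intro i j; rw [hm, hm, hΘf, hf₁.alternating, zero_mul, mul_zero]
  have hnn : ∀ i j, Cfsg.sympForm d F (n i) (n j) = 0 := by
    intro i j; rw [hn, hn, hΘf, hb1.smul_left, hb1.smul_right, hf₁.alternating]; ring
  have hmn : ∀ i j, Cfsg.sympForm d F (m i) (n j) = if i = j then 1 else 0 := by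
    intro i j
    rw [hm, hn, hΘf, hb1.smul_right, ← hγ]
    split_ifs with hij
    · rw [← hij]
      have h1 := hs i
      have h2 := hs0 i
      have h3 : c * ((s i)⁻¹ * γ * f₂ (η i) (η i)) = (s i)⁻¹ * (c * (γ * f₂ (η i) (η i))) := by ring
      rw [h3, ← h1, inv_mul_cancel₀ h2]
    · rw [hη1 i j hij]; ring
  rcases hzz with rfl | rfl
  · -- square one
    obtain ⟨v, u, hvv, huu, hvu, hne, hk⟩ := hyp_one hA h2F hND T hiso (fun v => by rw [hsq, one_smul]) hfin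
    choose κ hκ1 hκv hκu using hk
    -- the second factor
    obtain ⟨D, hD⟩ : ∃ D : (Fin d → F) →ₗ[F] (Fin d → F), ∀ i, D (η i) = κ i • η i := ⟨η.constr F (fun i => κ i • η i), fun i => η.constr_basis F _ i⟩
    have hDD : D ∘ₗ D = LinearMap.id := by
      apply η.ext
      intro i
      rw [LinearMap.comp_apply, hD, map_smul, hD, smul_smul, hκ1, one_smul]; rfl
    obtain ⟨B, hB⟩ : ∃ B : GL (Fin d) F, ∀ w, (B : Matrix (Fin d) (Fin d) F) *ᵥ w = D w := by
      have h1 : LinearMap.toMatrix' D * LinearMap.toMatrix' D = 1 := by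
        rw [← LinearMap.toMatrix'_comp, hDD, LinearMap.toMatrix'_id]
      refine ⟨⟨LinearMap.toMatrix' D, LinearMap.toMatrix' D, h1, h1⟩, fun w => ?_⟩
      change (LinearMap.toMatrix' D) *ᵥ w = D w
      rw [LinearMap.toMatrix'_mulVec]
    obtain ⟨Z, hZ⟩ : ∃ Z : (Fin d ⊕ Fin d → F) →ₗ[F] (Fin d ⊕ Fin d → F), ∀ t, Z (Θ t) = Θ ((((1 : GL (Fin 2) F) : Matrix (Fin 2) (Fin 2) F) ⊗ₖ (B : Matrix (Fin d) (Fin d) F)) *ᵥ t) :=
      ⟨(Θ : (Fin 2 × Fin d → F) →ₗ[F] (Fin d ⊕ Fin d → F)) ∘ₗ Matrix.toLin' (((1 : GL (Fin 2) F) : Matrix (Fin 2) (Fin 2) F) ⊗ₖ (B : Matrix (Fin d) (Fin d) F)) ∘ₗ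
        (Θ.symm : (Fin d ⊕ Fin d → F) →ₗ[F] (Fin 2 × Fin d → F)), fun t => by
          simp only [LinearMap.comp_apply, LinearEquiv.coe_coe, LinearEquiv.symm_apply_apply, Matrix.toLin'_apply]⟩
    have hZp : ∀ (x : Fin 2 → F) (i : Fin d), Z (Θ (pureT x (η i))) = κ i • Θ (pureT x (η i)) := by
      intro x i
      rw [hZ, kron_mulVec, hB, hD, Units.val_one, Matrix.one_mulVec, pureT_smul_right, map_smul]
    obtain ⟨g, hg, hgZ⟩ := matching X Z v (fun i => (Cfsg.sympForm d F (v i) (u i))⁻¹ • u i) m n hvv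
      (fun i j => by rw [hA.smul_left, hA.smul_right, huu]; ring)
      (fun i j => by
        rw [hA.smul_right]
        split_ifs with hij
        · rw [← hij, inv_mul_cancel₀ (hne i)]
        · rw [hvu i j hij, mul_zero]) hmm hnn hmn κ 0 0 κ
      (fun i => by rw [hTX, hκv, Pi.zero_apply, zero_smul, add_zero])
      (fun i => by rw [hTX, map_smul, hκu, Pi.zero_apply, zero_smul, zero_add, smul_comm])
      (fun i => by rw [hm, hZp, Pi.zero_apply, zero_smul, add_zero])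
      (fun i => by rw [hn, hZp, Pi.zero_apply, zero_smul, zero_add])
    refine ⟨g, hg, mem_of e P _ 1 B ?_⟩
    intro t
    rw [hgZ, ← hΘ, hZ, hΘ]
  · -- square minus one
    obtain ⟨v, hvv, huu, hvu, hne⟩ := hyp_neg hA h2F hND T hiso (fun v => by rw [hsq, neg_one_smul]) hfin
    have hTT : ∀ v, T (T v) = -v := fun v => by rw [hsq, neg_one_smul]
    have hsum : ∀ i, ∃ x y : F, x ^ 2 + y ^ 2 = s i / Cfsg.sympForm d F (v i) (T (v i)) := fun i => sum_two_sq h2F hodd _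
    choose x y hxy using hsum
    obtain ⟨v', hv'⟩ : ∃ v' : Fin d → (Fin d ⊕ Fin d → F), ∀ i, v' i = x i • v i + y i • T (v i) := ⟨_, fun _ => rfl⟩
    have hTv' : ∀ i, T (v' i) = x i • T (v i) + -(y i) • v i := by
      intro i
      rw [hv', map_add, map_smul, map_smul, hTT, smul_neg, neg_smul]
    have hvu' : ∀ i j, i ≠ j → Cfsg.sympForm d F (T (v i)) (v j) = 0 := by
      intro i j hij
      exact hA.oform.refl _ _ (hvu j i (Ne.symm hij))
    have hskew : ∀ a b, Cfsg.sympForm d F a b = - Cfsg.sympForm d F b a := fun a b => hA.skew a b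
    have hv'v' : ∀ i j, Cfsg.sympForm d F (v' i) (v' j) = 0 := by
      intro i j
      by_cases hij : i = j
      · rw [hij]; exact hA.alt _
      · rw [hv', hv', hA.add_left, hA.add_right, hA.add_right, hA.smul_left, hA.smul_left, hA.smul_left, hA.smul_left, hA.smul_right, hA.smul_right, hA.smul_right, hA.smul_right,
          hvv, huu, hvu i j hij, hvu' i j hij]
        ring
    have hv'T : ∀ i j, Cfsg.sympForm d F (v' i) (T (v' j)) = if i = j then s i else 0 := by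
      intro i j
      rw [hTv', hv', hA.add_left, hA.add_right, hA.add_right, hA.smul_left, hA.smul_left, hA.smul_left, hA.smul_left, hA.smul_right, hA.smul_right, hA.smul_right, hA.smul_right,
          hvv, huu]
      split_ifs with hij
      · subst hij
        have h1 := hxy i
        have h2 := hne i
        rw [hskew (T (v i)) (v i)]
        rw [eq_div_iff h2] at h1
        linear_combination h1
      · rw [hvu i j hij, hvu' i j hij]; ring
    -- the first factor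
    obtain ⟨A, hA0, hA1⟩ : ∃ A : GL (Fin 2) F, (A : Matrix (Fin 2) (Fin 2) F) *ᵥ ![1, 0] = ![0, 1] ∧ (A : Matrix (Fin 2) (Fin 2) F) *ᵥ ![0, 1] = -![1, 0] := by
      refine ⟨⟨!![0, -1; 1, 0], !![0, 1; -1, 0], ?_, ?_⟩, ?_, ?_⟩
      · ext i j; fin_cases i <;> fin_cases j <;> simp
      · ext i j; fin_cases i <;> fin_cases j <;> simp
      · funext i; fin_cases i <;> simp
      · funext i; fin_cases i <;> simp
    obtain ⟨Z, hZ⟩ : ∃ Z : (Fin d ⊕ Fin d → F) →ₗ[F] (Fin d ⊕ Fin d → F), ∀ t, Z (Θ t) = Θ (((A : Matrix (Fin 2) (Fin 2) F) ⊗ₖ ((1 : GL (Fin d) F) : Matrix (Fin d) (Fin d) F)) *ᵥ t) :=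
      ⟨(Θ : (Fin 2 × Fin d → F) →ₗ[F] (Fin d ⊕ Fin d → F)) ∘ₗ Matrix.toLin' ((A : Matrix (Fin 2) (Fin 2) F) ⊗ₖ ((1 : GL (Fin d) F) : Matrix (Fin d) (Fin d) F)) ∘ₗ
        (Θ.symm : (Fin d ⊕ Fin d → F) →ₗ[F] (Fin 2 × Fin d → F)), fun t => by
          simp only [LinearMap.comp_apply, LinearEquiv.coe_coe, LinearEquiv.symm_apply_apply, Matrix.toLin'_apply]⟩
    obtain ⟨g, hg, hgZ⟩ := matching X Z v' (fun i => (s i)⁻¹ • T (v' i)) m n hv'v'
      (fun i j => by rw [hA.smul_left, hA.smul_right, hiso, hv'v']; ring)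
      (fun i j => by
        rw [hA.smul_right, hv'T]
        split_ifs with hij
        · rw [hij, inv_mul_cancel₀ (hs0 j)]
        · rw [mul_zero]) hmm hnn hmn 0 s (fun i => -(s i)⁻¹) 0
      (fun i => by rw [hTX, Pi.zero_apply, zero_smul, zero_add, smul_smul, mul_inv_cancel₀ (hs0 i), one_smul])
      (fun i => by rw [hTX, map_smul, hTT, Pi.zero_apply, zero_smul, add_zero, smul_neg, neg_smul])
      (fun i => by
        rw [hm, hn, hZ, kron_mulVec, hA0, Units.val_one, Matrix.one_mulVec, Pi.zero_apply, zero_smul, zero_add, ← map_smul, ← pureT_smul_left, smul_smul,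
          mul_inv_cancel₀ (hs0 i), one_smul])
      (fun i => by
        rw [hm, hn, hZ, kron_mulVec, Matrix.mulVec_smul, hA1, Units.val_one, Matrix.one_mulVec, Pi.zero_apply, zero_smul, add_zero, ← map_smul, ← pureT_smul_left, smul_neg, neg_smul])
    refine ⟨g, hg, mem_of e P _ A 1 ?_⟩
    intro t
    rw [hgZ, ← hΘ, hZ, hΘ]

end bwd

end Cfsg.Agent.H43.TensSp
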