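import Mathlib
import Cfsg.Agent.H43.TensSp3
/-!
# Conjugacy of involutions of projective symplectic groups in odd characteristic
-/
set_option autoImplicit false
set_option linter.unusedSectionVars false
set_option linter.unusedVariables false

namespace Cfsg.Agent.H43.SpConj

open Module Matrix Cfsg.Agent.H99 Cfsg.Agent.H43.TensSp

section abs
variable {F : Type*} [Field F] {V : Type*} [AddCommGroup V] [Module F V] [FiniteDimensional F V]

theorem normal_neg [Fintype F] {f : V → V → F} (hA : AltForm f) (hodd : Odd (Fintype.card F)) (hND : ND f (⊤ : Submodule F V)) (T : V →ₗ[F] V)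
    (hiso : ∀ u v, f (T u) (T v) = f u v) (hsq : ∀ v, T (T v) = -v) {n : ℕ} (hn : finrank F V = 2 * n) :
    ∃ v : Fin n → V, (∀ i j, f (v i) (v j) = 0) ∧ (∀ i j, f (v i) (T (v j)) = if i = j then 1 else 0) := by
  have h2F : (2 : F) ≠ 0 := two_ne hodd
  obtain ⟨v, hvv, huu, hvu, hne⟩ := hyp_neg hA h2F hND T hiso hsq hn
  have hsum : ∀ i, ∃ x y : F, x ^ 2 + y ^ 2 = 1 / f (v i) (T (v i)) := fun i => sum_two_sq h2F hodd _
  choose x y hxy using hsum
  obtain ⟨v', hv'⟩ : ∃ v' : Fin n → V, ∀ i, v' i = x i • v i + y i • T (v i) := ⟨_, fun _ => rfl⟩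
  have hTv' : ∀ i, T (v' i) = x i • T (v i) + -(y i) • v i := by
    intro i
    rw [hv', map_add, map_smul, map_smul, hsq, smul_neg, neg_smul]
  have hvu' : ∀ i j, i ≠ j → f (T (v i)) (v j) = 0 := by
    intro i j hij
    exact hA.oform.refl _ _ (hvu j i (Ne.symm hij))
  refine ⟨v', ?_, ?_⟩
  · intro i j
    by_cases hij : i = j
    · rw [hij]; exact hA.alt _
    · rw [hv', hv', hA.add_left, hA.add_right, hA.add_right, hA.smul_left, hA.smul_left, hA.smul_left, hA.smul_left, hA.smul_right, hA.smul_right, hA.smul_right, hA.smul_right,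
        hvv, huu, hvu i j hij, hvu' i j hij]
      ring
  · intro i j
    rw [hTv', hv', hA.add_left, hA.add_right, hA.add_right, hA.smul_left, hA.smul_left, hA.smul_left, hA.smul_left, hA.smul_right, hA.smul_right, hA.smul_right, hA.smul_right,
        hvv, huu]
    split_ifs with hij
    · subst hij
      have h1 := hxy i
      have h2 := hne i
      rw [hA.skew (T (v i)) (v i)]
      rw [eq_div_iff h2] at h1
      linear_combination h1
    · rw [hvu i j hij, hvu' i j hij]; ring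

theorem neg_on_orth {f : V → V → F} (hA : AltForm f) (T : V →ₗ[F] V) (hiso : ∀ u v, f (T u) (T v) = f u v) (hsq : ∀ v, T (T v) = v)
    (hN : ND f (LinearMap.ker (T - 1))) {w : V} (hw : w ∈ orth hA.oform (LinearMap.ker (T - 1))) : T w = -w := by
  have hmem : ∀ v, v ∈ LinearMap.ker (T - 1) ↔ T v = v := by
    intro v; rw [LinearMap.mem_ker, LinearMap.sub_apply, sub_eq_zero]; rfl
  have h1 : T w + w ∈ LinearMap.ker (T - 1) := by
    rw [hmem, map_add, hsq, add_comm]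
  have h2 : T w + w = 0 := by
    apply hN _ h1
    intro u hu
    have h3 : f (T w) u = f w u := by
      conv_lhs => rw [← (hmem u).mp hu]
      exact hiso w u
    rw [hA.add_left, h3, hw u hu, add_zero]
  exact eq_neg_of_add_eq_zero_left h2

theorem ker_ND {f : V → V → F} (hA : AltForm f) (h2F : (2 : F) ≠ 0) (hND : ND f (⊤ : Submodule F V)) (T : V →ₗ[F] V) (hiso : ∀ u v, f (T u) (T v) = f u v)
    (hsq : ∀ v, T (T v) = v) : ND f (LinearMap.ker (T - 1)) := by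
  have hmem : ∀ v, v ∈ LinearMap.ker (T - 1) ↔ T v = v := by
    intro v; rw [LinearMap.mem_ker, LinearMap.sub_apply, sub_eq_zero]; rfl
  intro u hu h
  apply hND u Submodule.mem_top
  intro v _
  have h1 : v + T v ∈ LinearMap.ker (T - 1) := by rw [hmem, map_add, hsq, add_comm]
  have h2 := h _ h1
  have h3 : f u (T v) = f u v := by
    conv_lhs => rw [← (hmem u).mp hu]
    exact hiso u v
  rw [hA.add_right, h3] at h2
  have h4 : 2 * f u v = 0 := by linear_combination h2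
  exact (mul_eq_zero.mp h4).resolve_left h2F

end abs

section conj
variable {F : Type*} [Field F] [Fintype F] {d : ℕ}

theorem conj_neg (hodd : Odd (Fintype.card F)) (X Y : GL (Fin d ⊕ Fin d) F) (hX : X ∈ Cfsg.spGL d F) (hY : Y ∈ Cfsg.spGL d F)
    (hX2 : ∀ v, (X : Matrix (Fin d ⊕ Fin d) (Fin d ⊕ Fin d) F) *ᵥ ((X : Matrix (Fin d ⊕ Fin d) (Fin d ⊕ Fin d) F) *ᵥ v) = -v)
    (hY2 : ∀ v, (Y : Matrix (Fin d ⊕ Fin d) (Fin d ⊕ Fin d) F) *ᵥ ((Y : Matrix (Fin d ⊕ Fin d) (Fin d ⊕ Fin d) F) *ᵥ v) = -v) :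
    ∃ g ∈ Cfsg.spGL d F, g⁻¹ * X * g = Y := by
  have hA := sympForm_altForm (F := F) d
  have hND := sympForm_ND (F := F) d
  have hfin := finrank_symp d F
  obtain ⟨v, hv1, hv2⟩ := normal_neg hA hodd hND (Matrix.toLin' (X : Matrix (Fin d ⊕ Fin d) (Fin d ⊕ Fin d) F)) (mem_spGL.mp hX) hX2 hfin
  obtain ⟨m, hm1, hm2⟩ := normal_neg hA hodd hND (Matrix.toLin' (Y : Matrix (Fin d ⊕ Fin d) (Fin d ⊕ Fin d) F)) (mem_spGL.mp hY) hY2 hfin
  obtain ⟨g, hg, hgZ⟩ := matching X (Matrix.toLin' (Y : Matrix (Fin d ⊕ Fin d) (Fin d ⊕ Fin d) F)) v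
    (fun i => Matrix.toLin' (X : Matrix (Fin d ⊕ Fin d) (Fin d ⊕ Fin d) F) (v i)) m
    (fun i => Matrix.toLin' (Y : Matrix (Fin d ⊕ Fin d) (Fin d ⊕ Fin d) F) (m i)) hv1
    (fun i j => (mem_spGL.mp hX (v i) (v j)).trans (hv1 i j)) hv2 hm1 (fun i j => (mem_spGL.mp hY (m i) (m j)).trans (hm1 i j)) hm2 0 1 (-1) 0
    (fun i => by rw [Pi.zero_apply, zero_smul, zero_add, Pi.one_apply, one_smul]; rfl)
    (fun i => by
      rw [Pi.zero_apply, zero_smul, add_zero, Pi.neg_apply, Pi.one_apply, neg_one_smul]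
      exact hX2 (v i))
    (fun i => by rw [Pi.zero_apply, zero_smul, zero_add, Pi.one_apply, one_smul])
    (fun i => by
      rw [Pi.zero_apply, zero_smul, add_zero, Pi.neg_apply, Pi.one_apply, neg_one_smul]
      exact hY2 (m i))
  refine ⟨g, hg, ?_⟩
  apply Units.ext
  apply Matrix.toLin'.injective
  apply LinearMap.ext
  intro s
  exact hgZ s

theorem conj_one (hodd : Odd (Fintype.card F)) (X Y : GL (Fin d ⊕ Fin d) F) (hX : X ∈ Cfsg.spGL d F) (hY : Y ∈ Cfsg.spGL d F)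
    (hX2 : ∀ v, (X : Matrix (Fin d ⊕ Fin d) (Fin d ⊕ Fin d) F) *ᵥ ((X : Matrix (Fin d ⊕ Fin d) (Fin d ⊕ Fin d) F) *ᵥ v) = v)
    (hY2 : ∀ v, (Y : Matrix (Fin d ⊕ Fin d) (Fin d ⊕ Fin d) F) *ᵥ ((Y : Matrix (Fin d ⊕ Fin d) (Fin d ⊕ Fin d) F) *ᵥ v) = v)
    (hdim : finrank F (LinearMap.ker (Matrix.toLin' (X : Matrix (Fin d ⊕ Fin d) (Fin d ⊕ Fin d) F) - 1)) =
      finrank F (LinearMap.ker (Matrix.toLin' (Y : Matrix (Fin d ⊕ Fin d) (Fin d ⊕ Fin d) F) - 1))) :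
    ∃ g ∈ Cfsg.spGL d F, g⁻¹ * X * g = Y := by
  have hA := sympForm_altForm (F := F) d
  have hND := sympForm_ND (F := F) d
  have h2F : (2 : F) ≠ 0 := two_ne hodd
  obtain ⟨S, hS⟩ : ∃ S, S = Matrix.toLin' (X : Matrix (Fin d ⊕ Fin d) (Fin d ⊕ Fin d) F) := ⟨_, rfl⟩
  obtain ⟨T, hT⟩ : ∃ T, T = Matrix.toLin' (Y : Matrix (Fin d ⊕ Fin d) (Fin d ⊕ Fin d) F) := ⟨_, rfl⟩
  have hSi : ∀ u v, Cfsg.sympForm d F (S u) (S v) = Cfsg.sympForm d F u v := by rw [hS]; exact mem_spGL.mp hX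
  have hTi : ∀ u v, Cfsg.sympForm d F (T u) (T v) = Cfsg.sympForm d F u v := by rw [hT]; exact mem_spGL.mp hY
  have hS2 : ∀ v, S (S v) = v := by rw [hS]; exact hX2
  have hT2 : ∀ v, T (T v) = v := by rw [hT]; exact hY2
  rw [← hS, ← hT] at hdim
  have hNS := ker_ND hA h2F hND S hSi hS2
  have hNT := ker_ND hA h2F hND T hTi hT2
  obtain ⟨φ, hφ⟩ := exists_isometry_ND hA hNT hNS hdim.symm
  obtain ⟨x, hx1, hx2⟩ := exists_symp_extend φ hφ
  obtain ⟨g, hg, hgx⟩ := exists_gl_of_symp x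
  have hmemS : ∀ v, v ∈ LinearMap.ker (S - 1) ↔ S v = v := by
    intro v; rw [LinearMap.mem_ker, LinearMap.sub_apply, sub_eq_zero]; rfl
  have hmemT : ∀ v, v ∈ LinearMap.ker (T - 1) ↔ T v = v := by
    intro v; rw [LinearMap.mem_ker, LinearMap.sub_apply, sub_eq_zero]; rfl
  have hgi : ∀ u v, Cfsg.sympForm d F ((g : Matrix (Fin d ⊕ Fin d) (Fin d ⊕ Fin d) F) *ᵥ u) ((g : Matrix (Fin d ⊕ Fin d) (Fin d ⊕ Fin d) F) *ᵥ v) = Cfsg.sympForm d F u v := mem_spGL.mp hg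
  have key : ∀ v, S ((g : Matrix (Fin d ⊕ Fin d) (Fin d ⊕ Fin d) F) *ᵥ v) = (g : Matrix (Fin d ⊕ Fin d) (Fin d ⊕ Fin d) F) *ᵥ (T v) := by
    intro v
    obtain ⟨u, u', rfl⟩ := exists_add_of_isCompl (isCompl_orth hA.oform hNT) v
    have h1 : S ((g : Matrix (Fin d ⊕ Fin d) (Fin d ⊕ Fin d) F) *ᵥ (u : Fin d ⊕ Fin d → F)) = (g : Matrix (Fin d ⊕ Fin d) (Fin d ⊕ Fin d) F) *ᵥ (T u) := by
      rw [(hmemT u).mp u.2, ← hmemS]
      have h2 := hx2 u
      rw [Matrix.toLin'_apply, ← hgx] at h2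
      rw [h2]
      exact (φ u).2
    have h3 : S ((g : Matrix (Fin d ⊕ Fin d) (Fin d ⊕ Fin d) F) *ᵥ (u' : Fin d ⊕ Fin d → F)) = (g : Matrix (Fin d ⊕ Fin d) (Fin d ⊕ Fin d) F) *ᵥ (T u') := by
      rw [neg_on_orth hA T hTi hT2 hNT u'.2, Matrix.mulVec_neg]
      apply neg_on_orth hA S hSi hS2 hNS
      intro w hw
      rw [← hx1] at hw
      obtain ⟨w', hw', rfl⟩ := hw
      have h4 : Matrix.toLin' (x : Matrix (Fin d ⊕ Fin d) (Fin d ⊕ Fin d) F) w' = (g : Matrix (Fin d ⊕ Fin d) (Fin d ⊕ Fin d) F) *ᵥ w' := by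
        rw [Matrix.toLin'_apply, hgx]
      rw [h4, hgi]
      exact u'.2 w' hw'
    rw [Matrix.mulVec_add, map_add, h1, h3, map_add, Matrix.mulVec_add]
  refine ⟨g, hg, ?_⟩
  have h5 : X * g = g * Y := by
    apply Units.ext
    rw [Units.val_mul, Units.val_mul]
    apply Matrix.toLin'.injective
    apply LinearMap.ext
    intro v
    have h6 := key v
    rw [hS, hT, Matrix.toLin'_apply, Matrix.toLin'_apply, Matrix.mulVec_mulVec, Matrix.mulVec_mulVec] at h6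
    exact h6
  rw [mul_assoc, h5, ← mul_assoc, inv_mul_cancel, one_mul]

end conj

end Cfsg.Agent.H43.SpConj
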