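import Mathlib
import Cfsg.Agent.H43.FExtSp
import Cfsg.Agent.H43.SpConj
/-!
# Field extension subgroups of symplectic groups: matrices
-/
set_option autoImplicit false
set_option linter.unusedSectionVars false
set_option linter.unusedVariables false

namespace Cfsg.Agent.H43.FExtConc

open Module Matrix Cfsg.Agent.H99 Cfsg.Agent.H43.FExt Cfsg.Agent.H43.TensSp Cfsg.Agent.H43.SpConj

section norm
variable {F E : Type*} [Field F] [Field E] [Algebra F E] {ι : Type} [Fintype ι] [DecidableEq ι] [Nonempty ι] {K : Subalgebra F (Matrix ι ι F)}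

theorem norm_semi (ρ : E →ₐ[F] Matrix ι ι F) (hρK : ∀ M, M ∈ K ↔ ∃ a, ρ a = M) (g : GL ι F) (hg : g ∈ Cfsg.Geo.subalgebraNormalizer K) :
    ∃ σ : E →ₐ[F] E, ∀ a, (g : Matrix ι ι F) * ρ a = ρ (σ a) * (g : Matrix ι ι F) := by
  have hinj : Function.Injective ρ := ρ.toRingHom.injective
  have h1 : (g : Matrix ι ι F) * ((g⁻¹ : GL ι F) : Matrix ι ι F) = 1 := by
    rw [← Units.val_mul, mul_inv_cancel, Units.val_one]
  have h2 : ((g⁻¹ : GL ι F) : Matrix ι ι F) * (g : Matrix ι ι F) = 1 := by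
    rw [← Units.val_mul, inv_mul_cancel, Units.val_one]
  have hex : ∀ a, ∃ b, ρ b = (g : Matrix ι ι F) * ρ a * ((g⁻¹ : GL ι F) : Matrix ι ι F) := fun a =>
    (hρK _).mp ((hg (ρ a)).mp ((hρK _).mpr ⟨a, rfl⟩))
  choose s hs using hex
  refine ⟨AlgHom.ofLinearMap { toFun := s, map_add' := ?_, map_smul' := ?_ } ?_ ?_, ?_⟩
  · intro a b
    apply hinj
    rw [hs, map_add, map_add, hs, hs, mul_add, add_mul]
  · intro c a
    apply hinj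
    rw [hs, map_smul, RingHom.id_apply, map_smul, hs, mul_smul_comm, smul_mul_assoc]
  · change s 1 = 1
    apply hinj
    rw [hs, map_one, mul_one, h1]
  · intro a b
    change s (a * b) = s a * s b
    apply hinj
    rw [hs, map_mul, map_mul, hs, hs]
    calc (g : Matrix ι ι F) * (ρ a * ρ b) * ((g⁻¹ : GL ι F) : Matrix ι ι F)
        = (g : Matrix ι ι F) * (ρ a * (1 : Matrix ι ι F) * ρ b) * ((g⁻¹ : GL ι F) : Matrix ι ι F) := by rw [mul_one]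
      _ = _ := by rw [← h2]; simp only [mul_assoc]
  · intro a
    change _ = ρ (s a) * _
    rw [hs, mul_assoc _ _ (g : Matrix ι ι F), h2, mul_one]

theorem mem_norm (ρ : E →ₐ[F] Matrix ι ι F) (hρK : ∀ M, M ∈ K ↔ ∃ a, ρ a = M) (g : GL ι F) (σ : E → E) (hσ : Function.Surjective σ)
    (h : ∀ a, (g : Matrix ι ι F) * ρ a = ρ (σ a) * (g : Matrix ι ι F)) : g ∈ Cfsg.Geo.subalgebraNormalizer K := by
  have h1 : (g : Matrix ι ι F) * ((g⁻¹ : GL ι F) : Matrix ι ι F) = 1 := by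
    rw [← Units.val_mul, mul_inv_cancel, Units.val_one]
  have h2 : ((g⁻¹ : GL ι F) : Matrix ι ι F) * (g : Matrix ι ι F) = 1 := by
    rw [← Units.val_mul, inv_mul_cancel, Units.val_one]
  have h3 : ∀ a, (g : Matrix ι ι F) * ρ a * ((g⁻¹ : GL ι F) : Matrix ι ι F) = ρ (σ a) := by
    intro a; rw [h, mul_assoc, h1, mul_one]
  intro k
  rw [hρK, hρK]
  constructor
  · rintro ⟨a, rfl⟩
    exact ⟨σ a, (h3 a).symm⟩
  · rintro ⟨b, hb⟩
    obtain ⟨a, rfl⟩ := hσ b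
    refine ⟨a, ?_⟩
    rw [← h3] at hb
    have h4 : ((g⁻¹ : GL ι F) : Matrix ι ι F) * ((g : Matrix ι ι F) * ρ a * ((g⁻¹ : GL ι F) : Matrix ι ι F)) * (g : Matrix ι ι F) =
      ((g⁻¹ : GL ι F) : Matrix ι ι F) * ((g : Matrix ι ι F) * k * ((g⁻¹ : GL ι F) : Matrix ι ι F)) * (g : Matrix ι ι F) := by rw [hb]
    have h5 : ∀ M : Matrix ι ι F, ((g⁻¹ : GL ι F) : Matrix ι ι F) * ((g : Matrix ι ι F) * M * ((g⁻¹ : GL ι F) : Matrix ι ι F)) * (g : Matrix ι ι F) = M := by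
      intro M
      calc ((g⁻¹ : GL ι F) : Matrix ι ι F) * ((g : Matrix ι ι F) * M * ((g⁻¹ : GL ι F) : Matrix ι ι F)) * (g : Matrix ι ι F)
          = (((g⁻¹ : GL ι F) : Matrix ι ι F) * (g : Matrix ι ι F)) * M * (((g⁻¹ : GL ι F) : Matrix ι ι F) * (g : Matrix ι ι F)) := by simp only [mul_assoc]
        _ = M := by rw [h2, one_mul, mul_one]
    rwa [h5, h5] at h4

/-- invertible matrices from mutually inverse linear maps -/
theorem exists_gl (T T' : (ι → F) →ₗ[F] (ι → F)) (h : T ∘ₗ T' = LinearMap.id) (h' : T' ∘ₗ T = LinearMap.id) :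
    ∃ g : GL ι F, ∀ v, (g : Matrix ι ι F) *ᵥ v = T v := by
  refine ⟨⟨LinearMap.toMatrix' T, LinearMap.toMatrix' T', ?_, ?_⟩, fun v => ?_⟩
  · rw [← LinearMap.toMatrix'_comp, h, LinearMap.toMatrix'_id]
  · rw [← LinearMap.toMatrix'_comp, h', LinearMap.toMatrix'_id]
  · change (LinearMap.toMatrix' T) *ᵥ v = T v
    rw [LinearMap.toMatrix'_mulVec]

theorem gl_ext {g h : GL ι F} (H : ∀ v, (g : Matrix ι ι F) *ᵥ v = (h : Matrix ι ι F) *ᵥ v) : g = h := by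
  apply Units.ext
  apply Matrix.toLin'.injective
  apply LinearMap.ext
  intro s
  exact H s

end norm

section emb
variable {F E : Type*} [Field F] [Finite F] [Field E] [Algebra F E] {d : ℕ} [NeZero d]
  [Module E (Fin d ⊕ Fin d → F)] [IsScalarTower F E (Fin d ⊕ Fin d → F)] [FiniteDimensional F E]
  {K : Subalgebra F (Matrix (Fin d ⊕ Fin d) (Fin d ⊕ Fin d) F)}

instance : Nonempty (Fin d ⊕ Fin d) := ⟨Sum.inl ⟨0, Nat.pos_of_ne_zero (NeZero.ne d)⟩⟩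

/-- matrices of `E`-linear isometries -/
theorem exists_lin (ρ : E →ₐ[F] Matrix (Fin d ⊕ Fin d) (Fin d ⊕ Fin d) F) (hρK : ∀ M, M ∈ K ↔ ∃ a, ρ a = M)
    (hρ : ∀ (a : E) (v : Fin d ⊕ Fin d → F), a • v = ρ a *ᵥ v) (l : E →ₗ[F] F) {φ : (Fin d ⊕ Fin d → F) → (Fin d ⊕ Fin d → F) → E}
    (hφ : ∀ (a : E) u v, Cfsg.sympForm d F (a • u) v = l (a * φ u v))
    {m : ℕ} (Θ : (Fin m ⊕ Fin m → E) ≃ₗ[E] (Fin d ⊕ Fin d → F)) (hΘ : ∀ u v, φ (Θ u) (Θ v) = Cfsg.sympForm m E u v)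
    (g : Matrix.symplecticGroup (Fin m) E) :
    ∃ G : GL (Fin d ⊕ Fin d) F, G ∈ Cfsg.Geo.subalgebraNormalizer K ⊓ Cfsg.spGL d F ∧
      ∀ u, (G : Matrix (Fin d ⊕ Fin d) (Fin d ⊕ Fin d) F) *ᵥ (Θ u) = Θ ((g : Matrix (Fin m ⊕ Fin m) (Fin m ⊕ Fin m) E) *ᵥ u) := by
  have hT : ∀ g : Matrix.symplecticGroup (Fin m) E, ∃ T : (Fin d ⊕ Fin d → F) →ₗ[F] (Fin d ⊕ Fin d → F),
      ∀ v, T v = Θ ((g : Matrix (Fin m ⊕ Fin m) (Fin m ⊕ Fin m) E) *ᵥ (Θ.symm v)) := fun g =>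
    ⟨((Θ : (Fin m ⊕ Fin m → E) →ₗ[E] (Fin d ⊕ Fin d → F)) ∘ₗ (Matrix.toLin' (g : Matrix (Fin m ⊕ Fin m) (Fin m ⊕ Fin m) E)) ∘ₗ
      (Θ.symm : (Fin d ⊕ Fin d → F) →ₗ[E] (Fin m ⊕ Fin m → E))).restrictScalars F, fun v => rfl⟩
  obtain ⟨T, hT1⟩ := hT g
  obtain ⟨T', hT2⟩ := hT g⁻¹
  have hgg : (g : Matrix (Fin m ⊕ Fin m) (Fin m ⊕ Fin m) E) * ((g⁻¹ : Matrix.symplecticGroup (Fin m) E) : Matrix (Fin m ⊕ Fin m) (Fin m ⊕ Fin m) E) = 1 :=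
    congrArg Subtype.val (mul_inv_cancel g)
  have hgg' : ((g⁻¹ : Matrix.symplecticGroup (Fin m) E) : Matrix (Fin m ⊕ Fin m) (Fin m ⊕ Fin m) E) * (g : Matrix (Fin m ⊕ Fin m) (Fin m ⊕ Fin m) E) = 1 :=
    congrArg Subtype.val (inv_mul_cancel g)
  obtain ⟨G, hG⟩ := exists_gl T T' (by
    apply LinearMap.ext
    intro v
    rw [LinearMap.comp_apply, hT1, hT2, Θ.symm_apply_apply, Matrix.mulVec_mulVec, hgg, Matrix.one_mulVec, Θ.apply_symm_apply]; rfl) (by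
    apply LinearMap.ext
    intro v
    rw [LinearMap.comp_apply, hT1, hT2, Θ.symm_apply_apply, Matrix.mulVec_mulVec, hgg', Matrix.one_mulVec, Θ.apply_symm_apply]; rfl)
  refine ⟨G, Subgroup.mem_inf.mpr ⟨?_, mem_spGL.mpr ?_⟩, ?_⟩
  · apply mem_norm ρ hρK G id Function.surjective_id
    intro a
    apply Matrix.toLin'.injective
    apply LinearMap.ext
    intro v
    rw [Matrix.toLin'_apply, Matrix.toLin'_apply, ← Matrix.mulVec_mulVec, ← Matrix.mulVec_mulVec, id, ← hρ, ← hρ, hG, hG, hT1, hT1, map_smul,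
      Matrix.mulVec_smul, map_smul]
  · intro u v
    apply isom_val l hφ (fun v => (G : Matrix (Fin d ⊕ Fin d) (Fin d ⊕ Fin d) F) *ᵥ v)
    intro u v
    rw [hG, hG, hT1, hT1, hΘ, sympForm_mulVec m g.2, ← hΘ, Θ.apply_symm_apply, Θ.apply_symm_apply]
  · intro u
    rw [hG, hT1, Θ.symm_apply_apply]

theorem card_dvd (ρ : E →ₐ[F] Matrix (Fin d ⊕ Fin d) (Fin d ⊕ Fin d) F) (hρK : ∀ M, M ∈ K ↔ ∃ a, ρ a = M)
    (hρ : ∀ (a : E) (v : Fin d ⊕ Fin d → F), a • v = ρ a *ᵥ v) (l : E →ₗ[F] F) {φ : (Fin d ⊕ Fin d → F) → (Fin d ⊕ Fin d → F) → E}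
    (hφ : ∀ (a : E) u v, Cfsg.sympForm d F (a • u) v = l (a * φ u v))
    {m : ℕ} (Θ : (Fin m ⊕ Fin m → E) ≃ₗ[E] (Fin d ⊕ Fin d → F)) (hΘ : ∀ u v, φ (Θ u) (Θ v) = Cfsg.sympForm m E u v) :
    Nat.card (Matrix.symplecticGroup (Fin m) E) ∣ Nat.card ↥(Cfsg.Geo.subalgebraNormalizer K ⊓ Cfsg.spGL d F) := by
  choose G hG1 hG2 using exists_lin ρ hρK hρ l hφ Θ hΘ
  let ψ : Matrix.symplecticGroup (Fin m) E →* ↥(Cfsg.Geo.subalgebraNormalizer K ⊓ Cfsg.spGL d F) :=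
    MonoidHom.mk' (fun g => ⟨G g, hG1 g⟩) (by
      intro a b
      apply Subtype.ext
      apply gl_ext
      intro v
      obtain ⟨u, rfl⟩ := Θ.surjective v
      change (G (a * b) : Matrix (Fin d ⊕ Fin d) (Fin d ⊕ Fin d) F) *ᵥ Θ u = ((G a * G b : GL (Fin d ⊕ Fin d) F) : Matrix (Fin d ⊕ Fin d) (Fin d ⊕ Fin d) F) *ᵥ Θ u
      rw [hG2, Units.val_mul, ← Matrix.mulVec_mulVec, hG2, hG2, Matrix.mulVec_mulVec]
      rfl)
  apply Subgroup.card_dvd_of_injective ψ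
  intro a b hab
  have h1 : G a = G b := congrArg Subtype.val hab
  apply Subtype.ext
  apply Matrix.toLin'.injective
  apply LinearMap.ext
  intro u
  apply Θ.injective
  rw [Matrix.toLin'_apply, Matrix.toLin'_apply, ← hG2, ← hG2, h1]

end emb

section card
variable {F : Type*} [Field F] [Finite F] {d : ℕ}

theorem card_spGL : Nat.card (Cfsg.spGL d F) = Nat.card (Matrix.symplecticGroup (Fin d) F) := by
  apply Nat.card_congr
  refine Equiv.symm (Equiv.ofBijective (fun x => ⟨(exists_gl_of_symp x).choose, (exists_gl_of_symp x).choose_spec.1⟩) ⟨?_, ?_⟩)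
  · intro x y hxy
    apply Subtype.ext
    rw [← (exists_gl_of_symp x).choose_spec.2, ← (exists_gl_of_symp y).choose_spec.2]
    exact congrArg (fun z : Cfsg.spGL d F => ((z : GL (Fin d ⊕ Fin d) F) : Matrix (Fin d ⊕ Fin d) (Fin d ⊕ Fin d) F)) hxy
  · intro X
    obtain ⟨x, hx⟩ := exists_symp_of_isometry (Matrix.toLin' ((X : GL (Fin d ⊕ Fin d) F) : Matrix (Fin d ⊕ Fin d) (Fin d ⊕ Fin d) F))
      (mem_spGL.mp X.2)
    refine ⟨x, ?_⟩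
    apply Subtype.ext
    apply Units.ext
    change (((exists_gl_of_symp x).choose : GL (Fin d ⊕ Fin d) F) : Matrix (Fin d ⊕ Fin d) (Fin d ⊕ Fin d) F) = _
    rw [(exists_gl_of_symp x).choose_spec.2]
    exact Matrix.toLin'.injective hx

theorem not_dvd_relIndex {G : Type*} [Group G] {N S : Subgroup G} {r : ℕ} (hr : r.Prime) (hS : Nat.card S ≠ 0)
    (h : ∀ t, r ^ t ∣ Nat.card S → r ^ t ∣ Nat.card ↥(N ⊓ S)) : ¬ r ∣ N.relIndex S := by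
  intro hd
  have h1 : Nat.card ↥(N ⊓ S) * N.relIndex S = Nat.card S := by
    have h2 := Subgroup.relIndex_mul_relIndex (⊥ : Subgroup G) (N ⊓ S) S bot_le inf_le_right
    rwa [Subgroup.relIndex_bot_left, Subgroup.relIndex_bot_left, Subgroup.inf_relIndex_right] at h2
  obtain ⟨t, m, hm, ht⟩ := Nat.exists_eq_pow_mul_and_not_dvd hS r hr.ne_one
  obtain ⟨n, hn⟩ := h t ⟨m, ht⟩
  rw [hn, ht, mul_assoc] at h1
  have h2 := Nat.eq_of_mul_eq_mul_left (pow_pos hr.pos t) h1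
  apply hm
  rw [← h2]
  exact hd.mul_left _

/-- the abstract hypothesis from the concrete one -/
theorem abs_of_conc [NeZero d] {E : Type*} [Field E] [Algebra F E] [Module E (Fin d ⊕ Fin d → F)] {K : Subalgebra F (Matrix (Fin d ⊕ Fin d) (Fin d ⊕ Fin d) F)}
    (ρ : E →ₐ[F] Matrix (Fin d ⊕ Fin d) (Fin d ⊕ Fin d) F) (hρK : ∀ M, M ∈ K ↔ ∃ a, ρ a = M)
    (hρ : ∀ (a : E) (v : Fin d ⊕ Fin d → F), a • v = ρ a *ᵥ v) (r : ℕ)
    (H : ∀ x ∈ Cfsg.spGL d F, (∃ z : F, ((x ^ r : GL (Fin d ⊕ Fin d) F) : Matrix (Fin d ⊕ Fin d) (Fin d ⊕ Fin d) F) = z • (1 : Matrix (Fin d ⊕ Fin d) (Fin d ⊕ Fin d) F)) →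
      (∀ z : F, (x : Matrix (Fin d ⊕ Fin d) (Fin d ⊕ Fin d) F) ≠ z • (1 : Matrix (Fin d ⊕ Fin d) (Fin d ⊕ Fin d) F)) →
      ∃ g ∈ Cfsg.spGL d F, g⁻¹ * x * g ∈ Cfsg.Geo.subalgebraNormalizer K)
    (T : (Fin d ⊕ Fin d → F) →ₗ[F] (Fin d ⊕ Fin d → F)) (hT1 : ∀ u v, Cfsg.sympForm d F (T u) (T v) = Cfsg.sympForm d F u v) (hT2 : T ^ r = 1)
    (hT3 : ∀ z : F, T ≠ z • (1 : (Fin d ⊕ Fin d → F) →ₗ[F] (Fin d ⊕ Fin d → F))) :
    ∃ (y : (Fin d ⊕ Fin d → F) →ₗ[F] (Fin d ⊕ Fin d → F)) (σ : E →ₐ[F] E), (∀ u v, Cfsg.sympForm d F (y u) (y v) = Cfsg.sympForm d F u v) ∧ y ^ r = 1 ∧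
      finrank F (LinearMap.ker (y - 1)) = finrank F (LinearMap.ker (T - 1)) ∧ ∀ (a : E) v, y (a • v) = σ a • y v := by
  obtain ⟨x, hx⟩ := exists_symp_of_isometry T hT1
  obtain ⟨X, hX, hXx⟩ := exists_gl_of_symp x
  have hXT : Matrix.toLin' (X : Matrix (Fin d ⊕ Fin d) (Fin d ⊕ Fin d) F) = T := by rw [hXx, hx]
  have hXr : X ^ r = 1 := by
    apply Units.ext
    apply Matrix.toLin'.injective
    rw [Units.val_pow_eq_pow_val, Matrix.toLin'_pow, hXT, hT2, Units.val_one, Matrix.toLin'_one]; rfl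
  obtain ⟨g, hg, hgx⟩ := H X hX ⟨1, by rw [hXr, one_smul]; rfl⟩ (by
    intro z hz
    apply hT3 z
    rw [← hXT, hz, map_smul, Matrix.toLin'_one]; rfl)
  obtain ⟨σ, hσ⟩ := norm_semi ρ hρK _ hgx
  have hy : g⁻¹ * X * g ∈ Cfsg.spGL d F := mul_mem (mul_mem (inv_mem hg) hX) hg
  refine ⟨Matrix.toLin' ((g⁻¹ * X * g : GL (Fin d ⊕ Fin d) F) : Matrix (Fin d ⊕ Fin d) (Fin d ⊕ Fin d) F), σ, mem_spGL.mp hy, ?_, ?_, ?_⟩
  · rw [← Matrix.toLin'_pow, ← Units.val_pow_eq_pow_val]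
    have h1 : (g⁻¹ * X * g) ^ r = 1 := by
      have h2 : g⁻¹ * X * g = g⁻¹ * X * (g⁻¹)⁻¹ := by rw [inv_inv]
      rw [h2, conj_pow, hXr, mul_one, mul_inv_cancel]
    rw [h1, Units.val_one, Matrix.toLin'_one]; rfl
  · have h1 : (g : Matrix (Fin d ⊕ Fin d) (Fin d ⊕ Fin d) F) * ((g⁻¹ : GL (Fin d ⊕ Fin d) F) : Matrix (Fin d ⊕ Fin d) (Fin d ⊕ Fin d) F) = 1 := by
      rw [← Units.val_mul, mul_inv_cancel, Units.val_one]
    have h2 : ((g⁻¹ : GL (Fin d ⊕ Fin d) F) : Matrix (Fin d ⊕ Fin d) (Fin d ⊕ Fin d) F) * (g : Matrix (Fin d ⊕ Fin d) (Fin d ⊕ Fin d) F) = 1 := by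
      rw [← Units.val_mul, inv_mul_cancel, Units.val_one]
    symm
    apply finrank_ker_eq _ _ (Matrix.toLin'OfInv h2 h1)
    intro t
    change T ((g : Matrix (Fin d ⊕ Fin d) (Fin d ⊕ Fin d) F) *ᵥ t) - (g : Matrix (Fin d ⊕ Fin d) (Fin d ⊕ Fin d) F) *ᵥ t =
      (g : Matrix (Fin d ⊕ Fin d) (Fin d ⊕ Fin d) F) *ᵥ (((g⁻¹ * X * g : GL (Fin d ⊕ Fin d) F) : Matrix (Fin d ⊕ Fin d) (Fin d ⊕ Fin d) F) *ᵥ t - t)
    have h5 : X * g = g * (g⁻¹ * X * g) := by group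
    rw [← hXT, Matrix.toLin'_apply, Matrix.mulVec_sub, Matrix.mulVec_mulVec, Matrix.mulVec_mulVec, ← Units.val_mul, ← Units.val_mul, h5]
  · intro a v
    rw [Matrix.toLin'_apply, Matrix.toLin'_apply, hρ, hρ, Matrix.mulVec_mulVec, hσ, ← Matrix.mulVec_mulVec]

end card

end Cfsg.Agent.H43.FExtConc
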