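import Mathlib
import Cfsg.Agent.H39.OE10
import Cfsg.Agent.H43.FExtConc
import Cfsg.Agent.H43.FExtSp
import Cfsg.Agent.Orth.Homs
import Cfsg.Agent.Orth.Adjust2
/-!
# Quadratic forms that are traces of quadratic forms over an extension
-/
set_option autoImplicit false
set_option linter.unusedSectionVars false
set_option linter.unusedVariables false

namespace Cfsg.Agent.H43.FO

open Module QuadraticMap Cfsg.Agent.Orth Cfsg.Agent.H39.OE Cfsg.Agent.H43.FExt

section setup
variable {F E V : Type*} [Field F] [Field E] [Algebra F E] [FiniteDimensional F E] [AddCommGroup V] [Module F V] [Module E V] [IsScalarTower F E V]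

/-- the form over the extension -/
theorem exists_QE (h2 : (2 : F) ≠ 0) (l : E →ₗ[F] F) (hl : l ≠ 0) {Q : QuadraticForm F V} (hsa : ∀ (a : E) u v, polar Q (a • u) v = polar Q u (a • v)) :
    ∃ QE : QuadraticForm E V, ∀ v, Q v = l (QE v) := by
  obtain ⟨φ, hφ⟩ := exists_val (E := E) l hl (f := fun u v => polar Q u v) (fun x y v => pal Q x y v) (fun c x v => psl Q c x v)
  have hs : ∀ u v, φ u v = φ v u := by
    intro u v
    apply dual_inj l hl
    intro a
    rw [← hφ, ← hφ]
    change polar Q (a • u) v = polar Q (a • v) u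
    rw [hsa, pc]
  have hadd : ∀ x y v, φ (x + y) v = φ x v + φ y v := by
    intro x y v
    apply dual_inj l hl
    intro a
    rw [← hφ, mul_add, map_add, ← hφ, ← hφ, smul_add]
    exact pal Q _ _ _
  have hsm : ∀ (c : E) x v, φ (c • x) v = c * φ x v := by
    intro c x v
    apply dual_inj l hl
    intro a
    rw [← hφ, smul_smul, ← mul_assoc, ← hφ]
  have hE2 : (2 : E) ≠ 0 := by
    have := (map_ne_zero (algebraMap F E)).mpr h2
    rwa [map_ofNat] at this
  let B : LinearMap.BilinMap E V E := LinearMap.mk₂ E (fun u v => (2 : E)⁻¹ * φ u v) (fun x y v => by rw [hadd, mul_add])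
    (fun c x v => by rw [hsm, smul_eq_mul]; ring) (fun x y z => by rw [hs, hadd, hs y, hs z, mul_add]) (fun c x v => by rw [hs, hsm, hs v, smul_eq_mul]; ring)
  refine ⟨LinearMap.BilinMap.toQuadraticMap B, fun v => ?_⟩
  have h1 : LinearMap.BilinMap.toQuadraticMap B v = (2 : E)⁻¹ * φ v v := rfl
  rw [h1]
  have h3 := hφ ((2 : E)⁻¹) v v
  rw [← h3]
  have h4 : ((2 : E)⁻¹ • v : V) = (2 : F)⁻¹ • v := by
    have : (2 : E)⁻¹ = algebraMap F E (2 : F)⁻¹ := by rw [map_inv₀, map_ofNat]
    rw [this, algebraMap_smul]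
  change Q v = polar Q ((2 : E)⁻¹ • v) v
  rw [h4, psl, pself]
  field_simp

variable {Q : QuadraticForm F V} {QE : QuadraticForm E V} {l : E →ₗ[F] F}

theorem polar_tr (hR : ∀ v, Q v = l (QE v)) (u v : V) : polar Q u v = l (polar QE u v) := by
  unfold polar
  rw [hR, hR, hR, map_sub, map_sub]

theorem polar_tr_smul (hR : ∀ v, Q v = l (QE v)) (a : E) (u v : V) : polar Q (a • u) v = l (a * polar QE u v) := by
  rw [polar_tr hR, psl]

theorem polar_sa (hR : ∀ v, Q v = l (QE v)) (a : E) (u v : V) : polar Q (a • u) v = polar Q u (a • v) := by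
  rw [polar_tr hR, polar_tr hR, psl, psr]

theorem polar_QE_zero (hl : l ≠ 0) (hR : ∀ v, Q v = l (QE v)) {u v : V} (h : ∀ a : E, polar Q (a • u) v = 0) : polar QE u v = 0 := by
  apply dual_inj l hl
  intro a
  rw [← polar_tr_smul hR, h, mul_zero, map_zero]

theorem nondeg_QE (hR : ∀ v, Q v = l (QE v)) (hQ : (polarBilin Q).Nondegenerate) : (polarBilin QE).Nondegenerate := by
  apply H99.nondegenerate_of_ND
  intro u _ hu
  apply H99.ND_polar hQ u Submodule.mem_top
  intro v _
  change polar Q u v = 0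
  rw [polar_tr hR]
  have := hu v Submodule.mem_top
  change polar QE u v = 0 at this
  rw [this, map_zero]

theorem nd_rs (hl : l ≠ 0) (hR : ∀ v, Q v = l (QE v)) {W : Submodule E V} (hW : Nd QE W) : Nd Q (W.restrictScalars F) := by
  intro u hu h
  apply hW u hu
  intro v hv
  change polar QE u v = 0
  apply polar_QE_zero hl hR
  intro a
  rw [polar_sa hR]
  exact h (a • v) (W.smul_mem a hv)

theorem isom_QE (hl : l ≠ 0) (hR : ∀ v, Q v = l (QE v)) (y : V →ₗ[E] V) (hy : ∀ v, Q (y v) = Q v) (h2 : (2 : F) ≠ 0) (v : V) : QE (y v) = QE v := by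
  have hE2 : (2 : E) ≠ 0 := by
    have := (map_ne_zero (algebraMap F E)).mpr h2
    rwa [map_ofNat] at this
  have h1 : polar QE (y v) (y v) = polar QE v v := by
    apply dual_inj l hl
    intro a
    rw [← polar_tr_smul hR, ← polar_tr_smul hR, ← map_smul]
    exact polar_of_isom (Q := Q) (Q' := Q) (f := y.restrictScalars F) hy (a • v) v
  rw [pself, pself] at h1
  exact mul_left_cancel₀ hE2 h1

theorem finrank_rs (W : Submodule E V) : finrank F (W.restrictScalars F) = finrank F E * finrank E W := by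
  have : finrank F (W.restrictScalars F) = finrank F W := rfl
  rw [this, Module.finrank_mul_finrank]

theorem finrank_ker_rs (y : V →ₗ[E] V) (y' : V →ₗ[F] V) (h : ∀ v, y' v = y v) :
    finrank F (LinearMap.ker y') = finrank F E * finrank E (LinearMap.ker y) := by
  rw [← finrank_rs]
  have : LinearMap.ker y' = (LinearMap.ker y).restrictScalars F := by
    ext v
    rw [Submodule.restrictScalars_mem, LinearMap.mem_ker, LinearMap.mem_ker, h]
  rw [this]

end setup

end Cfsg.Agent.H43.FO
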