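import Mathlib
import Cfsg.Agent.H43.FO1
import Cfsg.Agent.Orth.TraceForm
import Cfsg.Agent.Orth.Arith
/-!
# Types of the trace forms
-/
set_option autoImplicit false
set_option linter.unusedSectionVars false
set_option linter.unusedVariables false

namespace Cfsg.Agent.H43.FO

open Module QuadraticMap Cfsg.Agent.Orth Cfsg.Agent.H39.OE Cfsg.Agent.H43.FExt

section fields
variable {F E : Type*} [Field F] [Fintype F] [Field E] [Fintype E] [Algebra F E]

theorem card_E (hE : finrank F E = 2) : Fintype.card E = Fintype.card F ^ 2 := by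
  rw [← hE]; exact Module.card_eq_pow_finrank

theorem two_E (h2 : (2 : F) ≠ 0) : (2 : E) ≠ 0 := by
  have := (map_ne_zero (algebraMap F E)).mpr h2
  rwa [map_ofNat] at this

theorem sq_of_trace_zero (hE : finrank F E = 2) (h2 : (2 : F) ≠ 0) {t : E} (ht : t ≠ 0) (h : Algebra.trace F E t = 0) :
    IsSquare t ↔ ¬ IsSquare (-1 : F) := by
  have hodd := odd_of_two_ne_zero h2
  have h1 := Cfsg.Agent.Orth.algebraMap_trace (K := E) (F := F) (card_E hE) rfl t
  rw [h, map_zero] at h1
  have h3 : t ^ Fintype.card F = -t := by linear_combination -h1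
  have hch : ringChar E ≠ 2 := by
    intro h4
    apply two_E (E := E) h2
    have := ringChar.Nat.cast_ringChar (R := E)
    rw [h4] at this
    exact_mod_cast this
  rw [isSquare_neg_one_iff rfl hodd, FiniteField.isSquare_iff hch ht, card_E hE]
  obtain ⟨k, hk⟩ := hodd
  rw [hk] at h3 ⊢
  have h5 : (2 * k + 1) ^ 2 / 2 = 2 * k * (k + 1) := by
    have : (2 * k + 1) ^ 2 = 2 * (2 * k * (k + 1)) + 1 := by ring
    omega
  have h6 : t ^ (2 * k) = -1 := by
    have : t * t ^ (2 * k) = t * (-1) := by rw [← pow_succ', h3]; ring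
    exact mul_left_cancel₀ ht this
  rw [h5, pow_mul, h6]
  rcases Nat.even_or_odd k with hk' | hk'
  · rw [Odd.neg_one_pow (Even.add_one hk')]
    obtain ⟨m, hm⟩ := hk'
    have h7 : (2 * k + 1) % 4 = 1 := by omega
    constructor
    · intro h8
      exfalso
      apply two_E (E := E) h2
      linear_combination -h8
    · intro h8
      exact absurd h7 h8
  · rw [Even.neg_one_pow (Odd.add_one hk')]
    obtain ⟨m, hm⟩ := hk'
    have h7 : (2 * k + 1) % 4 ≠ 1 := by omega
    exact ⟨fun _ => h7, fun _ => rfl⟩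

theorem neg_one_sq_E (hE : finrank F E = 2) (h2 : (2 : F) ≠ 0) : IsSquare (-1 : E) := by
  have hodd := odd_of_two_ne_zero h2
  have hoE : Odd (Fintype.card E) := by rw [card_E hE]; exact hodd.pow
  rw [isSquare_neg_one_iff rfl hoE, card_E hE]
  obtain ⟨k, hk⟩ := hodd
  rw [hk]
  have : (2 * k + 1) ^ 2 = 4 * (k * (k + 1)) + 1 := by ring
  omega

end fields

section types
variable {F E V : Type*} [Field F] [Fintype F] [Field E] [Fintype E] [Algebra F E] [AddCommGroup V] [Module F V] [Module E V] [IsScalarTower F E V]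
  [FiniteDimensional F V] [FiniteDimensional E V]
variable {Q : QuadraticForm F V} {QE : QuadraticForm E V}

theorem nd_line (h2 : (2 : F) ≠ 0) {v : V} (hv : QE v ≠ 0) : Nd QE (Submodule.span E {v}) := by
  intro u hu h
  obtain ⟨b, rfl⟩ := Submodule.mem_span_singleton.mp hu
  have h1 := h v (Submodule.mem_span_singleton_self v)
  change polar QE (b • v) v = 0 at h1
  rw [psl, pself] at h1
  have h3 := mul_eq_zero.mp h1
  rcases h3 with h3 | h3
  · rw [h3, zero_smul]
  · exact absurd h3 (mul_ne_zero (two_E (E := E) h2) hv)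

theorem ne_zero_of_QE {v : V} (hv : QE v ≠ 0) : v ≠ 0 := by
  rintro rfl
  exact hv (map_zero QE)

theorem finrank_line (hE : finrank F E = 2) {v : V} (hv : QE v ≠ 0) : finrank F ((Submodule.span E {v}).restrictScalars F) = 2 := by
  rw [finrank_rs, hE, finrank_span_singleton (ne_zero_of_QE hv)]

/-- the type of an `E`-line as an `F`-plane -/
theorem plane_pt (hE : finrank F E = 2) (h2 : (2 : F) ≠ 0) (hR : ∀ v, Q v = Algebra.trace F E (QE v)) {v : V} (hv : QE v ≠ 0) :
    PT Q ((Submodule.span E {v}).restrictScalars F) ↔ (IsSquare (QE v) ↔ ¬ IsSquare (-1 : F)) := by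
  constructor
  · rintro ⟨U, hU, hTS, hd⟩
    rw [finrank_line hE hv] at hd
    have h1 : finrank F U = 1 := by omega
    have hU0 : U ≠ ⊥ := by rintro rfl; rw [finrank_bot] at h1; omega
    obtain ⟨u, hu, hu0⟩ := (Submodule.ne_bot_iff _).mp hU0
    obtain ⟨b, rfl⟩ := Submodule.mem_span_singleton.mp (show u ∈ Submodule.span E {v} from hU hu)
    have hb : b ≠ 0 := by rintro rfl; exact hu0 (zero_smul _ _)
    have h3 := hTS _ hu
    rw [hR, qsmul] at h3
    rw [← sq_of_trace_zero hE h2 (mul_ne_zero (mul_ne_zero hb hb) hv) h3]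
    exact (isSquare_mul_iff_of_sq ⟨b, rfl⟩ (mul_ne_zero hb hb)).symm
  · intro h
    obtain ⟨t, ht, ht0⟩ := Cfsg.Agent.Orth.exists_trace_zero (K := E) (F := F) (card_E hE) rfl
    rw [← sq_of_trace_zero hE h2 ht ht0] at h
    have h3 : IsSquare (t * QE v) := by
      by_cases hs : IsSquare t
      · rw [isSquare_mul_iff_of_sq hs ht]; exact h.mpr hs
      · rw [isSquare_mul_iff_of_not hs hv]
        · rw [h] ; exact hs
    obtain ⟨s, hs⟩ := h3
    have hs0 : s ≠ 0 := by
      rintro rfl
      rw [mul_zero] at hs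
      exact (mul_ne_zero ht hv) hs
    have ha : s / QE v ≠ 0 := div_ne_zero hs0 hv
    have hav : (s / QE v) • v ≠ 0 := smul_ne_zero ha (ne_zero_of_QE hv)
    refine ⟨Submodule.span F {(s / QE v) • v}, ?_, ?_, ?_⟩
    · rw [Submodule.span_le, Set.singleton_subset_iff]
      exact Submodule.smul_mem _ _ (Submodule.mem_span_singleton_self v)
    · intro u hu
      obtain ⟨b, rfl⟩ := Submodule.mem_span_singleton.mp hu
      rw [qsmul, hR, qsmul]
      have : s / QE v * (s / QE v) * QE v = t := by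
        field_simp
        linear_combination -hs
      rw [this, ht0, mul_zero]
    · rw [finrank_line hE hv, finrank_span_singleton hav]

/-- universality -/
theorem exists_val_in {W : Submodule E V} (hW : Nd QE W) (hd : 2 ≤ finrank E W) (c : E) : ∃ v ∈ W, QE v = c := by
  obtain ⟨v, hv⟩ := exists_q_eq (nd_restrict hW) hd c
  exact ⟨v, v.2, hv⟩

theorem exists_not_sq (h2 : (2 : F) ≠ 0) : ∃ ν : E, ν ≠ 0 ∧ ¬ IsSquare ν := by
  have hch : ringChar E ≠ 2 := by
    intro h4
    apply two_E (E := E) h2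
    have := ringChar.Nat.cast_ringChar (R := E)
    rw [h4] at this
    exact_mod_cast this
  obtain ⟨ν, hν⟩ := FiniteField.exists_nonsquare hch
  exact ⟨ν, fun h => hν (by rw [h]; exact IsSquare.zero), hν⟩

/-- lines of both types -/
theorem exists_line (hE : finrank F E = 2) (h2 : (2 : F) ≠ 0) (hR : ∀ v, Q v = Algebra.trace F E (QE v)) {W : Submodule E V} (hW : Nd QE W)
    (hd : 2 ≤ finrank E W) (τ : Prop) : ∃ v ∈ W, QE v ≠ 0 ∧ (PT Q ((Submodule.span E {v}).restrictScalars F) ↔ τ) := by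
  obtain ⟨ν, hν, hν'⟩ := exists_not_sq (F := F) (E := E) h2
  by_cases h : τ ↔ ¬ IsSquare (-1 : F)
  · obtain ⟨v, hv, hv1⟩ := exists_val_in hW hd 1
    refine ⟨v, hv, by rw [hv1]; exact one_ne_zero, ?_⟩
    rw [plane_pt hE h2 hR (by rw [hv1]; exact one_ne_zero), hv1]
    have : IsSquare (1 : E) := IsSquare.one
    tauto
  · obtain ⟨v, hv, hv1⟩ := exists_val_in hW hd ν
    refine ⟨v, hv, by rw [hv1]; exact hν, ?_⟩
    rw [plane_pt hE h2 hR (by rw [hv1]; exact hν), hv1]
    tauto

theorem sup_rs (A B : Submodule E V) : (A ⊔ B).restrictScalars F = A.restrictScalars F ⊔ B.restrictScalars F := by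
  ext v
  rw [Submodule.restrictScalars_mem, Submodule.mem_sup, Submodule.mem_sup]
  rfl

/-- `E`-subspaces of both types -/
theorem exists_sub (hE : finrank F E = 2) (h2 : (2 : F) ≠ 0) (hR : ∀ v, Q v = Algebra.trace F E (QE v)) (hQ : (polarBilin Q).Nondegenerate)
    {s : ℕ} (hs : 1 ≤ s) (hs' : s < finrank E V) (τ : Prop) :
    ∃ W : Submodule E V, Nd QE W ∧ finrank E W = s ∧ (PT Q (W.restrictScalars F) ↔ τ) := by
  have hl : Algebra.trace F E ≠ 0 := Algebra.trace_ne_zero F E
  have hQE := nondeg_QE hR hQ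
  obtain ⟨A, -, hA, hAd⟩ := exists_nd_sub (two_E (E := E) h2) (nd_of_nondeg hQE) (k := s - 1) (by rw [finrank_top]; omega)
  have hB : Nd QE (H99.orth (H39.OE.of QE) A) := by
    have := H99.split_ND_compl (H39.OE.of QE) (nd_of_nondeg hQE) hA le_top
    rwa [top_inf_eq] at this
  have hBd : finrank E (H99.orth (H39.OE.of QE) A) = finrank E V - (s - 1) := by
    have := H99.split_finrank (H39.OE.of QE) hA (W := ⊤) le_top
    rw [top_inf_eq, finrank_top] at this
    omega
  obtain ⟨v, hv, hv0, hvt⟩ := exists_line hE h2 hR hB (by omega) (PT Q (A.restrictScalars F) ↔ τ)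
  have ho : ∀ u ∈ A, ∀ w ∈ Submodule.span E {v}, polar QE u w = 0 := by
    intro u hu w hw
    obtain ⟨b, rfl⟩ := Submodule.mem_span_singleton.mp hw
    rw [psr]
    have h5 := (H99.mem_orth' (H39.OE.of QE)).mp hv u hu
    change polar QE u v = 0 at h5
    rw [h5, mul_zero]
  have hLN := nd_line (F := F) h2 hv0
  refine ⟨A ⊔ Submodule.span E {v}, ?_, ?_, ?_⟩
  · exact H99.ND_sup (H39.OE.of QE) hA hLN (fun u hu w hw => ho u hu w hw)
  · rw [finrank_sup_disj (disj_of_orth hA ho), hAd, finrank_span_singleton (ne_zero_of_QE hv0)]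
    omega
  · rw [sup_rs, PT_iff_sub (nd_rs hl hR hA) (nd_rs hl hR hLN) (fun u hu w hw => by
      rw [polar_tr hR, ho u hu w hw, map_zero]) (by rw [finrank_rs, hE]; exact even_two_mul _) (by rw [finrank_rs, hE]; exact even_two_mul _), hvt]
    tauto

end types

end Cfsg.Agent.H43.FO
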