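import Mathlib
import Cfsg.Agent.H43.FO2
/-!
# Involutions of orthogonal groups and field extension subgroups
-/
set_option autoImplicit false
set_option linter.unusedSectionVars false
set_option linter.unusedVariables false

namespace Cfsg.Agent.H43.FO

open Module QuadraticMap Cfsg.Agent.Orth Cfsg.Agent.H39.OE Cfsg.Agent.H43.FExt

section witt
variable {F V : Type*} [Field F] [Finite F] [AddCommGroup V] [Module F V] [FiniteDimensional F V] {Q : QuadraticForm F V}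

theorem exists_map_of_type (hQ : (polarBilin Q).Nondegenerate) {U W : Submodule F V} (hU : Nd Q U) (hW : Nd Q W) {s : ℕ}
    (hUd : finrank F U = 2 * s) (hWd : finrank F W = 2 * s) (h : PT Q U ↔ PT Q W) :
    ∃ g : OGrp Q, U.map ((g : V ≃ₗ[F] V) : V →ₗ[F] V) = W := by
  obtain ⟨e, he⟩ := isom_of_type (nd_restrict hU) (nd_restrict hW) hUd hWd (by rw [pt_restrict, pt_restrict]; exact h)
  obtain ⟨g, hg⟩ := witt hQ U (W.subtype ∘ₗ e.toLinearMap) (Subtype.val_injective.comp e.injective) (fun u => he u)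
  refine ⟨g, ?_⟩
  apply le_antisymm
  · rintro _ ⟨u, hu, rfl⟩
    have := hg ⟨u, hu⟩
    change (g : V ≃ₗ[F] V) u ∈ W
    rw [this]
    exact (e ⟨u, hu⟩).2
  · intro w hw
    refine ⟨e.symm ⟨w, hw⟩, (e.symm ⟨w, hw⟩).2, ?_⟩
    have := hg (e.symm ⟨w, hw⟩)
    change (g : V ≃ₗ[F] V) _ = w
    rw [this]
    change ((e (e.symm ⟨w, hw⟩) : W) : V) = w
    rw [e.apply_symm_apply]

theorem exists_comm_of_type (hQ : (polarBilin Q).Nondegenerate) (hR : RGrp Q = ⊤) {U W : Submodule F V} (hU : Nd Q U) (hW : Nd Q W) {s : ℕ}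
    (hs : 1 ≤ s) (hUd : finrank F U = 2 * s) (hWd : finrank F W = 2 * s) (h : PT Q U ↔ PT Q W) :
    ∃ g ∈ commutator (OGrp Q), U.map ((g : V ≃ₗ[F] V) : V →ₗ[F] V) = W := by
  obtain ⟨g, hg⟩ := exists_map_of_type hQ hU hW hUd hWd h
  refine exists_comm_map_of_adjust hQ hR (fun c hc => ?_) g hg
  obtain ⟨x, hx⟩ := exists_q_eq (nd_restrict hU) (by omega) c
  exact ⟨x, Or.inl x.2, by rw [show Q (x : V) = c from hx]; exact hc, by rw [show Q (x : V) = c from hx]; exact ⟨c, rfl⟩⟩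

end witt

section one
variable {F E V : Type*} [Field F] [Fintype F] [Field E] [Fintype E] [Algebra F E] [AddCommGroup V] [Module F V] [Module E V] [IsScalarTower F E V]
  [FiniteDimensional F V] [FiniteDimensional E V]
variable {Q : QuadraticForm F V} {QE : QuadraticForm E V}

theorem conj_apply (g x : OGrp Q) (v : V) : ((g⁻¹ * x * g : OGrp Q) : V ≃ₗ[F] V) v = ((g⁻¹ : OGrp Q) : V ≃ₗ[F] V) ((x : V ≃ₗ[F] V) ((g : V ≃ₗ[F] V) v)) := rfl

theorem back_one (hE : finrank F E = 2) (h2 : (2 : F) ≠ 0) (hR : ∀ v, Q v = Algebra.trace F E (QE v)) (hQ : (polarBilin Q).Nondegenerate)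
    (hRG : RGrp Q = ⊤) (x : OGrp Q) (hxx : ∀ v, (x : V ≃ₗ[F] V) ((x : V ≃ₗ[F] V) v) = v) {s : ℕ}
    (hs : finrank F (LinearMap.ker (((x : V ≃ₗ[F] V) : V →ₗ[F] V) + 1)) = 2 * s) (hs1 : 1 ≤ s) (hs2 : s < finrank E V) :
    ∃ g ∈ commutator (OGrp Q), ∀ (a : E) v, ((g⁻¹ * x * g : OGrp Q) : V ≃ₗ[F] V) (a • v) = a • ((g⁻¹ * x * g : OGrp Q) : V ≃ₗ[F] V) v := by
  have hl : Algebra.trace F E ≠ 0 := Algebra.trace_ne_zero F E
  obtain ⟨W, hW, hWd, hWt⟩ := exists_sub hE h2 hR hQ hs1 hs2 (PT Q (LinearMap.ker (((x : V ≃ₗ[F] V) : V →ₗ[F] V) + 1)))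
  obtain ⟨-, hN, -, -⟩ := invol_split h2 hQ (x := ((x : V ≃ₗ[F] V) : V →ₗ[F] V)) (fun v => OGrp_q x v) (fun v => hxx v)
  obtain ⟨g, hg, hgW⟩ := exists_comm_of_type hQ hRG (nd_rs hl hR hW) hN hs1 (by rw [finrank_rs, hE, hWd]) hs hWt
  refine ⟨g, hg, ?_⟩
  have h1 : ∀ w ∈ W, ((g⁻¹ * x * g : OGrp Q) : V ≃ₗ[F] V) w = -w := by
    intro w hw
    rw [conj_apply]
    have h3 : (g : V ≃ₗ[F] V) w ∈ LinearMap.ker (((x : V ≃ₗ[F] V) : V →ₗ[F] V) + 1) := by
      rw [← hgW]; exact ⟨w, hw, rfl⟩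
    have h4 : (x : V ≃ₗ[F] V) ((g : V ≃ₗ[F] V) w) = -((g : V ≃ₗ[F] V) w) := mem_ker'.mp h3
    rw [h4, map_neg, coe_inv_apply_self]
  have h2' : ∀ w ∈ H99.orth (H39.OE.of QE) W, ((g⁻¹ * x * g : OGrp Q) : V ≃ₗ[F] V) w = w := by
    intro w hw
    rw [conj_apply]
    set z := (g : V ≃ₗ[F] V) w with hz
    have h3 : ∀ v ∈ LinearMap.ker (((x : V ≃ₗ[F] V) : V →ₗ[F] V) + 1), polar Q z v = 0 := by
      intro v hv
      rw [← hgW] at hv
      obtain ⟨u, hu, rfl⟩ := hv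
      change polar Q ((g : V ≃ₗ[F] V) w) ((g : V ≃ₗ[F] V) u) = 0
      rw [OGrp_polar, polar_tr hR]
      have : polar QE w u = 0 := hw u hu
      rw [this, map_zero]
    have h4 : z - (x : V ≃ₗ[F] V) z = 0 := by
      apply hN
      · rw [mem_ker']
        change (x : V ≃ₗ[F] V) (z - (x : V ≃ₗ[F] V) z) = _
        rw [map_sub, hxx]
        abel
      · intro v hv
        change polar Q (z - (x : V ≃ₗ[F] V) z) v = 0
        have h5 : (x : V ≃ₗ[F] V) v = -v := mem_ker'.mp hv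
        have h6 : v = -((x : V ≃ₗ[F] V) v) := by rw [h5, neg_neg]
        rw [pdl, h3 v hv, zero_sub]
        rw [h6, polar_neg_right, OGrp_polar, h3 v hv, neg_zero, neg_zero]
    rw [← sub_eq_zero.mp h4, hz, coe_inv_apply_self]
  intro a v
  obtain ⟨w, hw, w', hw', rfl⟩ : ∃ w ∈ W, ∃ w' ∈ H99.orth (H39.OE.of QE) W, w + w' = v := by
    have hc := (H99.isCompl_orth (H39.OE.of QE) hW).sup_eq_top
    have : v ∈ W ⊔ H99.orth (H39.OE.of QE) W := by rw [hc]; exact Submodule.mem_top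
    exact Submodule.mem_sup.mp this
  rw [smul_add, map_add, map_add, h1 w hw, h2' w' hw', h1 _ (W.smul_mem a hw), h2' _ (Submodule.smul_mem _ a hw'), smul_add, smul_neg]

end one

end Cfsg.Agent.H43.FO
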