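import Mathlib
import Cfsg.Agent.H43.FO3
/-!
# Square roots of `-1` in orthogonal groups
-/
set_option autoImplicit false
set_option linter.unusedSectionVars false
set_option linter.unusedVariables false

namespace Cfsg.Agent.H43.FO

open Module QuadraticMap Cfsg.Agent.Orth Cfsg.Agent.H39.OE

section J
variable {F V : Type*} [Field F] [Fintype F] [AddCommGroup V] [Module F V] [FiniteDimensional F V] {Q : QuadraticForm F V}

/-- conjugating a square root of `-1` by a reflection -/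
theorem refl_conj_J (h2 : (2 : F) ≠ 0) (x : OGrp Q) (hxx : ∀ v, (x : V ≃ₗ[F] V) ((x : V ≃ₗ[F] V) v) = -v) {w : V} (hw : Q w ≠ 0) (u : V) :
    ((refl Q w hw * x * refl Q w hw : OGrp Q) : V ≃ₗ[F] V) u =
      (x : V ≃ₗ[F] V) (u - (((Q w)⁻¹ * polar Q u w) • w + ((Q w)⁻¹ * polar Q u ((x : V ≃ₗ[F] V) w)) • (x : V ≃ₗ[F] V) w)) := by
  have hp : ∀ a, polar Q ((x : V ≃ₗ[F] V) a) w = - polar Q a ((x : V ≃ₗ[F] V) w) := by
    intro a
    rw [← OGrp_polar x, hxx, ← neg_one_smul F a, psl]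
    ring
  have hJ : polar Q w ((x : V ≃ₗ[F] V) w) = 0 := polar_J h2 (x := ((x : V ≃ₗ[F] V) : V →ₗ[F] V)) (fun v => OGrp_q x v) hxx w
  have hJ' : polar Q ((x : V ≃ₗ[F] V) w) w = 0 := by rw [pc]; exact hJ
  rw [coe_mul_apply, coe_mul_apply, refl_apply Q w hw u, map_sub, map_smul, refl_apply, pdl, psl, hJ', hp, map_sub, map_add, map_smul, map_smul, hxx]
  simp only [mul_zero, sub_zero, mul_neg, neg_smul, smul_neg]
  abel

/-- products of two reflections in an invariant plane commute with `x` -/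
theorem refl_comm_J (h2 : (2 : F) ≠ 0) (x : OGrp Q) (hxx : ∀ v, (x : V ≃ₗ[F] V) ((x : V ≃ₗ[F] V) v) = -v) {w : V} (hw : Q w ≠ 0) (α β : F)
    (hv : Q (α • w + β • (x : V ≃ₗ[F] V) w) ≠ 0) :
    (refl Q w hw * refl Q _ hv) * x = x * (refl Q w hw * refl Q _ hv) := by
  have hJ : polar Q w ((x : V ≃ₗ[F] V) w) = 0 := polar_J h2 (x := ((x : V ≃ₗ[F] V) : V →ₗ[F] V)) (fun v => OGrp_q x v) hxx w
  have hq : Q (α • w + β • (x : V ≃ₗ[F] V) w) = (α * α + β * β) * Q w := by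
    rw [qadd, qsmul, qsmul, psl, psr, hJ, OGrp_q]
    ring
  have hab : α * α + β * β ≠ 0 := by
    intro h
    rw [hq, h, zero_mul] at hv
    exact hv rfl
  have h1 : refl Q _ hv * x * refl Q _ hv = refl Q w hw * x * refl Q w hw := by
    apply OGrp_ext
    intro u
    rw [refl_conj_J h2 x hxx hv, refl_conj_J h2 x hxx hw]
    congr 1
    congr 1
    rw [hq]
    simp only [map_add, map_smul, hxx, par, psr, smul_add, smul_neg]
    have e1 : polar Q u (-(β • w)) = β * - polar Q u w := by rw [polar_neg_right, psr]; ring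
    rw [e1]
    have hw' := hw
    have hab2 : α ^ 2 + β ^ 2 ≠ 0 := by rwa [pow_two, pow_two]
    have hab3 : β ^ 2 + α ^ 2 ≠ 0 := by rwa [add_comm]
    rw [smul_smul, smul_smul, smul_smul, smul_smul]
    generalize polar Q u w = s at *
    generalize polar Q u ((x : V ≃ₗ[F] V) w) = t at *
    generalize (x : V ≃ₗ[F] V) w = z at *
    have e2 : ((α * α + β * β) * Q w)⁻¹ * (α * s + β * t) * α + -(((α * α + β * β) * Q w)⁻¹ * (α * t + β * -s) * β) = (Q w)⁻¹ * s := by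
      field_simp
      ring
    have e3 : ((α * α + β * β) * Q w)⁻¹ * (α * s + β * t) * β + ((α * α + β * β) * Q w)⁻¹ * (α * t + β * -s) * α = (Q w)⁻¹ * t := by
      field_simp
      ring
    rw [← e2, ← e3, add_smul, add_smul, neg_smul]
    abel
  calc (refl Q w hw * refl Q _ hv) * x = refl Q w hw * (refl Q _ hv * x * refl Q _ hv) * refl Q _ hv := by
        rw [mul_assoc, mul_assoc, mul_assoc, mul_assoc, refl_mul_self, mul_one]
    _ = refl Q w hw * (refl Q w hw * x * refl Q w hw) * refl Q _ hv := by rw [h1]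
    _ = x * (refl Q w hw * refl Q _ hv) := by
        rw [← mul_assoc, ← mul_assoc, refl_mul_self, one_mul, mul_assoc]

theorem exists_comm_J (h2 : (2 : F) ≠ 0) (x : OGrp Q) (hxx : ∀ v, (x : V ≃ₗ[F] V) ((x : V ≃ₗ[F] V) v) = -v) {w : V} (hw : Q w ≠ 0) :
    ∃ (v : V) (hv : Q v ≠ 0), (refl Q w hw * refl Q v hv) * x = x * (refl Q w hw * refl Q v hv) ∧ ¬ IsSquare (Q w * Q v) := by
  have hch : ringChar F ≠ 2 := by
    intro h4
    apply h2
    have := ringChar.Nat.cast_ringChar (R := F)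
    rw [h4] at this
    exact_mod_cast this
  obtain ⟨ν, hν⟩ := FiniteField.exists_nonsquare hch
  have hν0 : ν ≠ 0 := fun h => hν (by rw [h]; exact IsSquare.zero)
  obtain ⟨α, β, hab⟩ := exists_sum_sq (F := F) one_ne_zero one_ne_zero ν
  have hJ : polar Q w ((x : V ≃ₗ[F] V) w) = 0 := polar_J h2 (x := ((x : V ≃ₗ[F] V) : V →ₗ[F] V)) (fun v => OGrp_q x v) hxx w
  have hq : Q (α • w + β • (x : V ≃ₗ[F] V) w) = ν * Q w := by
    rw [qadd, qsmul, qsmul, psl, psr, hJ, OGrp_q, ← hab]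
    ring
  have hv : Q (α • w + β • (x : V ≃ₗ[F] V) w) ≠ 0 := by rw [hq]; exact mul_ne_zero hν0 hw
  refine ⟨_, hv, refl_comm_J h2 x hxx hw α β hv, ?_⟩
  rw [hq]
  have e : Q w * (ν * Q w) = (Q w * Q w) * ν := by ring
  rw [e, isSquare_mul_iff_of_sq ⟨Q w, rfl⟩ (mul_ne_zero hw hw)]
  exact hν

/-- orthonormal `x`-bases -/
theorem exists_J_basis (h2 : (2 : F) ≠ 0) {x : V →ₗ[F] V} (hx : ∀ v, Q (x v) = Q v) (hxx : ∀ v, x (x v) = -v) (k : ℕ) :
    ∀ W : Submodule F V, (∀ v ∈ W, x v ∈ W) → Nd Q W → finrank F W = 2 * k →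
      ∃ b : Fin k → V, (∀ i, b i ∈ W) ∧ (∀ i, Q (b i) = 1) ∧ (∀ i j, i ≠ j → polar Q (b i) (b j) = 0) ∧ ∀ i j, polar Q (b i) (x (b j)) = 0 := by
  have hinj : Function.Injective x := by
    intro a b hab
    have := congrArg x hab
    rw [hxx, hxx] at this
    exact neg_injective this
  have hp := fun u v => polar_of_isom hx u v
  induction k with
  | zero =>
    intro W _ _ _
    exact ⟨fun i => i.elim0, fun i => i.elim0, fun i => i.elim0, fun i => i.elim0, fun i => i.elim0⟩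
  | succ k ih =>
    intro W hW hN hd
    have hW0 : W ≠ ⊥ := by
      rintro rfl
      rw [finrank_bot] at hd
      omega
    classical
    obtain ⟨v, hv, hQv, hQw, p1, p2, p3, p4, p5⟩ := exists_J_plane h2 hx hxx hW hN hW0
    set P := Submodule.span F (Set.range ![v, x v]) with hP
    have g1 := H99.split_ND_compl (H39.OE.of Q) hN p1 p3
    have g3 := H99.split_finrank (H39.OE.of Q) p1 p3
    have g4 : ∀ v ∈ H99.orth (H39.OE.of Q) P, x v ∈ H99.orth (H39.OE.of Q) P := H99.orth_inv_of_isom' (H39.OE.of Q) hinj hp p4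
    have g5 : ∀ v ∈ W ⊓ H99.orth (H39.OE.of Q) P, x v ∈ W ⊓ H99.orth (H39.OE.of Q) P := fun v hv => ⟨hW v hv.1, g4 v hv.2⟩
    have hvP : v ∈ P := Submodule.subset_span ⟨0, rfl⟩
    have hxvP : x v ∈ P := Submodule.subset_span ⟨1, rfl⟩
    obtain ⟨b, b1, b2, b3, b4⟩ := ih (W ⊓ H99.orth (H39.OE.of Q) P) g5 g1 (by omega)
    obtain ⟨α, β, hab⟩ := exists_sum_sq (F := F) hQv hQv 1
    have hJ := polar_J h2 hx hxx v
    set w := α • v + β • x v with hw
    have hwP : w ∈ P := P.add_mem (P.smul_mem _ hvP) (P.smul_mem _ hxvP)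
    have hxwP : x w ∈ P := p4 w hwP
    have hQ1 : Q w = 1 := by
      rw [hw, qadd, qsmul, qsmul, psl, psr, hJ, hx, ← hab]
      ring
    have o1 : ∀ i, ∀ z ∈ P, polar Q (b i) z = 0 := fun i z hz => (b1 i).2 z hz
    have o2 : ∀ i, ∀ z ∈ P, polar Q z (b i) = 0 := fun i z hz => by rw [pc]; exact o1 i z hz
    refine ⟨Fin.cons w b, fun i => ?_, fun i => ?_, fun i j => ?_, fun i j => ?_⟩
    · refine Fin.cases ?_ (fun i => ?_) i
      · rw [Fin.cons_zero]; exact p3 hwP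
      · rw [Fin.cons_succ]; exact (b1 i).1
    · refine Fin.cases ?_ (fun i => ?_) i
      · rw [Fin.cons_zero]; exact hQ1
      · rw [Fin.cons_succ]; exact b2 i
    · refine Fin.cases ?_ (fun i => ?_) i
      · refine Fin.cases ?_ (fun j => ?_) j
        · intro h; exact absurd rfl h
        · intro _; rw [Fin.cons_zero, Fin.cons_succ]; exact o2 j w hwP
      · refine Fin.cases ?_ (fun j => ?_) j
        · intro _; rw [Fin.cons_zero, Fin.cons_succ]; exact o1 i w hwP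
        · intro h; rw [Fin.cons_succ, Fin.cons_succ]; exact b3 i j (fun hij => h (by rw [hij]))
    · refine Fin.cases ?_ (fun i => ?_) i
      · refine Fin.cases ?_ (fun j => ?_) j
        · rw [Fin.cons_zero]; exact polar_J h2 hx hxx w
        · rw [Fin.cons_zero, Fin.cons_succ]
          have h5 := hp w (x (b j))
          rw [hxx] at h5
          rw [← h5, polar_neg_right, o2 j (x w) hxwP, neg_zero]
      · refine Fin.cases ?_ (fun j => ?_) j
        · rw [Fin.cons_zero, Fin.cons_succ]; exact o1 i _ hxwP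
        · rw [Fin.cons_succ, Fin.cons_succ]; exact b4 i j

theorem exists_J_fbasis (h2 : (2 : F) ≠ 0) (hQ : (polarBilin Q).Nondegenerate) (x : OGrp Q) (hxx : ∀ v, (x : V ≃ₗ[F] V) ((x : V ≃ₗ[F] V) v) = -v)
    {d : ℕ} (hd : finrank F V = 2 * d) :
    ∃ b : Basis (Fin d ⊕ Fin d) F V, (∀ i, b (Sum.inr i) = (x : V ≃ₗ[F] V) (b (Sum.inl i))) ∧ (∀ i, Q (b i) = 1) ∧ ∀ i j, i ≠ j → polar Q (b i) (b j) = 0 := by
  obtain ⟨b, -, b2, b3, b4⟩ := exists_J_basis h2 (x := ((x : V ≃ₗ[F] V) : V →ₗ[F] V)) (fun v => OGrp_q x v) hxx d ⊤ (fun _ _ => Submodule.mem_top)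
    (nd_of_nondeg hQ) (by rw [finrank_top, hd])
  have b4' : ∀ i j, polar Q (b i) ((x : V ≃ₗ[F] V) (b j)) = 0 := b4
  have hO : IsOrth Q (Sum.elim b (fun i => (x : V ≃ₗ[F] V) (b i))) := by
    constructor
    · rintro (i | i)
      · rw [Sum.elim_inl, b2]; exact one_ne_zero
      · rw [Sum.elim_inr, OGrp_q, b2]; exact one_ne_zero
    · rintro (i | i) (j | j) hij
      · exact b3 i j (fun h => hij (by rw [h]))
      · exact b4' i j
      · rw [pc]; exact b4' j i
      · change polar Q ((x : V ≃ₗ[F] V) (b i)) ((x : V ≃ₗ[F] V) (b j)) = 0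
        rw [OGrp_polar]
        exact b3 i j (fun h => hij (by rw [h]))
  have hli := hO.linearIndependent h2
  refine ⟨basisOfLinearIndependentOfCardEqFinrank' _ hli (by rw [Fintype.card_sum, Fintype.card_fin, hd]; ring), ?_, ?_, ?_⟩
  · intro i
    rw [coe_basisOfLinearIndependentOfCardEqFinrank']
    rfl
  · rintro (i | i)
    · rw [coe_basisOfLinearIndependentOfCardEqFinrank']
      exact b2 i
    · rw [coe_basisOfLinearIndependentOfCardEqFinrank']
      change Q ((x : V ≃ₗ[F] V) (b i)) = 1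
      rw [OGrp_q, b2]
  · intro i j hij
    rw [coe_basisOfLinearIndependentOfCardEqFinrank']
    exact hO.p i j hij

/-- all square roots of `-1` are conjugate in the orthogonal group -/
theorem exists_conj_J (h2 : (2 : F) ≠ 0) (hQ : (polarBilin Q).Nondegenerate) {d : ℕ} (hd : finrank F V = 2 * d)
    (x y : OGrp Q) (hxx : ∀ v, (x : V ≃ₗ[F] V) ((x : V ≃ₗ[F] V) v) = -v) (hyy : ∀ v, (y : V ≃ₗ[F] V) ((y : V ≃ₗ[F] V) v) = -v) :
    ∃ h : OGrp Q, h * y = x * h := by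
  obtain ⟨bx, x1, x2, x3⟩ := exists_J_fbasis h2 hQ x hxx hd
  obtain ⟨bY, y1, y2, y3⟩ := exists_J_fbasis h2 hQ y hyy hd
  have hf := isom_constr (QT := Q) (Q := Q) bY (fun i => bx i) (fun i => by rw [x2, y2]) (fun i j => by
    by_cases h : i = j
    · rw [h, pself, pself, x2, y2]
    · rw [x3 i j h, y3 i j h])
  have hinj := injective_of_isom hQ hf
  let h : OGrp Q := ⟨LinearEquiv.ofInjectiveEndo _ hinj, fun v => hf v⟩
  have hb : ∀ i, (h : V ≃ₗ[F] V) (bY i) = bx i := fun i => by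
    change bY.constr F (fun i => bx i) (bY i) = bx i
    rw [Basis.constr_basis]
  refine ⟨h, ?_⟩
  apply OGrp_ext
  have key : ((h : V ≃ₗ[F] V) : V →ₗ[F] V) ∘ₗ ((y : V ≃ₗ[F] V) : V →ₗ[F] V) = ((x : V ≃ₗ[F] V) : V →ₗ[F] V) ∘ₗ ((h : V ≃ₗ[F] V) : V →ₗ[F] V) := by
    apply bY.ext
    rintro (i | i)
    · change (h : V ≃ₗ[F] V) ((y : V ≃ₗ[F] V) (bY (Sum.inl i))) = (x : V ≃ₗ[F] V) ((h : V ≃ₗ[F] V) (bY (Sum.inl i)))
      rw [← y1, hb, hb, x1]
    · change (h : V ≃ₗ[F] V) ((y : V ≃ₗ[F] V) (bY (Sum.inr i))) = (x : V ≃ₗ[F] V) ((h : V ≃ₗ[F] V) (bY (Sum.inr i)))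
      rw [hb, y1, hyy, map_neg, hb, x1, hxx]
  intro v
  exact LinearMap.congr_fun key v

end J

end Cfsg.Agent.H43.FO
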