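import Mathlib
import Cfsg.Agent.H43.FO4
/-!
# Semilinear square roots of `-1`
-/
set_option autoImplicit false
set_option linter.unusedSectionVars false
set_option linter.unusedVariables false

namespace Cfsg.Agent.H43.FO

open Module QuadraticMap Cfsg.Agent.Orth Cfsg.Agent.H39.OE

section Y
variable {F E V : Type*} [Field F] [Fintype F] [Field E] [Fintype E] [Algebra F E] [AddCommGroup V] [Module F V] [Module E V] [IsScalarTower F E V]
  [FiniteDimensional F V] [FiniteDimensional E V]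
variable {Q : QuadraticForm F V} {QE : QuadraticForm E V}

theorem exists_lam (hE : finrank F E = 2) (h2 : (2 : F) ≠ 0) {c : E} (hc : c ≠ 0) (hns : ¬ IsSquare c) :
    ∃ t : E, t * t * c = c ^ Fintype.card F ∧ t ^ Fintype.card F * t = -1 := by
  have hodd := odd_of_two_ne_zero h2
  have hch : ringChar E ≠ 2 := by
    intro h4
    apply two_E (E := E) h2
    have := ringChar.Nat.cast_ringChar (R := E)
    rw [h4] at this
    exact_mod_cast this
  have h1 : c ^ (Fintype.card E / 2) = -1 := by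
    rcases FiniteField.pow_dichotomy hch hc with h | h
    · exact absurd ((FiniteField.isSquare_iff hch hc).mpr h) hns
    · exact h
  rw [card_E hE] at h1
  obtain ⟨k, hk⟩ := hodd
  rw [hk] at h1 ⊢
  have h5 : (2 * k + 1) ^ 2 / 2 = k * (2 * k + 1) + k := by
    have : (2 * k + 1) ^ 2 = 2 * (k * (2 * k + 1) + k) + 1 := by ring
    omega
  rw [h5] at h1
  refine ⟨c ^ k, ?_, ?_⟩
  · rw [← pow_add, ← pow_succ]
    congr 1
    ring
  · rw [← pow_mul, ← pow_add, h1]

/-- existence of semilinear square roots of `-1` -/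
theorem exists_Y0 (hE : finrank F E = 2) (h2 : (2 : F) ≠ 0) (hR : ∀ v, Q v = Algebra.trace F E (QE v)) (σ : E →+* E) (hσ : ∀ a, σ a = a ^ Fintype.card F)
    (n : ℕ) : ∀ W : Submodule E V, Nd QE W → finrank E W = n → (PT Q (W.restrictScalars F) ↔ (IsSquare (-1 : F) ∨ Even n)) →
      ∃ Y : V → V, (∀ v ∈ W, Y v ∈ W) ∧ (∀ u ∈ W, ∀ v ∈ W, Y (u + v) = Y u + Y v) ∧ (∀ a : E, ∀ v ∈ W, Y (a • v) = σ a • Y v) ∧
        (∀ v ∈ W, QE (Y v) = σ (QE v)) ∧ (∀ v ∈ W, Y (Y v) = -v) ∧ (1 ≤ n → ∃ v ∈ W, QE v ≠ 0 ∧ ∃ t : E, Y v = t • v) := by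
  have hl : Algebra.trace F E ≠ 0 := Algebra.trace_ne_zero F E
  induction n with
  | zero =>
    intro W _ hd _
    have hW : W = ⊥ := Submodule.finrank_eq_zero.mp hd
    subst hW
    refine ⟨fun _ => 0, fun v _ => Submodule.zero_mem _, fun _ _ _ _ => (add_zero _).symm, fun a _ _ => (smul_zero _).symm, fun v hv => ?_, fun v hv => ?_, fun h => absurd h (by omega)⟩
    · rw [(Submodule.mem_bot E).mp hv, map_zero, map_zero]
    · rw [(Submodule.mem_bot E).mp hv, neg_zero]
  | succ n ih =>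
    intro W hW hd hT
    -- a vector with nonsquare norm
    obtain ⟨v, hv, hc0, hns⟩ : ∃ v ∈ W, QE v ≠ 0 ∧ ¬ IsSquare (QE v) := by
      rcases Nat.eq_zero_or_pos n with hn | hn
      · subst hn
        have hnt : Nontrivial W := Module.nontrivial_of_finrank_pos (R := E) (by omega)
        obtain ⟨v, hv⟩ := exists_q_ne_zero (nd_restrict hW) hnt
        have hv' : QE (v : V) ≠ 0 := hv
        refine ⟨v, v.2, hv', ?_⟩
        have hWv : Submodule.span E {(v : V)} = W := by
          apply Submodule.eq_of_le_of_finrank_eq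
          · rw [Submodule.span_le, Set.singleton_subset_iff]; exact v.2
          · rw [finrank_span_singleton (ne_zero_of_QE hv'), hd]
        rw [← hWv, plane_pt hE h2 hR hv'] at hT
        have : ¬ Even (0 + 1) := by decide
        tauto
      · obtain ⟨ν, hν, hν'⟩ := exists_not_sq (F := F) (E := E) h2
        obtain ⟨v, hv, hvν⟩ := exists_val_in hW (by omega) ν
        exact ⟨v, hv, by rw [hvν]; exact hν, by rw [hvν]; exact hν'⟩
    set L := Submodule.span E {v} with hL
    have hLN : Nd QE L := nd_line (F := F) h2 hc0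
    have hLW : L ≤ W := by rw [hL, Submodule.span_le, Set.singleton_subset_iff]; exact hv
    have hvL : v ∈ L := Submodule.mem_span_singleton_self v
    have g1 := H99.split_ND_compl (H39.OE.of QE) hW hLN hLW
    have g2 := H99.split_ND (H39.OE.of QE) hLN hLW
    have g3 := H99.split_finrank (H39.OE.of QE) hLN hLW
    have hLd : finrank E L = 1 := finrank_span_singleton (ne_zero_of_QE hc0)
    set W' := W ⊓ H99.orth (H39.OE.of QE) L with hW'
    have hd' : finrank E W' = n := by omega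
    have hT' : PT Q (W'.restrictScalars F) ↔ (IsSquare (-1 : F) ∨ Even n) := by
      have h3 : PT Q (W.restrictScalars F) ↔ (PT Q (L.restrictScalars F) ↔ PT Q (W'.restrictScalars F)) := by
        conv_lhs => rw [← g2, sup_rs]
        exact PT_iff_sub (nd_rs hl hR hLN) (nd_rs hl hR g1) (fun u hu w hw => by
          rw [polar_tr hR, pc]
          have : polar QE w u = 0 := hw.2 u hu
          rw [this, map_zero]) (by rw [finrank_rs, hE]; exact even_two_mul _) (by rw [finrank_rs, hE]; exact even_two_mul _)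
      rw [hT, plane_pt hE h2 hR hc0] at h3
      have h4 : Even (n + 1) ↔ ¬ Even n := Nat.even_add_one
      rw [h4] at h3
      tauto
    obtain ⟨Y', y1, y2, y3, y4, y5, -⟩ := ih W' g1 hd' hT'
    obtain ⟨t, t1, t2⟩ := exists_lam hE h2 hc0 hns
    have h2E := two_E (E := E) h2
    -- the coordinate
    obtain ⟨β, hβ⟩ : ∃ β : V →ₗ[E] E, ∀ u, β u = (2 * QE v)⁻¹ * polar QE u v := by
      refine ⟨{ toFun := fun u => (2 * QE v)⁻¹ * polar QE u v, map_add' := fun a b => by rw [pal]; ring, map_smul' := fun a b => by rw [psl, RingHom.id_apply, smul_eq_mul]; ring }, fun _ => rfl⟩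
    have hβv : β v = 1 := by rw [hβ, pself]; exact inv_mul_cancel₀ (mul_ne_zero h2E hc0)
    have hβW' : ∀ u ∈ W', β u = 0 := by
      intro u hu
      have : polar QE u v = 0 := hu.2 v hvL
      rw [hβ, this, mul_zero]
    have hW'v : ∀ u ∈ W', polar QE v u = 0 := by
      intro u hu
      rw [pc]; exact hu.2 v hvL
    have hsub : ∀ u ∈ W, u - β u • v ∈ W' := by
      intro u hu
      refine ⟨W.sub_mem hu (W.smul_mem _ hv), ?_⟩
      intro w hw
      obtain ⟨b, rfl⟩ := Submodule.mem_span_singleton.mp hw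
      change polar QE (u - β u • v) (b • v) = 0
      rw [psr, pdl, psl, hβ, pself]
      have : (2 * QE v)⁻¹ * polar QE u v * (2 * QE v) = polar QE u v := by
        field_simp
      rw [this, sub_self, mul_zero]
    have hdec : ∀ (b : E), ∀ u ∈ W', β (b • v + u) = b ∧ (b • v + u) - β (b • v + u) • v = u := by
      intro b u hu
      have h3 : β (b • v + u) = b := by rw [map_add, map_smul, hβv, hβW' u hu, smul_eq_mul, mul_one, add_zero]
      exact ⟨h3, by rw [h3]; abel⟩
    let Y : V → V := fun u => (σ (β u) * t) • v + Y' (u - β u • v)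
    have hY : ∀ u, Y u = (σ (β u) * t) • v + Y' (u - β u • v) := fun _ => rfl
    have hYdec : ∀ (b : E), ∀ u ∈ W', Y (b • v + u) = (σ b * t) • v + Y' u := by
      intro b u hu
      obtain ⟨h3, h4⟩ := hdec b u hu
      rw [hY, h4, h3]
    have hrep : ∀ u ∈ W, ∃ b : E, ∃ w ∈ W', b • v + w = u := fun u hu => ⟨β u, _, hsub u hu, by abel⟩
    refine ⟨Y, ?_, ?_, ?_, ?_, ?_, fun _ => ⟨v, hv, hc0, t, ?_⟩⟩
    · intro u hu
      obtain ⟨b, w, hw, rfl⟩ := hrep u hu
      rw [hYdec b w hw]
      exact W.add_mem (W.smul_mem _ hv) (y1 w hw).1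
    · intro u hu u' hu'
      obtain ⟨b, w, hw, rfl⟩ := hrep u hu
      obtain ⟨b', w', hw', rfl⟩ := hrep u' hu'
      have e : b • v + w + (b' • v + w') = (b + b') • v + (w + w') := by rw [add_smul]; abel
      rw [e, hYdec _ _ (W'.add_mem hw hw'), hYdec b w hw, hYdec b' w' hw', y2 w hw w' hw', map_add, add_mul, add_smul]
      abel
    · intro a u hu
      obtain ⟨b, w, hw, rfl⟩ := hrep u hu
      have e : a • (b • v + w) = (a * b) • v + a • w := by rw [smul_add, smul_smul]
      rw [e, hYdec _ _ (W'.smul_mem a hw), hYdec b w hw, y3 a w hw, smul_add, smul_smul, _root_.map_mul, mul_assoc]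
    · intro u hu
      obtain ⟨b, w, hw, rfl⟩ := hrep u hu
      rw [hYdec b w hw, qadd, qadd, psl, psl, hW'v _ (y1 w hw), hW'v w hw, mul_zero, mul_zero, add_zero, add_zero, y4 w hw, qsmul, qsmul, map_add, _root_.map_mul, _root_.map_mul, hσ (QE v), ← t1]
      ring
    · intro u hu
      obtain ⟨b, w, hw, rfl⟩ := hrep u hu
      rw [hYdec b w hw, hYdec _ _ (y1 w hw), y5 w hw, _root_.map_mul]
      have e1 : σ (σ b) = b := by
        rw [hσ, hσ, ← pow_mul, ← pow_two, ← card_E hE, FiniteField.pow_card]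
      have e2 : σ t * t = -1 := by rw [hσ]; exact t2
      rw [e1, mul_assoc, e2, mul_neg, mul_one, neg_smul, neg_add]
    · have h3 := hYdec 1 0 W'.zero_mem
      rw [one_smul, add_zero, map_one, one_mul] at h3
      have h4 : Y' 0 = 0 := by
        have := y2 0 W'.zero_mem 0 W'.zero_mem
        rw [add_zero] at this
        exact left_eq_add.mp this
      rw [h3, h4, add_zero]

/-- existence of a semilinear square root of `-1` in the orthogonal group -/
theorem exists_Y (hE : finrank F E = 2) (h2 : (2 : F) ≠ 0) (hR : ∀ v, Q v = Algebra.trace F E (QE v)) (hQ : (polarBilin Q).Nondegenerate)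
    (σ : E →ₐ[F] E) (hσ : ∀ a, σ a = a ^ Fintype.card F) (hd : 1 ≤ finrank E V) (hT : PT Q ⊤ ↔ (IsSquare (-1 : F) ∨ Even (finrank E V))) :
    ∃ y : OGrp Q, (∀ (a : E) v, (y : V ≃ₗ[F] V) (a • v) = σ a • (y : V ≃ₗ[F] V) v) ∧ (∀ v, (y : V ≃ₗ[F] V) ((y : V ≃ₗ[F] V) v) = -v) ∧
      ∃ v, QE v ≠ 0 ∧ ∃ t : E, (y : V ≃ₗ[F] V) v = t • v := by
  obtain ⟨Y, y1, y2, y3, y4, y5, y6⟩ := exists_Y0 hE h2 hR (σ : E →+* E) hσ (finrank E V) ⊤ (nd_of_nondeg (nondeg_QE hR hQ)) (finrank_top E V)
    (by rw [Submodule.restrictScalars_top]; exact hT)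
  obtain ⟨v, -, hv, t, ht⟩ := y6 hd
  obtain ⟨YL, hYL⟩ : ∃ YL : V →ₗ[F] V, ∀ u, YL u = Y u := by
    refine ⟨{ toFun := Y, map_add' := fun a b => y2 a Submodule.mem_top b Submodule.mem_top, map_smul' := fun c a => ?_ }, fun _ => rfl⟩
    have h3 := y3 (algebraMap F E c) a Submodule.mem_top
    rw [algebraMap_smul] at h3
    rw [h3, RingHom.id_apply]
    change σ (algebraMap F E c) • Y a = c • Y a
    rw [AlgHom.commutes, algebraMap_smul]
  have hiso : ∀ u, Q (YL u) = Q u := by
    intro u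
    rw [hYL, hR, hR, y4 u Submodule.mem_top]
    change Algebra.trace F E (σ (QE u)) = _
    rw [hσ]
    exact Cfsg.Agent.Orth.trace_conj (card_E hE) rfl (QE u)
  have hinj := injective_of_isom hQ hiso
  refine ⟨⟨LinearEquiv.ofInjectiveEndo YL hinj, fun u => hiso u⟩, fun a u => ?_, fun u => ?_, v, hv, t, ?_⟩
  · change YL (a • u) = σ a • YL u
    rw [hYL, hYL, y3 a u Submodule.mem_top]
    rfl
  · change YL (YL u) = -u
    rw [hYL, hYL, y5 u Submodule.mem_top]
  · change YL v = t • v
    rw [hYL, ht]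

end Y

end Cfsg.Agent.H43.FO
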