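import Mathlib
import Cfsg.Agent.H43.FO5
/-!
# Square roots of `-1` and field extension subgroups
-/
set_option autoImplicit false
set_option linter.unusedSectionVars false
set_option linter.unusedVariables false

namespace Cfsg.Agent.H43.FO

open Module QuadraticMap Cfsg.Agent.Orth Cfsg.Agent.H39.OE

section Y
variable {F E V : Type*} [Field F] [Fintype F] [Field E] [Fintype E] [Algebra F E] [AddCommGroup V] [Module F V] [Module E V] [IsScalarTower F E V]
  [FiniteDimensional F V] [FiniteDimensional E V]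
variable {Q : QuadraticForm F V} {QE : QuadraticForm E V}

theorem refl_semi (hE : finrank F E = 2) (h2 : (2 : F) ≠ 0) (hR : ∀ v, Q v = Algebra.trace F E (QE v))
    (σ : E →ₐ[F] E) (y : OGrp Q) (hsemi : ∀ (a : E) v, (y : V ≃ₗ[F] V) (a • v) = σ a • (y : V ≃ₗ[F] V) v)
    (hyy : ∀ v, (y : V ≃ₗ[F] V) ((y : V ≃ₗ[F] V) v) = -v) {v : V} (hv : QE v ≠ 0) {t : E} (ht : (y : V ≃ₗ[F] V) v = t • v)
    {a₀ : E} (hw : Q (a₀ • v) ≠ 0) (a : E) (u : V) :
    ((refl Q _ hw * y * refl Q _ hw : OGrp Q) : V ≃ₗ[F] V) (a • u) = σ a • ((refl Q _ hw * y * refl Q _ hw : OGrp Q) : V ≃ₗ[F] V) u := by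
  set w := a₀ • v with hwd
  set L := Submodule.span E {v} with hL
  have hvL : v ∈ L := Submodule.mem_span_singleton_self v
  have hyw : (y : V ≃ₗ[F] V) w ∈ L := by
    rw [hwd, hsemi, ht]
    exact L.smul_mem _ (L.smul_mem _ hvL)
  have hwL : w ∈ L := L.smul_mem _ hvL
  have hJ : polar Q w ((y : V ≃ₗ[F] V) w) = 0 := polar_J h2 (x := ((y : V ≃ₗ[F] V) : V →ₗ[F] V)) (fun v => OGrp_q y v) hyy w
  have hO : IsOrth Q ![w, (y : V ≃ₗ[F] V) w] := by
    constructor
    · intro i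
      fin_cases i
      · exact hw
      · change Q ((y : V ≃ₗ[F] V) w) ≠ 0
        rw [OGrp_q]; exact hw
    · intro i j hij
      fin_cases i <;> fin_cases j
      · exact absurd rfl hij
      · exact hJ
      · change polar Q ((y : V ≃ₗ[F] V) w) w = 0
        rw [pc]; exact hJ
      · exact absurd rfl hij
  have hspan : Submodule.span F (Set.range ![w, (y : V ≃ₗ[F] V) w]) = L.restrictScalars F := by
    apply Submodule.eq_of_le_of_finrank_eq
    · rw [Submodule.span_le]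
      rintro _ ⟨i, rfl⟩
      fin_cases i
      · exact hwL
      · exact hyw
    · rw [hO.finrank h2, Fintype.card_fin, finrank_line hE hv]
  have z1 : ∀ u ∈ L, ((refl Q _ hw * y * refl Q _ hw : OGrp Q) : V ≃ₗ[F] V) u = -(y : V ≃ₗ[F] V) u := by
    intro u hu
    have hu' : u ∈ Submodule.span F (Set.range ![w, (y : V ≃ₗ[F] V) w]) := by rw [hspan]; exact hu
    obtain ⟨c, hc⟩ := (Submodule.mem_span_range_iff_exists_fun F).mp hu'
    rw [Fin.sum_univ_two] at hc
    have hc' : c 0 • w + c 1 • (y : V ≃ₗ[F] V) w = u := hc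
    rw [refl_conj_J h2 y hyy hw, ← map_neg]
    congr 1
    have e1 : polar Q u w = 2 * c 0 * Q w := by
      rw [← hc', pal, psl, psl, pself, pc Q ((y : V ≃ₗ[F] V) w), hJ]; ring
    have e2 : polar Q u ((y : V ≃ₗ[F] V) w) = 2 * c 1 * Q w := by
      rw [← hc', pal, psl, psl, pself, hJ, OGrp_q]; ring
    rw [e1, e2]
    have e3 : (Q w)⁻¹ * (2 * c 0 * Q w) = 2 * c 0 := by field_simp
    have e4 : (Q w)⁻¹ * (2 * c 1 * Q w) = 2 * c 1 := by field_simp
    rw [e3, e4, mul_smul, mul_smul, ← smul_add, hc', two_smul]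
    abel
  have z2 : ∀ u, polar QE u v = 0 → ((refl Q _ hw * y * refl Q _ hw : OGrp Q) : V ≃ₗ[F] V) u = (y : V ≃ₗ[F] V) u := by
    intro u hu
    have hL0 : ∀ z ∈ L, polar Q u z = 0 := by
      intro z hz
      obtain ⟨b, rfl⟩ := Submodule.mem_span_singleton.mp hz
      rw [polar_tr hR, psr, hu, mul_zero, map_zero]
    rw [refl_conj_J h2 y hyy hw, hL0 w hwL, hL0 _ hyw, mul_zero, zero_smul, zero_smul, add_zero, sub_zero]
  have h2E := two_E (E := E) h2
  obtain ⟨b, u', hu', rfl⟩ : ∃ (b : E) (u' : V), polar QE u' v = 0 ∧ b • v + u' = u := by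
    refine ⟨(2 * QE v)⁻¹ * polar QE u v, u - ((2 * QE v)⁻¹ * polar QE u v) • v, ?_, by abel⟩
    rw [pdl, psl, pself]
    have : (2 * QE v)⁻¹ * polar QE u v * (2 * QE v) = polar QE u v := by field_simp
    rw [this, sub_self]
  rw [smul_add, map_add, map_add, z1 _ (L.smul_mem b hvL), z1 _ (L.smul_mem a (L.smul_mem b hvL)), z2 u' hu', z2 (a • u') (by rw [psl, hu', mul_zero]),
    hsemi a, hsemi a, smul_add, smul_neg]

theorem back_neg (hE : finrank F E = 2) (h2 : (2 : F) ≠ 0) (hR : ∀ v, Q v = Algebra.trace F E (QE v)) (hQ : (polarBilin Q).Nondegenerate)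
    (hRG : RGrp Q = ⊤) (σ : E →ₐ[F] E) (hσ : ∀ a, σ a = a ^ Fintype.card F) {d : ℕ} (hd : finrank F V = 2 * d) (hEd : finrank E V = d) (hd1 : 1 ≤ d)
    (x : OGrp Q) (hxx : ∀ v, (x : V ≃ₗ[F] V) ((x : V ≃ₗ[F] V) v) = -v) :
    ∃ g ∈ commutator (OGrp Q), ∀ (a : E) v, ((g⁻¹ * x * g : OGrp Q) : V ≃ₗ[F] V) (a • v) = σ a • ((g⁻¹ * x * g : OGrp Q) : V ≃ₗ[F] V) v := by
  have hl : Algebra.trace F E ≠ 0 := Algebra.trace_ne_zero F E
  have hT : PT Q ⊤ ↔ (IsSquare (-1 : F) ∨ Even d) := by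
    obtain ⟨k, k1, k2, -⟩ := J_type h2 (x := ((x : V ≃ₗ[F] V) : V →ₗ[F] V)) (fun v => OGrp_q x v) hxx (2 * d) ⊤ (fun _ _ => Submodule.mem_top) (nd_of_nondeg hQ) (by rw [finrank_top, hd])
    have hkd : k = d := by omega
    rw [hkd] at k2
    exact k2
  obtain ⟨y, hsemi, hyy, v, hv, t, ht⟩ := exists_Y hE h2 hR hQ σ hσ (by omega) (by rw [hEd]; exact hT)
  obtain ⟨h, hh⟩ := exists_conj_J h2 hQ hd x y hxx hyy
  obtain ⟨a₀, hw⟩ : ∃ a₀ : E, Q (a₀ • v) ≠ 0 := by
    have hN := nd_restrict (nd_rs (F := F) hl hR (nd_line (F := F) h2 hv))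
    have hnt : Nontrivial ((Submodule.span E {v}).restrictScalars F) := Module.nontrivial_of_finrank_pos (R := F) (by rw [finrank_line hE hv]; omega)
    obtain ⟨w, hw⟩ := exists_q_ne_zero hN hnt
    obtain ⟨b, hb⟩ := Submodule.mem_span_singleton.mp (show (w : V) ∈ Submodule.span E {v} from w.2)
    exact ⟨b, by rw [hb]; exact hw⟩
  -- parity
  obtain ⟨l₀, hl₀⟩ := exists_reflProd hRG h
  obtain ⟨l, y₁, hle, hy₁, hly⟩ : ∃ (l : List {v : V // Q v ≠ 0}) (y₁ : OGrp Q), Even l.length ∧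
      (∀ (a : E) v, (y₁ : V ≃ₗ[F] V) (a • v) = σ a • (y₁ : V ≃ₗ[F] V) v) ∧ reflProd Q l * y₁ = x * reflProd Q l := by
    rcases Nat.even_or_odd l₀.length with he | ho
    · exact ⟨l₀, y, he, hsemi, by rw [hl₀]; exact hh⟩
    · refine ⟨l₀ ++ [⟨a₀ • v, hw⟩], refl Q _ hw * y * refl Q _ hw, ?_, fun a u => refl_semi hE h2 hR σ y hsemi hyy hv ht hw a u, ?_⟩
      · rw [List.length_append]
        exact Odd.add_one ho
      · have e1 : reflProd Q (l₀ ++ [⟨a₀ • v, hw⟩]) = h * refl Q _ hw := by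
          rw [reflProd_append, hl₀, reflProd_cons, reflProd_nil, mul_one]
        rw [e1]
        calc h * refl Q _ hw * (refl Q _ hw * y * refl Q _ hw) = h * (refl Q _ hw * refl Q _ hw) * y * refl Q _ hw := by simp only [mul_assoc]
          _ = x * (h * refl Q _ hw) := by rw [refl_mul_self, mul_one, hh, mul_assoc]
  have hfin : ∀ g : OGrp Q, g * y₁ = x * g → g⁻¹ * x * g = y₁ := by
    intro g hg
    rw [mul_assoc, ← hg, inv_mul_cancel_left]
  by_cases hs : IsSquare (nrm Q l)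
  · refine ⟨reflProd Q l, reflProd_mem_commutator hQ hle hs, ?_⟩
    rw [hfin _ hly]
    exact hy₁
  · obtain ⟨v', hv', hc, hns⟩ := exists_comm_J h2 x hxx hw
    refine ⟨reflProd Q (⟨_, hw⟩ :: ⟨v', hv'⟩ :: l), reflProd_mem_commutator hQ (by
      rw [List.length_cons, List.length_cons]
      obtain ⟨m, hm⟩ := hle
      exact ⟨m + 1, by omega⟩) (by
      rw [nrm_cons, nrm_cons, ← mul_assoc]
      exact isSquare_mul_of_not hns hs), ?_⟩
    rw [hfin _ (by
      rw [reflProd_cons, reflProd_cons]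
      calc refl Q _ hw * (refl Q _ hv' * reflProd Q l) * y₁ = (refl Q _ hw * refl Q _ hv') * (reflProd Q l * y₁) := by simp only [mul_assoc]
        _ = (refl Q _ hw * refl Q _ hv') * x * reflProd Q l := by rw [hly]; simp only [mul_assoc]
        _ = x * (refl Q _ hw * (refl Q _ hv' * reflProd Q l)) := by rw [hc]; simp only [mul_assoc])]
    exact hy₁

end Y

end Cfsg.Agent.H43.FO
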