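import Mathlib
import Cfsg.Agent.H43.FO2
import Cfsg.Agent.OrthCount.Orders
import Cfsg.Agent.Orth.HermQuad
/-!
# Types and orders over the extension
-/
set_option autoImplicit false
set_option linter.unusedSectionVars false
set_option linter.unusedVariables false

namespace Cfsg.Agent.H43.FO

open Module QuadraticMap Cfsg.Agent.Orth Cfsg.Agent.H39.OE

section types
variable {F E V : Type*} [Field F] [Fintype F] [Field E] [Fintype E] [Algebra F E] [AddCommGroup V] [Module F V] [Module E V] [IsScalarTower F E V]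
  [FiniteDimensional F V] [FiniteDimensional E V]
variable {Q : QuadraticForm F V} {QE : QuadraticForm E V}

theorem pt_up (hR : ∀ v, Q v = Algebra.trace F E (QE v)) {W : Submodule E V} (h : PT QE W) : PT Q (W.restrictScalars F) := by
  obtain ⟨U, hU, hTS, hd⟩ := h
  refine ⟨U.restrictScalars F, hU, fun u hu => ?_, ?_⟩
  · rw [hR, hTS u hu, map_zero]
  · rw [finrank_rs, finrank_rs, ← hd]; ring

theorem pt_down_plane (hE : finrank F E = 2) (h2 : (2 : F) ≠ 0) (hR : ∀ v, Q v = Algebra.trace F E (QE v)) {P : Submodule E V} (hP : Nd QE P)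
    (hd : finrank E P = 2) (h : PT Q (P.restrictScalars F)) : PT QE P := by
  have hl : Algebra.trace F E ≠ 0 := Algebra.trace_ne_zero F E
  have h2E := two_E (E := E) h2
  obtain ⟨v, hv, hv0⟩ : ∃ v ∈ P, QE v ≠ 0 := by
    obtain ⟨v, hv, hv1⟩ := exists_val_in hP (by omega) 1
    exact ⟨v, hv, by rw [hv1]; exact one_ne_zero⟩
  set L := Submodule.span E {v} with hL
  have hLN : Nd QE L := nd_line (F := F) h2 hv0
  have hLP : L ≤ P := by rw [hL, Submodule.span_le, Set.singleton_subset_iff]; exact hv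
  have hvL : v ∈ L := Submodule.mem_span_singleton_self v
  have hLd : finrank E L = 1 := finrank_span_singleton (ne_zero_of_QE hv0)
  have g1 := H99.split_ND_compl (H39.OE.of QE) hP hLN hLP
  have g2 := H99.split_ND (H39.OE.of QE) hLN hLP
  have g3 := H99.split_finrank (H39.OE.of QE) hLN hLP
  set L' := P ⊓ H99.orth (H39.OE.of QE) L with hL'
  have hL'd : finrank E L' = 1 := by omega
  have hnt : Nontrivial L' := Module.nontrivial_of_finrank_pos (R := E) (by omega)
  obtain ⟨w, hw⟩ := exists_q_ne_zero (nd_restrict g1) hnt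
  have hw0 : QE (w : V) ≠ 0 := hw
  have hLw : Submodule.span E {(w : V)} = L' := by
    apply Submodule.eq_of_le_of_finrank_eq
    · rw [Submodule.span_le, Set.singleton_subset_iff]; exact w.2
    · rw [finrank_span_singleton (ne_zero_of_QE hw0), hL'd]
  have h3 : PT Q (P.restrictScalars F) ↔ (PT Q (L.restrictScalars F) ↔ PT Q (L'.restrictScalars F)) := by
    conv_lhs => rw [← g2, sup_rs]
    exact PT_iff_sub (nd_rs hl hR hLN) (nd_rs hl hR g1) (fun u hu w hw => by
      rw [polar_tr hR, pc]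
      have : polar QE w u = 0 := hw.2 u hu
      rw [this, map_zero]) (by rw [finrank_rs, hE]; exact even_two_mul _) (by rw [finrank_rs, hE]; exact even_two_mul _)
  rw [← hLw, plane_pt hE h2 hR hv0, plane_pt hE h2 hR hw0] at h3
  have h4 : IsSquare (QE v) ↔ IsSquare (QE (w : V)) := by tauto
  have h5 : IsSquare (QE v * QE (w : V)) := by
    by_cases hs : IsSquare (QE v)
    · rw [isSquare_mul_iff_of_sq hs hv0]; exact h4.mp hs
    · rw [isSquare_mul_iff_of_not hs hw0]; rwa [← h4]
  obtain ⟨s, hs⟩ := h5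
  obtain ⟨i, hi⟩ := neg_one_sq_E (F := F) (E := E) hE h2
  have hvw : polar QE v (w : V) = 0 := by rw [pc]; exact w.2.2 v hvL
  have hz0 : QE ((i * s) • v + (QE v) • (w : V)) = 0 := by
    rw [qadd, qsmul, qsmul, psl, psr, hvw]
    linear_combination (-(s * s) * QE v) * hi + (QE v) * hs
  have hzne : (i * s) • v + (QE v) • (w : V) ≠ 0 := by
    intro h0
    have h6 : polar QE ((i * s) • v + (QE v) • (w : V)) (w : V) = 0 := by rw [h0, polar_zero_left]
    rw [pal, psl, psl, hvw, pself, mul_zero, zero_add] at h6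
    exact (mul_ne_zero hv0 (mul_ne_zero h2E hw0)) h6
  refine ⟨Submodule.span E {(i * s) • v + (QE v) • (w : V)}, ?_, ?_, ?_⟩
  · rw [Submodule.span_le, Set.singleton_subset_iff]
    exact P.add_mem (P.smul_mem _ hv) (P.smul_mem _ w.2.1)
  · intro u hu
    obtain ⟨b, rfl⟩ := Submodule.mem_span_singleton.mp hu
    rw [qsmul, hz0, mul_zero]
  · rw [finrank_span_singleton hzne, hd]

theorem pt_iff_E (hE : finrank F E = 2) (h2 : (2 : F) ≠ 0) (hR : ∀ v, Q v = Algebra.trace F E (QE v)) (hQ : (polarBilin Q).Nondegenerate)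
    {m : ℕ} (hm : 1 ≤ m) (hd : finrank E V = 2 * m) : PT Q ⊤ ↔ PT QE ⊤ := by
  have hl : Algebra.trace F E ≠ 0 := Algebra.trace_ne_zero F E
  constructor
  · intro h
    obtain ⟨H, P, -, -, hH, hP, ho, hs, hHt, hPd⟩ := exists_split_plane (a := m - 1) (nd_of_nondeg (nondeg_QE hR hQ)) (by rw [finrank_top]; omega)
    have hHd : Even (finrank E H) := by
      have := finrank_sup_disj (disj_of_orth hH ho)
      rw [hs, finrank_top] at this
      exact ⟨m - 1, by omega⟩
    have h1 : PT Q (H.restrictScalars F ⊔ P.restrictScalars F) ↔ _ := PT_iff_sub (nd_rs hl hR hH) (nd_rs hl hR hP) (fun u hu w hw => by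
      rw [polar_tr hR, ho u hu w hw, map_zero]) (by rw [finrank_rs, hE]; exact even_two_mul _) (by rw [finrank_rs, hE]; exact even_two_mul _)
    rw [← sup_rs, hs, Submodule.restrictScalars_top] at h1
    have h3 : PT Q (P.restrictScalars F) := (h1.mp h).mp (pt_up hR hHt)
    have h4 := pt_down_plane hE h2 hR hP hPd h3
    rw [← hs]
    exact (PT_iff_sub hH hP ho hHd (by rw [hPd]; decide)).mpr ⟨fun _ => h4, fun _ => hHt⟩
  · intro h
    have := pt_up hR h
    rwa [Submodule.restrictScalars_top] at this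

end types

section orders
variable {F V : Type*} [Field F] [Fintype F] [AddCommGroup V] [Module F V] [FiniteDimensional F V] {Q : QuadraticForm F V}

theorem card_plus {m : ℕ} (hm : 1 ≤ m) (hV : finrank F V = 2 * m) (hQ : (polarBilin Q).Nondegenerate) (h : PT Q ⊤) :
    Nat.card (OGrp Q) = 2 * Fintype.card F ^ (m * (m - 1)) * (Fintype.card F ^ m - 1) * ∏ i ∈ Finset.range (m - 1), (Fintype.card F ^ (2 * (i + 1)) - 1) := by
  obtain ⟨U, -, hU, hUd⟩ := h
  obtain ⟨g, hg⟩ := exists_isom_plus hm hV hQ hU (by rw [finrank_top] at hUd; omega)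
  rw [Nat.card_congr (OGrpCongr g hg).toEquiv, card_OGrp, coe_qfPlus, OrthCount.order_plus m hm, Nat.card_eq_fintype_card]

theorem card_minus {m : ℕ} (hm : 1 ≤ m) (hV : finrank F V = 2 * m) (hQ : (polarBilin Q).Nondegenerate) (h : ¬ PT Q ⊤) :
    Nat.card (OGrp Q) = 2 * Fintype.card F ^ (m * (m - 1)) * (Fintype.card F ^ m + 1) * ∏ i ∈ Finset.range (m - 1), (Fintype.card F ^ (2 * (i + 1)) - 1) := by
  rcases classify_even hm hV hQ with ⟨g, hg⟩ | ⟨ζ, h0, g, hg⟩
  · exfalso
    apply h
    refine ⟨(U0 m F).map (g.symm : (Fin m ⊕ Fin m → F) →ₗ[F] V), le_top,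
        (TS_U0 m F).map_isom g.symm (fun v => by rw [← hg, g.apply_symm_apply]), ?_⟩
    rw [LinearEquiv.finrank_map_eq, finrank_U0, finrank_top, hV]
  · rw [Nat.card_congr (OGrpCongr g hg).toEquiv, card_OGrp, coe_qfMinus,
      OrthCount.order_minus (F := F) (m - 1) (a := 1) (b := ζ) (OrthCount.aniso_of (aniso_of_root h0)), Nat.card_eq_fintype_card, show m - 1 + 1 = m by omega]

theorem card_odd (h2 : (2 : F) ≠ 0) {m : ℕ} (hV : finrank F V = 2 * m + 1) (hQ : (polarBilin Q).Nondegenerate) :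
    Nat.card (OGrp Q) = 2 * Fintype.card F ^ (m ^ 2) * ∏ i ∈ Finset.range m, (Fintype.card F ^ (2 * (i + 1)) - 1) := by
  classical
  let b := finBasisOfFinrankEq F V hV
  let b' := Pi.basisFun F (Unit ⊕ (Fin m ⊕ Fin m))
  have hnd := qfOdd_nondegenerate m F h2
  set δ := (gram Q b).det * (gram (qfOdd m F) b').det with hδ
  have hδ0 : δ ≠ 0 := mul_ne_zero (gram_det_ne_zero hQ b) (gram_det_ne_zero hnd b')
  have hpb : ∀ u v, polar (δ • Q) u v = δ * polar Q u v := by
    intro u v
    simp only [QuadraticMap.polar, QuadraticMap.smul_apply, smul_eq_mul]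
    ring
  have hnd' : (polarBilin (δ • Q)).Nondegenerate := by
    refine ⟨fun u hu => hQ.1 u fun w => ?_, fun u hu => hQ.2 u fun w => ?_⟩
    · have h1 : polar (δ • Q) u w = 0 := hu w
      rw [hpb] at h1
      exact (mul_eq_zero.1 h1).resolve_left hδ0
    · have h1 : polar (δ • Q) w u = 0 := hu w
      rw [hpb] at h1
      exact (mul_eq_zero.1 h1).resolve_left hδ0
  have hg : gram (δ • Q) b = δ • gram Q b := by
    ext u v
    exact hpb _ _
  obtain ⟨L, hL⟩ := exists_isom_of_disc h2 hnd' hnd (by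
    rw [hV, Module.finrank_fintype_fun_eq_card]; simp; omega) b b' (by
    rw [hg, Matrix.det_smul, Fintype.card_fin, mul_assoc, ← hδ]
    exact ⟨δ ^ (m + 1), by ring⟩)
  have h3 : OGrp (δ • Q) = OGrp Q := by
    ext g
    rw [mem_OGrp, mem_OGrp]
    constructor
    · intro h v
      have := h v
      rw [QuadraticMap.smul_apply, QuadraticMap.smul_apply, smul_eq_mul, smul_eq_mul] at this
      exact mul_left_cancel₀ hδ0 this
    · intro h v
      rw [QuadraticMap.smul_apply, QuadraticMap.smul_apply, h v]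
  rw [← h3, Nat.card_congr (OGrpCongr L hL).toEquiv, card_OGrp, coe_qfOdd, OrthCount.order_odd h2, Nat.card_eq_fintype_card]

end orders

end Cfsg.Agent.H43.FO
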