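import Mathlib
import Cfsg.Agent.H43.FO7
/-!
# Field extension subgroups of orthogonal groups: elements of odd prime order
-/
set_option autoImplicit false
set_option linter.unusedSectionVars false
set_option linter.unusedVariables false

namespace Cfsg.Agent.H43.FO

open Module QuadraticMap Cfsg.Agent.Orth Cfsg.Agent.H39.OE Cfsg.Agent.H43.FExt

section cmp
variable {F E V : Type*} [Field F] [Fintype F] [Field E] [Fintype E] [Algebra F E] [AddCommGroup V] [Module F V] [Module E V] [IsScalarTower F E V]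
  [FiniteDimensional F V] [FiniteDimensional E V]
variable {Q : QuadraticForm F V} {QE : QuadraticForm E V}

theorem order_cmp (hE : finrank F E = 2) (h2 : (2 : F) ≠ 0) (hR : ∀ v, Q v = Algebra.trace F E (QE v)) (hQ : (polarBilin Q).Nondegenerate)
    {d : ℕ} (hd1 : 1 ≤ d) (hd : finrank F V = 2 * d) (hEd : finrank E V = d) {r : ℕ} [Fact r.Prime] (hr2 : r ≠ 2) (hrq : ¬ r ∣ Fintype.card F)
    (hN : ∀ j, r ∣ Fintype.card F ^ (2 * j) - 1 → 2 ∣ j) (t : ℕ) (ht : r ^ t ∣ Nat.card (OGrp Q)) : r ^ t ∣ Nat.card (OGrp QE) := by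
  have hr : r.Prime := Fact.out
  have hQE := nondeg_QE hR hQ
  have hcE := card_E (F := F) (E := E) hE
  have hcop : ∀ n, ¬ r ∣ n → Nat.Coprime (r ^ t) n := fun n hn => Nat.Coprime.pow_left _ ((Nat.Prime.coprime_iff_not_dvd hr).mpr hn)
  have hr2' : ¬ r ∣ 2 := fun h => hr2 ((Nat.prime_dvd_prime_iff_eq hr Nat.prime_two).mp h)
  have hqp : ∀ n, ¬ r ∣ 2 * Fintype.card F ^ n := fun n h => by
    rcases hr.dvd_mul.mp h with h | h
    · exact hr2' h
    · exact hrq (hr.dvd_of_dvd_pow h)
  set q := Fintype.card F with hq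
  have hq1 : 1 < q := Fintype.one_lt_card
  have hqd : 1 ≤ q ^ d := Nat.one_le_pow _ _ (by omega)
  have hsq : q ^ (2 * d) - 1 = (q ^ d - 1) * (q ^ d + 1) := by
    obtain ⟨c, hc⟩ := Nat.exists_eq_add_of_le hqd
    have e : q ^ (2 * d) = q ^ d * q ^ d := by rw [two_mul, pow_add]
    rw [e, hc, Nat.add_sub_cancel_left]
    have : (1 + c) * (1 + c) = 1 + c * (1 + c + 1) := by ring
    omega
  rcases Nat.even_or_odd d with hde | hdo
  · obtain ⟨m, hm⟩ := hde
    have hm1 : 1 ≤ m := by omega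
    have hd2 : d = 2 * m := by omega
    obtain ⟨N, hN1, hN2⟩ := FExtSp.prod_split (r := r) (q := q) (by norm_num : 0 < 2) hN (m - 1)
    have hprod : ∏ i ∈ Finset.range (d - 1), (q ^ (2 * (i + 1)) - 1) = (N * (q ^ (2 * (d - 1)) - 1)) * ∏ i ∈ Finset.range (m - 1), ((q ^ 2) ^ (2 * (i + 1)) - 1) := by
      have e1 : d - 1 = 2 * (m - 1) + 1 := by omega
      rw [e1, Finset.prod_range_succ, hN2]
      ring
    have hlast : ¬ r ∣ q ^ (2 * (d - 1)) - 1 := by
      intro h
      have := hN _ h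
      omega
    have hNl : ¬ r ∣ N * (q ^ (2 * (d - 1)) - 1) := fun h => by
      rcases hr.dvd_mul.mp h with h | h
      · exact hN1 h
      · exact hlast h
    have hpt := pt_iff_E hE h2 hR hQ hm1 (by rw [hEd, hd2])
    have hqm : (q ^ 2) ^ m = q ^ d := by rw [← pow_mul, hd2]
    by_cases hT : PT Q ⊤
    · rw [card_plus hd1 hd hQ hT, hprod] at ht
      rw [card_plus hm1 (by rw [hEd, hd2]) hQE (hpt.mp hT), hcE, hqm]
      have h3 : r ^ t ∣ (2 * q ^ (d * (d - 1))) * ((N * (q ^ (2 * (d - 1)) - 1)) * ((q ^ d - 1) * ∏ i ∈ Finset.range (m - 1), ((q ^ 2) ^ (2 * (i + 1)) - 1))) := by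
        convert ht using 1
        ring
      have h4 := (hcop _ hNl).dvd_of_dvd_mul_left ((hcop _ (hqp _)).dvd_of_dvd_mul_left h3)
      rw [mul_assoc]
      exact h4.mul_left _
    · rw [card_minus hd1 hd hQ hT, hprod] at ht
      rw [card_minus hm1 (by rw [hEd, hd2]) hQE (fun h => hT (hpt.mpr h)), hcE, hqm]
      have h3 : r ^ t ∣ (2 * q ^ (d * (d - 1))) * ((N * (q ^ (2 * (d - 1)) - 1)) * ((q ^ d + 1) * ∏ i ∈ Finset.range (m - 1), ((q ^ 2) ^ (2 * (i + 1)) - 1))) := by
        convert ht using 1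
        ring
      have h4 := (hcop _ hNl).dvd_of_dvd_mul_left ((hcop _ (hqp _)).dvd_of_dvd_mul_left h3)
      rw [mul_assoc]
      exact h4.mul_left _
  · obtain ⟨m, hm⟩ := hdo
    obtain ⟨N, hN1, hN2⟩ := FExtSp.prod_split (r := r) (q := q) (by norm_num : 0 < 2) hN m
    have e1 : d - 1 = 2 * m := by omega
    have hs1 : ¬ r ∣ q ^ d - 1 := fun h => by
      have := hN d (by rw [hsq]; exact h.mul_right _)
      omega
    have hs2 : ¬ r ∣ q ^ d + 1 := fun h => by
      have := hN d (by rw [hsq]; exact h.mul_left _)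
      omega
    have key : ∀ s, ¬ r ∣ s → r ^ t ∣ 2 * q ^ (d * (d - 1)) * s * ∏ i ∈ Finset.range (d - 1), (q ^ (2 * (i + 1)) - 1) →
        r ^ t ∣ Nat.card (OGrp QE) := by
      intro s hs h
      rw [e1, hN2] at h
      rw [card_odd (two_E (E := E) h2) (by rw [hEd, hm]) hQE, hcE]
      have h3 : r ^ t ∣ (2 * q ^ (d * (2 * m))) * (s * (N * ∏ i ∈ Finset.range m, ((q ^ 2) ^ (2 * (i + 1)) - 1))) := by
        convert h using 1
        ring
      exact ((hcop _ hN1).dvd_of_dvd_mul_left ((hcop _ hs).dvd_of_dvd_mul_left ((hcop _ (hqp _)).dvd_of_dvd_mul_left h3))).mul_left _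
    by_cases hT : PT Q ⊤
    · rw [card_plus hd1 hd hQ hT] at ht
      exact key _ hs1 ht
    · rw [card_minus hd1 hd hQ hT] at ht
      exact key _ hs2 ht

end cmp

section grp

theorem dvd_card_of_sq {G : Type*} [Group G] [Finite G] (H : Subgroup G) [H.Normal] (hsq : ∀ g, g * g ∈ H) {r : ℕ} [Fact r.Prime] (hr2 : r ≠ 2) {t : ℕ}
    (h : r ^ t ∣ Nat.card G) : r ^ t ∣ Nat.card H := by
  have hr : r.Prime := Fact.out
  have h1 : ¬ r ∣ H.index := by
    intro hd
    rw [Subgroup.index_eq_card] at hd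
    obtain ⟨g, hg⟩ := exists_prime_orderOf_dvd_card' r hd
    obtain ⟨g₀, rfl⟩ := QuotientGroup.mk_surjective g
    have h2 : (QuotientGroup.mk g₀ : G ⧸ H) ^ 2 = 1 := by
      rw [pow_two, ← QuotientGroup.mk_mul, QuotientGroup.eq_one_iff]
      exact hsq g₀
    have h3 := orderOf_dvd_of_pow_eq_one h2
    rw [hg] at h3
    exact hr2 ((Nat.prime_dvd_prime_iff_eq hr Nat.prime_two).mp h3)
  rw [← Subgroup.card_mul_index H] at h
  exact (Nat.Coprime.pow_left _ ((Nat.Prime.coprime_iff_not_dvd hr).mpr h1)).dvd_of_dvd_mul_right h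

end grp

section fwd
variable {F E V : Type*} [Field F] [Fintype F] [Field E] [Fintype E] [Algebra F E] [AddCommGroup V] [Module F V] [Module E V] [IsScalarTower F E V]
  [FiniteDimensional F V] [FiniteDimensional E V]
variable {Q : QuadraticForm F V} {QE : QuadraticForm E V} {p : ℕ} [Fact p.Prime] [CharP F p] {r : ℕ} [Fact r.Prime]

/-- a Siegel element -/
theorem exists_siegel (h2 : (2 : F) ≠ 0) (hQ : (polarBilin Q).Nondegenerate) (hd : 5 ≤ finrank F V) :
    ∃ T : V →ₗ[F] V, (∀ v, Q (T v) = Q v) ∧ T ^ p = 1 ∧ finrank F (LinearMap.ker ((T - 1) ^ 2)) + 1 = finrank F V := by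
  obtain ⟨e, f, hh⟩ := exists_isHyp hQ 2 (by omega)
  set a := e 0 with ha
  set b := e 1 + f 1 with hb
  have qa : Q a = 0 := hh.qe 0
  have hab : polar Q a b = 0 := by
    rw [hb, par, ha, hh.ee, hh.ef]
    simp
  have qb : Q b = 1 := by
    rw [hb, qadd, hh.qe, hh.qf, hh.ef]
    simp
  have ha0 : a ≠ 0 := by
    intro h0
    have := hh.ef 0 0
    rw [← ha, h0, polar_zero_left] at this
    simp at this
  have hpw : ∀ k : ℕ, ∀ v, ((eichMap Q a b) ^ k) v = eichMap Q a ((k : F) • b) v := by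
    intro k
    induction k with
    | zero =>
      intro v
      rw [pow_zero, Nat.cast_zero, zero_smul, eichMap_apply]
      simp
    | succ k ih =>
      intro v
      rw [pow_succ', Module.End.mul_apply, ih, eichMap_comp qa hab (by rw [psr, hab, mul_zero])]
      congr 2
      push_cast
      rw [add_smul, one_smul, add_comm]
  refine ⟨eichMap Q a b, fun v => eichMap_q qa hab v, ?_, ?_⟩
  · apply LinearMap.ext
    intro v
    rw [hpw, CharP.cast_eq_zero, zero_smul, eichMap_apply]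
    simp
  · have hN : ∀ v, (eichMap Q a b - 1 : V →ₗ[F] V) v = polar Q v b • a - polar Q v a • b - polar Q v a • a := by
      intro v
      rw [LinearMap.sub_apply, eichMap_apply, Module.End.one_apply, qb, one_mul]
      abel
    have hN2 : ∀ v, ((eichMap Q a b - 1 : V →ₗ[F] V) ^ 2) v = (-(2 * polar Q v a)) • a := by
      intro v
      rw [pow_two, Module.End.mul_apply, hN, hN]
      have e1 : polar Q (polar Q v b • a - polar Q v a • b - polar Q v a • a) a = 0 := by
        rw [pdl, pdl, psl, psl, psl, pself, qa, pc Q b a, hab]; ring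
      have e2 : polar Q (polar Q v b • a - polar Q v a • b - polar Q v a • a) b = -(2 * polar Q v a) := by
        rw [pdl, pdl, psl, psl, psl, pself, qb, hab]; ring
      rw [e1, e2, zero_smul, zero_smul, sub_zero, sub_zero]
    have hker : LinearMap.ker ((eichMap Q a b - 1) ^ 2) = perp Q (Submodule.span F {a}) := by
      ext v
      rw [LinearMap.mem_ker, hN2, mem_perp]
      constructor
      · intro h u hu
        obtain ⟨c, rfl⟩ := Submodule.mem_span_singleton.mp hu
        have h3 := (smul_eq_zero.mp h).resolve_right ha0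
        have h4 : polar Q v a = 0 := by
          have h5 : 2 * polar Q v a = 0 := neg_eq_zero.mp h3
          exact (mul_eq_zero.mp h5).resolve_left h2
        rw [psl, pc, h4, mul_zero]
      · intro h
        have h3 := h a (Submodule.mem_span_singleton_self a)
        rw [pc, h3, mul_zero, neg_zero, zero_smul]
    rw [hker]
    have h3 := finrank_perp hQ (Submodule.span F {a})
    rwa [finrank_span_singleton ha0] at h3

theorem forward (hE : finrank F E = 2) (h2 : (2 : F) ≠ 0) (hR : ∀ v, Q v = Algebra.trace F E (QE v)) (hQ : (polarBilin Q).Nondegenerate)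
    {d : ℕ} (hd4 : 4 ≤ d) (hd : finrank F V = 2 * d) (hr2 : r ≠ 2) (hdvd : r ∣ Nat.card (OGrp Q))
    (hN : r ≠ p → ¬ ∀ j, r ∣ Fintype.card F ^ (2 * j) - 1 → 2 ∣ j)
    (H : ∀ T : V →ₗ[F] V, (∀ v, Q (T v) = Q v) → T ^ r = 1 → T ≠ 1 →
      ∃ (y : V →ₗ[F] V) (e : V ≃ₗ[F] V) (σ : E →ₐ[F] E), (∀ v, Q (y v) = Q v) ∧ (∀ v, y (e v) = e (T v)) ∧ ∀ (a : E) v, y (a • v) = σ a • y v) : False := by
  have hr : r.Prime := Fact.out
  have hl : Algebra.trace F E ≠ 0 := Algebra.trace_ne_zero F E
  have hnt : Nontrivial V := Module.nontrivial_of_finrank_pos (R := F) (by omega)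
  have hEV : 2 * finrank E V = 2 * d := by rw [← hd, ← hE, Module.finrank_mul_finrank]
  -- `E`-linear conjugates
  have H' : ∀ T : V →ₗ[F] V, (∀ v, Q (T v) = Q v) → T ^ r = 1 → T ≠ 1 →
      ∃ (yE : V →ₗ[E] V), (∀ v, QE (yE v) = QE v) ∧ yE ^ r = 1 ∧ ∀ j, finrank F (LinearMap.ker ((T - 1) ^ j)) = 2 * finrank E (LinearMap.ker ((yE - 1) ^ j)) := by
    intro T hT hTr hT1
    obtain ⟨y, e, σ, hy, hye, hσ⟩ := H T hT hTr hT1
    have hpow : ∀ k v, (y ^ k) (e v) = e ((T ^ k) v) := by
      intro k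
      induction k with
      | zero => intro v; rfl
      | succ k ih => intro v; rw [pow_succ', pow_succ', Module.End.mul_apply, Module.End.mul_apply, ih, hye]
    have hyr : y ^ r = 1 := by
      apply LinearMap.ext
      intro v
      obtain ⟨u, rfl⟩ := e.surjective v
      rw [hpow, hTr]
      rfl
    have hσ1 : ∀ a, σ a = a := by
      by_contra hcon
      push Not at hcon
      obtain ⟨a₀, ha₀⟩ := hcon
      exact hr2 (eq_of_semi Nat.prime_two hr hE y σ hσ hyr ha₀)
    obtain ⟨yE, hyE⟩ : ∃ yE : V →ₗ[E] V, ∀ v, yE v = y v :=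
      ⟨{ toFun := y, map_add' := y.map_add, map_smul' := fun a v => by rw [hσ, hσ1, RingHom.id_apply] }, fun _ => rfl⟩
    have hpE : ∀ k v, (yE ^ k) v = (y ^ k) v := by
      intro k
      induction k with
      | zero => intro v; rfl
      | succ k ih => intro v; rw [pow_succ', pow_succ', Module.End.mul_apply, Module.End.mul_apply, ih, hyE]
    have hpE1 : ∀ (k : ℕ) v, ((yE - 1 : V →ₗ[E] V) ^ k) v = ((y - 1 : V →ₗ[F] V) ^ k) v := by
      intro k
      induction k with
      | zero => intro v; rfl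
      | succ k ih =>
        intro v
        rw [pow_succ', pow_succ', Module.End.mul_apply, Module.End.mul_apply, ih, LinearMap.sub_apply, LinearMap.sub_apply, hyE]
        rfl
    have hpow1 : ∀ (k : ℕ) v, ((y - 1 : V →ₗ[F] V) ^ k) (e v) = e (((T - 1 : V →ₗ[F] V) ^ k) v) := by
      intro k
      induction k with
      | zero => intro v; rfl
      | succ k ih =>
        intro v
        rw [pow_succ', pow_succ', Module.End.mul_apply, Module.End.mul_apply, ih, LinearMap.sub_apply, LinearMap.sub_apply, hye, map_sub]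
        rfl
    refine ⟨yE, fun v => isom_QE hl hR yE (fun v => by rw [hyE, hy]) h2 v, ?_, fun j => ?_⟩
    · apply LinearMap.ext
      intro v
      rw [hpE, hyr]
      rfl
    · rw [← hE, ← finrank_ker_rs ((yE - 1) ^ j) ((y - 1) ^ j) (fun v => (hpE1 j v).symm)]
      have : LinearMap.ker ((y - 1) ^ j) = (LinearMap.ker ((T - 1) ^ j)).map (e : V →ₗ[F] V) := by
        ext v
        constructor
        · intro hv
          obtain ⟨u, rfl⟩ := e.surjective v
          refine ⟨u, ?_, rfl⟩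
          have h3 : ((y - 1 : V →ₗ[F] V) ^ j) (e u) = 0 := hv
          rw [hpow1] at h3
          exact e.map_eq_zero_iff.mp h3
        · rintro ⟨u, hu, rfl⟩
          have h3 : ((T - 1 : V →ₗ[F] V) ^ j) u = 0 := hu
          change ((y - 1 : V →ₗ[F] V) ^ j) (e u) = 0
          rw [hpow1, h3, map_zero]
      rw [this, LinearEquiv.finrank_map_eq]
  by_cases hrp : r = p
  · subst hrp
    obtain ⟨T, hT, hTr, hTk⟩ := exists_siegel (p := r) h2 hQ (by omega)
    have hT1 : T ≠ 1 := by
      rintro rfl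
      rw [sub_self, zero_pow (by norm_num), LinearMap.ker_zero, finrank_top] at hTk
      omega
    obtain ⟨yE, -, -, h3⟩ := H' T hT hTr hT1
    have := h3 2
    omega
  · have hrq : ¬ r ∣ Fintype.card F := H99.prime_not_dvd_card hrp
    obtain ⟨x, hx, hxr, hx1⟩ := exists_elt_of_dvd hdvd
    obtain ⟨b1, b2⟩ := le_of_ne_one (p := p) hr2 hrp hQ hx hxr hx1
    obtain ⟨T, hT, hTr, hTk⟩ := exists_blocks (p := p) hr2 hrp 1 V Q hQ (Or.inl h2) (by rw [one_mul]; exact b1) (fun h => by
      rw [one_mul] at h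
      have := type_blocks (p := p) (j := 1) hr2 hrp hx hxr (W := ⊤) (fun _ _ => Submodule.mem_top) (nd_of_nondeg hQ) (fun v _ hv => b2 h.symm v hv)
        (by rw [finrank_top, one_mul, h])
      exact this)
    have hbpos := blk_pos (F := F) (r := r) hrp
    rw [one_mul] at hTk
    have hT1 : T ≠ 1 := by
      rintro rfl
      rw [sub_self, LinearMap.ker_zero, finrank_top] at hTk
      omega
    obtain ⟨yE, hyQ, hyr, h3⟩ := H' T hT hTr hT1
    have h4 := h3 1
    rw [pow_one, pow_one] at h4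
    have : CharP E p := charP_of_injective_algebraMap (algebraMap F E).injective p
    obtain ⟨s1, s2, s3, s4, s5⟩ := H99.split_fixed (p := p) hrp (H99.polar_eform QE) (fun u v => polar_of_isom hyQ u v) hyr
      (W := ⊤) (fun _ _ => Submodule.mem_top) (nd_of_nondeg (nondeg_QE hR hQ))
    obtain ⟨⟨k, hk⟩, -⟩ := blocks (p := p) hr2 hrp hyQ hyr s2 s3 s4
    have e0 : (⊤ ⊓ LinearMap.ker (yE - 1) : Submodule E V) = LinearMap.ker (yE - 1) := top_inf_eq _
    rw [e0, finrank_top] at s5
    rw [e0] at hk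
    rw [card_E (F := F) (E := E) hE] at hk
    have hk0 : k ≠ 0 := by
      rintro rfl
      rw [mul_zero] at hk
      omega
    have h5 : H99.blk r (Fintype.card F ^ 2) ≤ H99.blk r (Fintype.card F ^ 2) * k := Nat.le_mul_of_pos_right _ (Nat.pos_of_ne_zero hk0)
    apply hN hrp
    intro j hj
    exact FExtSp.dvd_of_blk Nat.prime_two Fintype.card_pos hrq (by omega) j hj

end fwd

end Cfsg.Agent.H43.FO
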