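import Mathlib
import Cfsg.Agent.H43.FO6
import Cfsg.Agent.H43.FO8
/-!
# Quadratic field extension subgroups of orthogonal groups, assembly
-/
set_option autoImplicit false
set_option linter.unusedSectionVars false
set_option linter.unusedVariables false

namespace Cfsg.Agent.H43.FO

open Module QuadraticMap Cfsg.Agent.Orth Cfsg.Agent.H39.OE Cfsg.Agent.H43.FExt Matrix

section res
variable {F E V : Type*} [Field F] [Field E] [Algebra F E] [AddCommGroup V] [Module F V] [Module E V] [IsScalarTower F E V]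
variable {Q : QuadraticForm F V} {QE : QuadraticForm E V} [FiniteDimensional F E]

/-- restriction of scalars on isometry groups -/
theorem exists_res {l : E →ₗ[F] F} (hR : ∀ v, Q v = l (QE v)) :
    ∃ ψ : OGrp QE →* OGrp Q, ∀ g v, (ψ g : V ≃ₗ[F] V) v = (g : V ≃ₗ[E] V) v := by
  refine ⟨{ toFun := fun g => ⟨(g : V ≃ₗ[E] V).restrictScalars F, fun v => ?_⟩, map_one' := ?_, map_mul' := fun g h => ?_ }, fun _ _ => rfl⟩
  · change Q ((g : V ≃ₗ[E] V) v) = Q v
    rw [hR, hR, OGrp_q]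
  · exact OGrp_ext (fun v => rfl)
  · exact OGrp_ext (fun v => rfl)

end res

section main
variable {F : Type*} [Field F] [Fintype F] {p : ℕ} [Fact p.Prime] [CharP F p] {ι : Type} [Fintype ι] [DecidableEq ι]

theorem bridge_symm_coe_mem (Q : QuadraticForm F (ι → F)) {g : OGrp Q} (hg : g ∈ commutator (OGrp Q)) :
    (((bridge Q).symm g : ↥(Cfsg.isometryGroup F ⇑Q)) : GL ι F) ∈ Cfsg.Geo.omegaGL (⇑Q) :=
  ⟨(bridge Q).symm g, (mem_Omega_iff Q _).mpr (by rw [(bridge Q).apply_symm_apply]; exact hg), rfl⟩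

variable {E : Type*} [Field E] [Fintype E] [Algebra F E] [Module E (ι → F)] [IsScalarTower F E (ι → F)] [Nonempty ι] {K : Subalgebra F (Matrix ι ι F)}

theorem dvd_card_norm {Q : QuadraticForm F (ι → F)} {QE : QuadraticForm E (ι → F)} (ρ : E →ₐ[F] Matrix ι ι F) (hρK : ∀ M, M ∈ K ↔ ∃ a, ρ a = M)
    (hρ : ∀ (a : E) (v : ι → F), a • v = ρ a *ᵥ v) {l : E →ₗ[F] F} (hR : ∀ v, Q v = l (QE v)) (hQ : (polarBilin Q).Nondegenerate)
    {r : ℕ} [Fact r.Prime] (hr2 : r ≠ 2) {t : ℕ} (h : r ^ t ∣ Nat.card (OGrp QE)) :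
    r ^ t ∣ Nat.card ↥(Cfsg.Geo.subalgebraNormalizer K ⊓ Cfsg.Geo.omegaGL (⇑Q)) := by
  have : FiniteDimensional F E := Module.Finite.of_finite
  have : FiniteDimensional E (ι → F) := FiniteDimensional.right F E _
  obtain ⟨ψ, hψ⟩ := exists_res (QE := QE) hR
  have h1 := dvd_card_of_sq ((commutator (OGrp Q)).comap ψ) (fun g => by
    change ψ (g * g) ∈ commutator (OGrp Q)
    rw [_root_.map_mul]
    exact mul_self_mem_commutator hQ _) hr2 h
  refine h1.trans ?_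
  have hmem : ∀ g : ((commutator (OGrp Q)).comap ψ : Subgroup (OGrp QE)),
      (((bridge Q).symm (ψ g) : ↥(Cfsg.isometryGroup F ⇑Q)) : GL ι F) ∈ Cfsg.Geo.subalgebraNormalizer K ⊓ Cfsg.Geo.omegaGL (⇑Q) := by
    intro g
    refine ⟨?_, bridge_symm_coe_mem Q g.2⟩
    apply FExtConc.mem_norm ρ hρK _ id Function.surjective_id
    intro a
    apply matrix_eq_of_mulVec
    intro v
    change _ = (ρ a * _) *ᵥ v
    rw [← Matrix.mulVec_mulVec, ← Matrix.mulVec_mulVec, bridge_symm_mulVec, bridge_symm_mulVec, hψ, hψ, ← hρ, ← hρ, map_smul]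
  let f : ((commutator (OGrp Q)).comap ψ : Subgroup (OGrp QE)) →* ↥(Cfsg.Geo.subalgebraNormalizer K ⊓ Cfsg.Geo.omegaGL (⇑Q)) :=
    { toFun := fun g => ⟨_, hmem g⟩
      map_one' := by
        apply Subtype.ext
        change (((bridge Q).symm (ψ ((1 : ((commutator (OGrp Q)).comap ψ : Subgroup (OGrp QE))) : OGrp QE)) : ↥(Cfsg.isometryGroup F ⇑Q)) : GL ι F) = 1
        rw [OneMemClass.coe_one, map_one, map_one, OneMemClass.coe_one]
      map_mul' := fun g h => by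
        apply Subtype.ext
        change (((bridge Q).symm (ψ ((g * h : ((commutator (OGrp Q)).comap ψ : Subgroup (OGrp QE))) : OGrp QE)) : ↥(Cfsg.isometryGroup F ⇑Q)) : GL ι F) = _
        rw [Subgroup.coe_mul, _root_.map_mul, _root_.map_mul, Subgroup.coe_mul]
        rfl }
  apply Subgroup.card_dvd_of_injective f
  intro g h hgh
  have h2 : (((bridge Q).symm (ψ g) : ↥(Cfsg.isometryGroup F ⇑Q)) : GL ι F) = (((bridge Q).symm (ψ h) : ↥(Cfsg.isometryGroup F ⇑Q)) : GL ι F) :=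
    congrArg (fun z : ↥(Cfsg.Geo.subalgebraNormalizer K ⊓ Cfsg.Geo.omegaGL (⇑Q)) => (z : GL ι F)) hgh
  have h3 : ψ g = ψ h := (bridge Q).symm.injective (Subtype.ext h2)
  apply Subtype.ext
  apply OGrp_ext
  intro v
  rw [← hψ, ← hψ, h3]

theorem card_omega_dvd (Q : QuadraticForm F (ι → F)) : Nat.card (Cfsg.Geo.omegaGL (⇑Q)) ∣ Nat.card (OGrp Q) := by
  rw [card_OGrp]
  apply Subgroup.card_dvd_of_le
  rintro _ ⟨g, -, rfl⟩
  exact g.2

/-- from the concrete hypothesis to the abstract one -/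
theorem abs_of_conc {Q : QuadraticForm F (ι → F)} (hQ : (polarBilin Q).Nondegenerate) (hd : 5 ≤ finrank F (ι → F)) (ρ : E →ₐ[F] Matrix ι ι F)
    (hρK : ∀ M, M ∈ K ↔ ∃ a, ρ a = M) (hρ : ∀ (a : E) (v : ι → F), a • v = ρ a *ᵥ v) {r : ℕ} (hr : Odd r)
    (H : ∀ x ∈ Cfsg.Geo.omegaGL (⇑Q), (∃ z : F, ((x ^ r : GL ι F) : Matrix ι ι F) = z • (1 : Matrix ι ι F)) →
      (∀ z : F, (x : Matrix ι ι F) ≠ z • (1 : Matrix ι ι F)) → ∃ g ∈ Cfsg.Geo.omegaGL (⇑Q), g⁻¹ * x * g ∈ Cfsg.Geo.subalgebraNormalizer K)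
    (T : (ι → F) →ₗ[F] (ι → F)) (hT : ∀ v, Q (T v) = Q v) (hTr : T ^ r = 1) (hT1 : T ≠ 1) :
    ∃ (y : (ι → F) →ₗ[F] (ι → F)) (e : (ι → F) ≃ₗ[F] (ι → F)) (σ : E →ₐ[F] E), (∀ v, Q (y v) = Q v) ∧ (∀ v, y (e v) = e (T v)) ∧ ∀ (a : E) v, y (a • v) = σ a • y v := by
  obtain ⟨g, hg, hgr, hgT⟩ := omega_mem hQ hd hT hr hTr
  have hgv : ∀ v, (g : Matrix ι ι F) *ᵥ v = T v := fun v => by rw [← hgT, Matrix.toLin'_apply]
  obtain ⟨h, hh, hn⟩ := H g hg ⟨1, by rw [hgr, one_smul]; rfl⟩ (by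
    intro z hz
    have h1 : ∀ v, T v = z • v := fun v => by rw [← hgv, hz, Matrix.smul_mulVec, Matrix.one_mulVec]
    have h2 : z * z = 1 := scalar_sq hQ (by omega) (fun v => by rw [← h1, hT])
    have h3 : ∀ k : ℕ, ∀ v, (T ^ k) v = z ^ k • v := by
      intro k
      induction k with
      | zero => intro v; rw [pow_zero, pow_zero, one_smul]; rfl
      | succ k ih => intro v; rw [pow_succ', Module.End.mul_apply, ih, h1, smul_smul, ← pow_succ']
    have hnt : Nontrivial (ι → F) := Module.nontrivial_of_finrank_pos (R := F) (by omega)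
    obtain ⟨v, hv⟩ := exists_ne (0 : ι → F)
    have h4 := h3 r v
    rw [hTr] at h4
    have h5 : z ^ r = 1 := by
      have h6 : (z ^ r - 1) • v = 0 := by rw [sub_smul, one_smul, ← h4]; exact sub_self v
      exact sub_eq_zero.mp ((smul_eq_zero.mp h6).resolve_right hv)
    obtain ⟨m, hm⟩ := hr
    rw [hm, pow_succ, pow_mul, pow_two, h2, one_pow, one_mul] at h5
    apply hT1
    apply LinearMap.ext
    intro v
    rw [h1, h5, one_smul]
    rfl)
  obtain ⟨σ, hσ⟩ := FExtConc.norm_semi ρ hρK _ hn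
  have hmem : h⁻¹ * g * h ∈ Cfsg.Geo.omegaGL (⇑Q) := Subgroup.mul_mem _ (Subgroup.mul_mem _ (Subgroup.inv_mem _ hh) hg) hh
  refine ⟨Matrix.toLin' ((h⁻¹ * g * h : GL ι F) : Matrix ι ι F), glE ι F h⁻¹, σ, fun v => H99.isom_of_mem_omegaGL hmem v, fun v => ?_, fun a v => ?_⟩
  · rw [Matrix.toLin'_apply, glE_apply, glE_apply, ← hgv, Matrix.mulVec_mulVec, Matrix.mulVec_mulVec]
    congr 1
    have : (h⁻¹ * g * h) * h⁻¹ = h⁻¹ * g := by group
    have h2 := congrArg (fun x : GL ι F => (x : Matrix ι ι F)) this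
    exact h2
  · rw [Matrix.toLin'_apply, Matrix.toLin'_apply, hρ, hρ, Matrix.mulVec_mulVec, Matrix.mulVec_mulVec, hσ]

/-- from the abstract conjugation to the concrete one -/
theorem conc_of_abs {Q : QuadraticForm F (ι → F)} (ρ : E →ₐ[F] Matrix ι ι F) (hρK : ∀ M, M ∈ K ↔ ∃ a, ρ a = M) (hρ : ∀ (a : E) (v : ι → F), a • v = ρ a *ᵥ v)
    (X : ↥(Cfsg.isometryGroup F ⇑Q)) (σ : E → E) (hσ : Function.Surjective σ)
    (h : ∃ g ∈ commutator (OGrp Q), ∀ (a : E) v, ((g⁻¹ * bridge Q X * g : OGrp Q) : (ι → F) ≃ₗ[F] (ι → F)) (a • v) = σ a • ((g⁻¹ * bridge Q X * g : OGrp Q) : (ι → F) ≃ₗ[F] (ι → F)) v) :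
    ∃ g ∈ Cfsg.Geo.omegaGL (⇑Q), g⁻¹ * (X : GL ι F) * g ∈ Cfsg.Geo.subalgebraNormalizer K := by
  obtain ⟨g, hg, hs⟩ := h
  refine ⟨_, bridge_symm_coe_mem Q hg, ?_⟩
  have e1 : ((((bridge Q).symm g : ↥(Cfsg.isometryGroup F ⇑Q)) : GL ι F))⁻¹ * (X : GL ι F) * (((bridge Q).symm g : ↥(Cfsg.isometryGroup F ⇑Q)) : GL ι F) =
      (((bridge Q).symm (g⁻¹ * bridge Q X * g) : ↥(Cfsg.isometryGroup F ⇑Q)) : GL ι F) := by
    rw [_root_.map_mul, _root_.map_mul, map_inv, (bridge Q).symm_apply_apply, Subgroup.coe_mul, Subgroup.coe_mul, Subgroup.coe_inv]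
  rw [e1]
  apply FExtConc.mem_norm ρ hρK _ σ hσ
  intro a
  apply matrix_eq_of_mulVec
  intro v
  rw [← Matrix.mulVec_mulVec, ← Matrix.mulVec_mulVec, bridge_symm_mulVec, bridge_symm_mulVec, ← hρ, ← hρ, hs]

end main

section final
variable {F : Type*} [Field F] [Fintype F] {ι : Type} [Fintype ι] [DecidableEq ι]

theorem final (p : ℕ) [Fact p.Prime] [CharP F p] (Q : QuadraticForm F (ι → F)) (hQ : (polarBilin Q).Nondegenerate) (hodd : Odd (Fintype.card F)) {d : ℕ} (hd4 : 4 ≤ d)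
    (hd : finrank F (ι → F) = 2 * d) (K : Subalgebra F (Matrix ι ι F)) (hK : Cfsg.Geo.IsFieldSubalgebra 2 K)
    (hKf : Cfsg.Geo.IsSelfAdjointFor (QuadraticMap.polar (⇑Q)) K) (r : ℕ) [Fact r.Prime]
    (hΩ : r ∣ (Cfsg.Geo.subalgebraNormalizer K).relIndex (Cfsg.Geo.omegaGL (⇑Q))) :
    (∀ x ∈ Cfsg.Geo.omegaGL (⇑Q), (∃ z : F, ((x ^ r : GL ι F) : Matrix ι ι F) = z • (1 : Matrix ι ι F)) →
      (∀ z : F, (x : Matrix ι ι F) ≠ z • (1 : Matrix ι ι F)) →
      ∃ g ∈ Cfsg.Geo.omegaGL (⇑Q), g⁻¹ * x * g ∈ Cfsg.Geo.subalgebraNormalizer K) ↔ r = 2 := by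
  classical
  have hr : r.Prime := Fact.out
  have h2 := two_ne_zero_of_odd hodd
  have hne : Nonempty ι := by
    by_contra hcon
    rw [not_nonempty_iff] at hcon
    rw [finrank_fintype_fun_eq_card, Fintype.card_eq_zero] at hd
    omega
  obtain ⟨E, iE, iA, ρ, hρK, hEk⟩ := H43.FExt.exists_ext hK
  letI := iE
  letI := iA
  have hFE : FiniteDimensional F E := FiniteDimensional.of_finrank_pos (by rw [hEk]; norm_num)
  have hfE : Finite E := Module.finite_of_finite F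
  letI : Fintype E := Fintype.ofFinite E
  letI mE : Module E (ι → F) := Module.compHom _ (((Matrix.toLinAlgEquiv' : Matrix ι ι F ≃ₐ[F] _).toAlgHom.comp ρ :
    E →ₐ[F] Module.End F (ι → F)) : E →+* Module.End F (ι → F))
  have hρ : ∀ (a : E) (v : ι → F), a • v = ρ a *ᵥ v := fun _ _ => rfl
  have hst : IsScalarTower F E (ι → F) := ⟨fun c a v => by rw [hρ, hρ, map_smul, Matrix.smul_mulVec]⟩
  have hEV : FiniteDimensional E (ι → F) := FiniteDimensional.right F E _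
  have hsa : ∀ (a : E) u v, polar Q (a • u) v = polar Q u (a • v) := by
    intro a u v
    rw [hρ, hρ]
    exact hKf _ ((hρK _).mpr ⟨a, rfl⟩) u v
  obtain ⟨QE, hR⟩ := exists_QE h2 (Algebra.trace F E) (Algebra.trace_ne_zero F E) hsa
  have hEd : finrank E (ι → F) = d := by
    have h3 : 2 * finrank E (ι → F) = 2 * d := by rw [← hd, ← hEk, Module.finrank_mul_finrank]
    omega
  have hRG : RGrp Q = ⊤ := RGrp_eq_top hQ (Or.inr (by omega))
  constructor
  · intro H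
    by_contra hr2
    have hro : Odd r := hr.odd_of_ne_two hr2
    refine forward (p := p) (r := r) hEk h2 hR hQ hd4 hd hr2 ?_ ?_ (fun T hT hTr hT1 => abs_of_conc hQ (by omega) ρ hρK hρ hro H T hT hTr hT1)
    · exact (hΩ.trans (Subgroup.index_dvd_card _)).trans (card_omega_dvd Q)
    · intro hrp hall
      refine FExtConc.not_dvd_relIndex hr ?_ ?_ hΩ
      · exact Nat.card_pos.ne'
      · intro t ht
        exact dvd_card_norm ρ hρK hρ hR hQ hr2 (order_cmp hEk h2 hR hQ (by omega) hd hEd hr2 (H99.prime_not_dvd_card hrp) hall t (ht.trans (card_omega_dvd Q)))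
  · rintro rfl x hx ⟨z, hz⟩ hns
    obtain ⟨X, hX, rfl⟩ := hx
    have hx : (X : GL ι F) ∈ Cfsg.Geo.omegaGL (⇑Q) := ⟨X, hX, rfl⟩
    have hz' : ((((X : GL ι F)) ^ 2 : GL ι F) : Matrix ι ι F) = z • (1 : Matrix ι ι F) := hz
    have hXX := toLin_sq hz'
    have hiso := H99.isom_of_mem_omegaGL hx
    have hzz : z * z = 1 := scalar_sq hQ (by omega) (fun v => by rw [← hXX, hiso, hiso])
    have hb : ∀ v, (bridge Q X : (ι → F) ≃ₗ[F] (ι → F)) v = Matrix.toLin' ((X : GL ι F) : Matrix ι ι F) v := fun v => by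
      rw [bridge_apply, Matrix.toLin'_apply]
    have hns' : ∀ z : F, ((X : GL ι F) : Matrix ι ι F) ≠ z • (1 : Matrix ι ι F) := hns
    rcases mul_self_eq_one_iff.mp hzz with hz1 | hz1
    · -- involutions
      have hxx : ∀ v, Matrix.toLin' ((X : GL ι F) : Matrix ι ι F) (Matrix.toLin' ((X : GL ι F) : Matrix ι ι F) v) = v := fun v => by
        rw [hXX, hz1, one_smul]
      obtain ⟨⟨s, hs⟩, hsum⟩ := invol_dims h2 hQ hx hxx
      obtain ⟨k1, k2⟩ := ker_ne_zero hns'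
      have hker : LinearMap.ker (((bridge Q X : (ι → F) ≃ₗ[F] (ι → F)) : (ι → F) →ₗ[F] (ι → F)) + 1) = LinearMap.ker (Matrix.toLin' ((X : GL ι F) : Matrix ι ι F) + 1) := by
        have : ((bridge Q X : (ι → F) ≃ₗ[F] (ι → F)) : (ι → F) →ₗ[F] (ι → F)) = Matrix.toLin' ((X : GL ι F) : Matrix ι ι F) := LinearMap.ext hb
        rw [this]
      exact conc_of_abs ρ hρK hρ X id Function.surjective_id (back_one hEk h2 hR hQ hRG (bridge Q X) (fun v => by rw [hb, hb, hxx])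
        (s := s) (by rw [hker, hs]; ring) (by omega) (by omega))
    · have hxx : ∀ v, (bridge Q X : (ι → F) ≃ₗ[F] (ι → F)) ((bridge Q X : (ι → F) ≃ₗ[F] (ι → F)) v) = -v := fun v => by
        rw [hb, hb, hXX, hz1, neg_one_smul]
      have hsurj : Function.Surjective (FiniteField.frobeniusAlgHom F E) :=
        Finite.injective_iff_surjective.mp (FiniteField.frobeniusAlgHom F E).injective
      exact conc_of_abs ρ hρK hρ X _ hsurj (back_neg hEk h2 hR hQ hRG (FiniteField.frobeniusAlgHom F E) (fun a => rfl) hd hEd (by omega) (bridge Q X) hxx)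

end final

end Cfsg.Agent.H43.FO
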