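import Mathlib
import Cfsg.Agent.H43.NilForm2
import Cfsg.Agent.H43.Unitary
/-!
# The Hermitian form and the Jordan basis of a unipotent isometry
-/
set_option autoImplicit false
set_option linter.unusedSectionVars false

namespace Cfsg.Agent.H43

variable {K ι : Type*} [Field K] [Finite K] [Fintype ι] [DecidableEq ι] (σ : K →+* K) (hσ : ∀ x, σ (σ x) = x)

/-- standard sesquilinear form -/
def hs (v w : ι → K) : K := ∑ i, σ (v i) * w i

/-- adjoint of an endomorphism -/
noncomputable def ad (c : Module.End K (ι → K)) : Module.End K (ι → K) := Matrix.toLin' (stm σ (LinearMap.toMatrix' c))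

theorem hs_add_left (v v' w : ι → K) : hs σ (v + v') w = hs σ v w + hs σ v' w := by
  unfold hs
  rw [← Finset.sum_add_distrib]
  refine Finset.sum_congr rfl fun i _ => ?_
  rw [Pi.add_apply, map_add, add_mul]

theorem hs_add_right (v w w' : ι → K) : hs σ v (w + w') = hs σ v w + hs σ v w' := by
  unfold hs
  rw [← Finset.sum_add_distrib]
  refine Finset.sum_congr rfl fun i _ => ?_
  rw [Pi.add_apply, mul_add]

theorem hs_smul_left (a : K) (v w : ι → K) : hs σ (a • v) w = σ a * hs σ v w := by
  unfold hs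
  rw [Finset.mul_sum]
  refine Finset.sum_congr rfl fun i _ => ?_
  rw [Pi.smul_apply, smul_eq_mul, map_mul, mul_assoc]

theorem hs_smul_right (a : K) (v w : ι → K) : hs σ v (a • w) = a * hs σ v w := by
  unfold hs
  rw [Finset.mul_sum]
  refine Finset.sum_congr rfl fun i _ => ?_
  rw [Pi.smul_apply, smul_eq_mul]
  ring

theorem hs_zero_left (w : ι → K) : hs σ 0 w = 0 := by
  have := hs_smul_left σ 0 0 w
  rw [zero_smul, map_zero, zero_mul] at this
  exact this

theorem hs_zero_right (v : ι → K) : hs σ v 0 = 0 := by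
  have := hs_smul_right σ 0 v 0
  rw [zero_smul, zero_mul] at this
  exact this

theorem hs_neg_right (v w : ι → K) : hs σ v (-w) = - hs σ v w := by
  have := hs_smul_right σ (-1) v w
  rw [neg_one_smul, neg_one_mul] at this
  exact this

theorem hs_sum_left {α : Type*} (s : Finset α) (f : α → ι → K) (w : ι → K) : hs σ (∑ i ∈ s, f i) w = ∑ i ∈ s, hs σ (f i) w := by
  classical
  induction s using Finset.induction_on with
  | empty => rw [Finset.sum_empty, Finset.sum_empty, hs_zero_left]
  | insert a s ha ih => rw [Finset.sum_insert ha, Finset.sum_insert ha, hs_add_left, ih]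

theorem hs_sum_right {α : Type*} (s : Finset α) (f : α → ι → K) (v : ι → K) : hs σ v (∑ i ∈ s, f i) = ∑ i ∈ s, hs σ v (f i) := by
  classical
  induction s using Finset.induction_on with
  | empty => rw [Finset.sum_empty, Finset.sum_empty, hs_zero_right]
  | insert a s ha ih => rw [Finset.sum_insert ha, Finset.sum_insert ha, hs_add_right, ih]

include hσ in
theorem hs_symm (v w : ι → K) : σ (hs σ v w) = hs σ w v := by
  unfold hs
  rw [map_sum]
  refine Finset.sum_congr rfl fun i _ => ?_
  rw [map_mul, hσ, mul_comm]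

theorem hs_nondeg (w : ι → K) (h : ∀ v, hs σ v w = 0) : w = 0 := by
  funext i
  have h1 := h (Pi.single i 1)
  unfold hs at h1
  rw [Finset.sum_eq_single i] at h1
  · rw [Pi.single_eq_same, map_one, one_mul] at h1
    exact h1
  · intro j _ hj
    rw [Pi.single_eq_of_ne hj, map_zero, zero_mul]
  · intro h; exact absurd (Finset.mem_univ i) h

include hσ in
theorem hs_nondeg' (v : ι → K) (h : ∀ w, hs σ v w = 0) : v = 0 := by
  apply hs_nondeg σ
  intro w
  rw [← hs_symm σ hσ, h, map_zero]

theorem hs_functional (f : (ι → K) →ₗ[K] K) (hσ : ∀ x, σ (σ x) = x) : ∃ v, ∀ w, f w = hs σ v w := by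
  refine ⟨fun i => σ (f (Pi.single i 1)), fun w => ?_⟩
  unfold hs
  conv_lhs => rw [LinearMap.pi_apply_eq_sum_univ f w]
  refine Finset.sum_congr rfl fun i _ => ?_
  rw [hσ, smul_eq_mul, mul_comm]
  congr 2
  funext j
  by_cases h : i = j
  · subst h; simp
  · rw [if_neg h, Pi.single_eq_of_ne (Ne.symm h)]

theorem hs_ad (c : Module.End K (ι → K)) (v w : ι → K) : hs σ (c v) w = hs σ v (ad σ c w) := by
  obtain ⟨M, rfl⟩ : ∃ M : Matrix ι ι K, c = Matrix.toLin' M := ⟨LinearMap.toMatrix' c, (Matrix.toLin'_toMatrix' c).symm⟩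
  unfold ad hs
  rw [LinearMap.toMatrix'_toLin']
  simp only [Matrix.toLin'_apply, Matrix.mulVec, dotProduct, stm, Matrix.transpose_apply, Matrix.map_apply, map_sum, map_mul,
    Finset.sum_mul, Finset.mul_sum]
  rw [Finset.sum_comm]
  refine Finset.sum_congr rfl fun i _ => Finset.sum_congr rfl fun j _ => ?_
  ring

theorem ad_mul (c c' : Module.End K (ι → K)) : ad σ (c * c') = ad σ c' * ad σ c := by
  unfold ad
  rw [LinearMap.toMatrix'_mul, stm_mul, Matrix.toLin'_mul]
  rfl

theorem ad_one : ad σ (1 : Module.End K (ι → K)) = 1 := by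
  unfold ad
  rw [LinearMap.toMatrix'_one, stm_one, Matrix.toLin'_one]
  rfl

theorem ad_add (c c' : Module.End K (ι → K)) : ad σ (c + c') = ad σ c + ad σ c' := by
  unfold ad
  rw [map_add, stm_add, map_add]

theorem ad_smul (a : K) (c : Module.End K (ι → K)) : ad σ (a • c) = σ a • ad σ c := by
  unfold ad
  rw [map_smul]
  have : stm σ (a • LinearMap.toMatrix' c) = σ a • stm σ (LinearMap.toMatrix' c) := by
    ext i j; simp [stm]
  rw [this, map_smul]

theorem ad_sub (c c' : Module.End K (ι → K)) : ad σ (c - c') = ad σ c - ad σ c' := by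
  have h := ad_add σ (c - c') c'
  rw [sub_add_cancel] at h
  rw [h, add_sub_cancel_right]

include hσ in
theorem ad_ad (c : Module.End K (ι → K)) : ad σ (ad σ c) = c := by
  unfold ad
  rw [LinearMap.toMatrix'_toLin', stm_stm σ hσ, Matrix.toLin'_toMatrix']

include hσ in
theorem hs_ad' (c : Module.End K (ι → K)) (v w : ι → K) : hs σ v (c w) = hs σ (ad σ c v) w := by
  rw [hs_ad, ad_ad σ hσ]

theorem ad_pow (c : Module.End K (ι → K)) (k : ℕ) : ad σ (c ^ k) = ad σ c ^ k := by
  induction k with
  | zero => rw [pow_zero, pow_zero, ad_one]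
  | succ k ih => rw [pow_succ, pow_succ', ad_mul, ih]

/-- orthogonal of the kernel is the range of the adjoint -/
theorem mem_range_ad (hσ : ∀ x, σ (σ x) = x) (c : Module.End K (ι → K)) (y : ι → K) (h : ∀ v, c v = 0 → hs σ v y = 0) :
    y ∈ LinearMap.range (ad σ c) := by
  by_contra hy
  obtain ⟨f, hf, hf2⟩ := Submodule.exists_le_ker_of_notMem hy
  obtain ⟨v, hv⟩ := hs_functional σ f hσ
  apply hf
  rw [hv]
  apply h
  apply hs_nondeg' σ hσ
  intro w
  rw [hs_ad, ← hv]
  exact LinearMap.mem_ker.1 (hf2 ⟨w, rfl⟩)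

end Cfsg.Agent.H43
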