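import Mathlib
import Cfsg.Agent.H43.GUForm
/-!
# Layers of the Hermitian form
-/
set_option autoImplicit false
set_option linter.unusedSectionVars false

namespace Cfsg.Agent.H43

section lead
variable {F : Type*} {V : Type*} [Field F] [AddCommGroup V] [Module F V] [FiniteDimensional F V]
  {ι : Type*} [Fintype ι] [DecidableEq ι] {d : ι → ℕ} {N : Module.End F V}
  {b : Module.Basis ((k : ι) × Fin (d k)) F V}

theorem exists_lead (hJ : JB N d b) (hd : ∀ k, 1 ≤ d k) (v : V) :
    ∃ z, v = ∑ l, (b.repr v) ⟨l, ⟨0, hd l⟩⟩ • gen b hd l + N z := by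
  have h : ∀ x, ∃ w, b x = (if (x.2 : ℕ) = 0 then gen b hd x.1 else 0) + N w := by
    rintro ⟨l, i⟩
    by_cases hi : (i : ℕ) = 0
    · refine ⟨0, ?_⟩
      rw [if_pos hi, map_zero, add_zero]
      unfold gen
      congr 2
      exact Fin.ext hi
    · refine ⟨b ⟨l, ⟨(i : ℕ) - 1, by have := i.2; omega⟩⟩, ?_⟩
      rw [if_neg hi, zero_add, hJ, dif_pos (by simp only; have := i.2; omega)]
      congr 2
      exact Fin.ext (by simp only; omega)
  choose w hw using h
  refine ⟨∑ x, (b.repr v) x • w x, ?_⟩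
  conv_lhs => rw [← b.sum_repr v]
  rw [map_sum]
  have h1 : ∀ x, (b.repr v) x • b x = (b.repr v) x • (if (x.2 : ℕ) = 0 then gen b hd x.1 else 0) + N ((b.repr v) x • w x) := by
    intro x
    rw [map_smul, ← smul_add, ← hw]
  rw [Finset.sum_congr rfl (fun x _ => h1 x), Finset.sum_add_distrib]
  congr 1
  rw [← Finset.univ_sigma_univ, Finset.sum_sigma]
  refine Finset.sum_congr rfl fun l _ => ?_
  rw [Finset.sum_eq_single ⟨0, hd l⟩]
  · rw [if_pos rfl]
  · intro i _ hi
    rw [if_neg, smul_zero]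
    intro h
    exact hi (Fin.ext h)
  · intro h; exact absurd (Finset.mem_univ _) h

end lead

theorem sum_dite_subtype {α M : Type*} [Fintype α] [AddCommMonoid M] (p : α → Prop) [DecidablePred p] (f : {i // p i} → M) :
    (∑ m, if h : p m then f ⟨m, h⟩ else 0) = ∑ m : {i // p i}, f m := by
  have h1 : (∑ m, if h : p m then f ⟨m, h⟩ else 0) = ∑ m ∈ Finset.univ.filter p, if h : p m then f ⟨m, h⟩ else 0 := by
    symm
    apply Finset.sum_filter_of_ne
    intro x _ hx
    by_contra h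
    rw [dif_neg h] at hx
    exact hx rfl
  rw [h1, Finset.sum_subtype (p := p) (Finset.univ.filter p) (fun x => by simp)]
  refine Finset.sum_congr rfl fun m _ => ?_
  rw [dif_pos m.2]

section main
variable {K ν : Type*} [Field K] [Finite K] [Fintype ν] [DecidableEq ν] (σ : K →+* K)
  {ι : Type*} [Fintype ι] [DecidableEq ι] {d : ι → ℕ} {U : Module.End K (ν → K)}
  {b : Module.Basis ((k : ι) × Fin (d k)) K (ν → K)}

/-- Gram matrix of the `j`-th layer -/
noncomputable def GS (b : Module.Basis ((k : ι) × Fin (d k)) K (ν → K)) (hd : ∀ k, 1 ≤ d k) (N : Module.End K (ν → K)) (j : ℕ) :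
    Matrix {k // d k = j} {k // d k = j} K := Matrix.of fun k l => hs σ (gen b hd k.1) ((N ^ (j - 1)) (gen b hd l.1))

theorem ad_N (hU : ad σ U * U = 1) : ad σ (U - 1) = (-(ad σ U)) * (U - 1) := by
  rw [ad_sub, ad_one]
  apply LinearMap.ext
  intro v
  have h1 : ad σ U (U v) = v := by rw [← Module.End.mul_apply, hU]; rfl
  change ad σ U v - v = -(ad σ U (U v - v))
  rw [map_sub, h1, neg_sub]

theorem comm_w (hU : ad σ U * U = 1) : Commute (ad σ U) (U - 1) := by
  have h1 : U * ad σ U = 1 := mul_eq_one_comm.1 hU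
  unfold Commute SemiconjBy
  rw [mul_sub, sub_mul, hU, h1, mul_one, one_mul]

theorem ad_N_pow (hU : ad σ U * U = 1) (k : ℕ) : ad σ ((U - 1) ^ k) = (-(ad σ U)) ^ k * (U - 1) ^ k := by
  rw [ad_pow, ad_N σ hU, (Commute.neg_left (comm_w σ hU)).mul_pow]

theorem hs_pow_left (hσ : ∀ x, σ (σ x) = x) (hU : ad σ U * U = 1) (k : ℕ) (v w : ν → K) (h : ((U - 1) ^ k) v = 0) :
    hs σ v (((U - 1) ^ k) w) = 0 := by
  rw [hs_ad' σ hσ, ad_N_pow σ hU, Module.End.mul_apply, h, map_zero, hs_zero_left]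

theorem hs_pow_right (hU : ad σ U * U = 1) (k : ℕ) (v w : ν → K) (h : ((U - 1) ^ k) w = 0) :
    hs σ (((U - 1) ^ k) v) w = 0 := by
  rw [hs_ad, ad_N_pow σ hU, Module.End.mul_apply, h, map_zero, hs_zero_right]

theorem pow_pred_gen (hJ : JB (U - 1) d b) (hd : ∀ k, 1 ≤ d k) (k : ι) (j : ℕ) (h : d k ≤ j) : ((U - 1) ^ j) (gen b hd k) = 0 := by
  obtain ⟨e, rfl⟩ : ∃ e, j = e + d k := ⟨j - d k, by omega⟩
  rw [pow_add, Module.End.mul_apply, pow_gen_zero hJ hd, map_zero]

theorem ad_commute (hσ : ∀ x, σ (σ x) = x) (hU : ad σ U * U = 1) {c : Module.End K (ν → K)} (hc : Commute c (U - 1)) : Commute (ad σ c) (U - 1) := by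
  have h1 : U * ad σ U = 1 := mul_eq_one_comm.1 hU
  have h2 : c * U = U * c := by
    have := hc.eq
    rw [mul_sub, sub_mul, mul_one, one_mul] at this
    exact sub_left_injective this
  have h3 : ad σ U * ad σ c = ad σ c * ad σ U := by rw [← ad_mul, ← ad_mul, h2]
  have h4 : U * ad σ c = ad σ c * U := by
    calc U * ad σ c = U * ad σ c * (ad σ U * U) := by rw [hU, mul_one]
      _ = U * (ad σ c * ad σ U) * U := by simp only [mul_assoc]
      _ = U * (ad σ U * ad σ c) * U := by rw [h3]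
      _ = (U * ad σ U) * (ad σ c * U) := by simp only [mul_assoc]
      _ = _ := by rw [h1, one_mul]
  unfold Commute SemiconjBy
  rw [mul_sub, sub_mul, mul_one, one_mul, h4]

/-- the adjoint on the layers -/
theorem GS_adj (hσ : ∀ x, σ (σ x) = x) (hU : ad σ U * U = 1) (hJ : JB (U - 1) d b) (hd : ∀ k, 1 ≤ d k) {c : Module.End K (ν → K)}
    (hc : Commute c (U - 1)) (j : ℕ) :
    stm σ (blockM b hd c j) * GS σ b hd (U - 1) j = GS σ b hd (U - 1) j * blockM b hd (ad σ c) j := by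
  ext k l
  have hk := k.2
  have hl := l.2
  have hj1 : 1 ≤ j := by rw [← hk]; exact hd k.1
  rw [Matrix.mul_apply, Matrix.mul_apply]
  -- both sides equal `hs (c gen k) (N^(j-1) gen l)`
  have hL : hs σ (c (gen b hd k.1)) (((U - 1) ^ (j - 1)) (gen b hd l.1)) =
      ∑ m : {k // d k = j}, stm σ (blockM b hd c j) k m * GS σ b hd (U - 1) j m l := by
    obtain ⟨z, hz⟩ := exists_lead hJ hd (c (gen b hd k.1))
    rw [hz, hs_add_left, hs_sum_left]
    have h0 : hs σ ((U - 1) z) (((U - 1) ^ (j - 1)) (gen b hd l.1)) = 0 := by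
      rw [hs_ad, ad_N σ hU, Module.End.mul_apply, ← Module.End.mul_apply (U - 1), ← pow_succ',
        pow_pred_gen hJ hd _ _ (by omega), map_zero, hs_zero_right]
    rw [h0, add_zero]
    have h1 : ∀ m : ι, hs σ ((b.repr (c (gen b hd k.1))) ⟨m, ⟨0, hd m⟩⟩ • gen b hd m) (((U - 1) ^ (j - 1)) (gen b hd l.1)) =
        if h : d m = j then stm σ (blockM b hd c j) k ⟨m, h⟩ * GS σ b hd (U - 1) j ⟨m, h⟩ l else 0 := by
      intro m
      rw [hs_smul_left]
      by_cases h : d m = j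
      · rw [dif_pos h]
        rfl
      · rw [dif_neg h]
        rcases Nat.lt_or_gt_of_ne h with h' | h'
        · rw [hs_pow_left σ hσ hU _ _ _ (pow_pred_gen hJ hd m (j - 1) (by omega)), mul_zero]
        · have h2 := leadM_eq_zero hJ hd hc (l := m) (k := k.1) (by omega)
          unfold leadM at h2
          rw [Matrix.of_apply] at h2
          rw [h2, map_zero, zero_mul]
    rw [Finset.sum_congr rfl (fun m _ => h1 m)]
    exact sum_dite_subtype (fun m => d m = j) (fun m => stm σ (blockM b hd c j) k m * GS σ b hd (U - 1) j m l)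
  have hR : hs σ (c (gen b hd k.1)) (((U - 1) ^ (j - 1)) (gen b hd l.1)) =
      ∑ m : {k // d k = j}, GS σ b hd (U - 1) j k m * blockM b hd (ad σ c) j m l := by
    have hc' := ad_commute σ hσ hU hc
    rw [hs_ad, ← Module.End.mul_apply, (hc'.pow_right _).eq, Module.End.mul_apply]
    obtain ⟨z, hz⟩ := exists_lead hJ hd (ad σ c (gen b hd l.1))
    rw [hz, map_add, map_sum, hs_add_right, hs_sum_right]
    have h0 : hs σ (gen b hd k.1) (((U - 1) ^ (j - 1)) ((U - 1) z)) = 0 := by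
      rw [← Module.End.mul_apply, ← pow_succ]
      exact hs_pow_left σ hσ hU _ _ _ (pow_pred_gen hJ hd _ _ (by omega))
    rw [h0, add_zero]
    have h1 : ∀ m : ι, hs σ (gen b hd k.1) (((U - 1) ^ (j - 1)) ((b.repr (ad σ c (gen b hd l.1))) ⟨m, ⟨0, hd m⟩⟩ • gen b hd m)) =
        if h : d m = j then GS σ b hd (U - 1) j k ⟨m, h⟩ * blockM b hd (ad σ c) j ⟨m, h⟩ l else 0 := by
      intro m
      rw [map_smul, hs_smul_right]
      by_cases h : d m = j
      · rw [dif_pos h, mul_comm]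
        rfl
      · rw [dif_neg h]
        rcases Nat.lt_or_gt_of_ne h with h' | h'
        · rw [pow_pred_gen hJ hd m (j - 1) (by omega), hs_zero_right, mul_zero]
        · have h2 := leadM_eq_zero hJ hd hc' (l := m) (k := l.1) (by omega)
          unfold leadM at h2
          rw [Matrix.of_apply] at h2
          rw [h2, zero_mul]
    rw [Finset.sum_congr rfl (fun m _ => h1 m)]
    exact sum_dite_subtype (fun m => d m = j) (fun m => GS σ b hd (U - 1) j k m * blockM b hd (ad σ c) j m l)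
  rw [← hL, ← hR]

/-- symmetry of the layers -/
theorem GS_symm (hσ : ∀ x, σ (σ x) = x) (hU : ad σ U * U = 1) (hJ : JB (U - 1) d b) (hd : ∀ k, 1 ≤ d k) (j : ℕ) :
    stm σ (GS σ b hd (U - 1) j) = (-1 : K) ^ (j - 1) • GS σ b hd (U - 1) j := by
  ext k l
  have hk := k.2
  have hl := l.2
  have hj1 : 1 ≤ j := by rw [← hk]; exact hd k.1
  change σ (hs σ (gen b hd l.1) (((U - 1) ^ (j - 1)) (gen b hd k.1))) = (-1 : K) ^ (j - 1) * hs σ (gen b hd k.1) (((U - 1) ^ (j - 1)) (gen b hd l.1))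
  rw [hs_symm σ hσ, hs_ad, ad_N_pow σ hU, Module.End.mul_apply]
  obtain ⟨y, hy⟩ : ∃ y, y = ((U - 1) ^ (j - 1)) (gen b hd l.1) := ⟨_, rfl⟩
  have h1 : (U - 1) y = 0 := by
    rw [hy, ← Module.End.mul_apply, ← pow_succ', pow_pred_gen hJ hd _ _ (by omega)]
  have h2 : U y = y := by
    have h3 : U y - y = 0 := h1
    exact sub_eq_zero.1 h3
  have h3 : ad σ U y = y := by
    conv_lhs => rw [← h2]
    rw [← Module.End.mul_apply, hU]; rfl
  have h4 : ∀ i : ℕ, ((-(ad σ U)) ^ i) y = (-1 : K) ^ i • y := by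
    intro i
    induction i with
    | zero => rw [pow_zero, pow_zero, one_smul]; rfl
    | succ i ih =>
      rw [pow_succ', Module.End.mul_apply, ih, map_smul, LinearMap.neg_apply, h3, pow_succ', neg_one_mul, neg_smul, smul_neg]
  rw [← hy, h4, hs_smul_right]

/-- the layers are nondegenerate -/
theorem GS_det (hσ : ∀ x, σ (σ x) = x) (hU : ad σ U * U = 1) (hJ : JB (U - 1) d b) (hd : ∀ k, 1 ≤ d k) (j : ℕ) :
    IsUnit (GS σ b hd (U - 1) j) := by
  rw [← Matrix.mulVec_injective_iff_isUnit]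
  intro x x' hx
  rw [← sub_eq_zero]
  have hx0 : (GS σ b hd (U - 1) j).mulVec (x - x') = 0 := by
    rw [Matrix.mulVec_sub, sub_eq_zero]; exact hx
  obtain ⟨x₀, hx₀⟩ : ∃ x₀, x₀ = x - x' := ⟨_, rfl⟩
  rw [← hx₀] at hx0 ⊢
  clear hx hx₀ x x'
  by_cases hemp : ∃ k, d k = j
  swap
  · funext k
    exact absurd ⟨k.1, k.2⟩ hemp
  have hj1 : 1 ≤ j := by obtain ⟨k, hk⟩ := hemp; rw [← hk]; exact hd k
  obtain ⟨y, hy⟩ : ∃ y, y = ∑ l : {k // d k = j}, x₀ l • ((U - 1) ^ (j - 1)) (gen b hd l.1) := ⟨_, rfl⟩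
  have hNy : (U - 1) y = 0 := by
    rw [hy, map_sum]
    apply Finset.sum_eq_zero
    intro l _
    rw [map_smul, ← Module.End.mul_apply, ← pow_succ', pow_pred_gen hJ hd _ _ (by have := l.2; omega), smul_zero]
  have hyk : ∀ k : {k // d k = j}, hs σ (gen b hd k.1) y = 0 := by
    intro k
    have h1 := congrFun hx0 k
    rw [hy, hs_sum_right]
    change ∑ l, GS σ b hd (U - 1) j k l * x₀ l = 0 at h1
    rw [← h1]
    refine Finset.sum_congr rfl fun l _ => ?_
    rw [hs_smul_right, mul_comm]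
    rfl
  have hy2 : ∀ v, ((U - 1) ^ j) v = 0 → hs σ v y = 0 := by
    intro v hv
    obtain ⟨z, hz⟩ := exists_lead hJ hd v
    rw [hz, hs_add_left, hs_sum_left]
    have h0 : hs σ ((U - 1) z) y = 0 := by
      rw [hs_ad, ad_N σ hU, Module.End.mul_apply, hNy, map_zero, hs_zero_right]
    rw [h0, add_zero]
    apply Finset.sum_eq_zero
    intro m _
    rw [hs_smul_left]
    by_cases h : d m = j
    · rw [hyk ⟨m, h⟩, mul_zero]
    · rcases Nat.lt_or_gt_of_ne h with h' | h'
      · have : hs σ (gen b hd m) y = 0 := by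
          rw [hy, hs_sum_right]
          apply Finset.sum_eq_zero
          intro l _
          rw [hs_smul_right, hs_pow_left σ hσ hU _ _ _ (pow_pred_gen hJ hd m (j - 1) (by omega)), mul_zero]
        rw [this, mul_zero]
      · have h2 := repr_pow hJ j v m ⟨j, h'⟩
        rw [hv, dif_pos (le_refl _), map_zero] at h2
        have e : (⟨((⟨j, h'⟩ : Fin (d m)) : ℕ) - j, by simp; have := hd m; omega⟩ : Fin (d m)) = ⟨0, hd m⟩ := Fin.ext (by simp)
        rw [e] at h2
        have h3 : (b.repr v) ⟨m, ⟨0, hd m⟩⟩ = 0 := h2.symm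
        rw [h3, map_zero, zero_mul]
  have hy3 := mem_range_ad σ hσ ((U - 1) ^ j) y hy2
  obtain ⟨z, hz⟩ := hy3
  rw [ad_N_pow σ hU, ((comm_w σ hU).neg_left.pow_pow _ _).eq, Module.End.mul_apply] at hz
  obtain ⟨z', hz'⟩ : ∃ z', z' = ((-(ad σ U)) ^ j) z := ⟨_, rfl⟩
  rw [← hz'] at hz
  funext l
  have hl := l.2
  have hlt : j - 1 < d l.1 := by omega
  have h1 := repr_pow hJ j z' l.1 ⟨j - 1, hlt⟩
  rw [dif_neg (by simp only; omega), hz] at h1
  rw [hy, map_sum, Finsupp.finsetSum_apply, Finset.sum_eq_single l] at h1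
  · have h2 := pow_gen hJ hd l.1 ⟨j - 1, hlt⟩
    simp only at h2
    rw [map_smul, h2, Finsupp.smul_apply, Module.Basis.repr_self, Finsupp.single_eq_same, smul_eq_mul, mul_one] at h1
    exact h1
  · intro m _ hm
    have hm2 := m.2
    have hlt' : j - 1 < d m.1 := by omega
    have h2 := pow_gen hJ hd m.1 ⟨j - 1, hlt'⟩
    simp only at h2
    rw [map_smul, h2, Finsupp.smul_apply, Module.Basis.repr_self, Finsupp.single_eq_of_ne, smul_zero]
    intro h
    rw [Sigma.mk.injEq] at h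
    exact hm (Subtype.ext h.1.symm)
  · intro h; exact absurd (Finset.mem_univ _) h

end main

end Cfsg.Agent.H43
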