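import Mathlib
import Cfsg.Agent.H43.GUForm2
import Cfsg.Agent.H43.Unitary2
import Cfsg.Agent.Uni.Basis
/-!
# Counting unitary centralizers of unipotent elements
-/
set_option autoImplicit false
set_option linter.unusedSectionVars false

namespace Cfsg.Agent.H43

open Polynomial

section
variable {K : Type*} [Field K] (σ : K →+* K) (hσ : ∀ x, σ (σ x) = x) (hne : σ ≠ RingHom.id K)

include hσ hne in
/-- fixed points of a semilinear involution -/
theorem card_fix_semilin [Finite K] {q : ℕ} (hK : Nat.card K = q ^ 2) (m : ℕ) (T : (Fin m → K) → (Fin m → K)) (hT : ∀ v w, T (v + w) = T v + T w)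
    (hT' : ∀ (c : K) v, T (c • v) = σ c • T v) (hTT : ∀ v, T (T v) = v) : Nat.card {v : Fin m → K // T v = v} = q ^ m := by
  obtain ⟨ω, hω⟩ : ∃ ω, σ ω ≠ ω := by
    by_contra h
    push Not at h
    exact hne (RingHom.ext h)
  have hd : ω - σ ω ≠ 0 := sub_ne_zero.2 (Ne.symm hω)
  have hTs : ∀ v w, T (v - w) = T v - T w := by
    intro v w
    have h1 := hT (v - w) w
    rw [sub_add_cancel] at h1
    rw [h1, add_sub_cancel_right]
  let f : {v : Fin m → K // T v = v} × {v : Fin m → K // T v = v} → (Fin m → K) := fun x => x.1.1 + ω • x.2.1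
  have hf : Function.Bijective f := by
    constructor
    · rintro ⟨x, y⟩ ⟨x', y'⟩ h
      have h1 : x.1 + ω • y.1 = x'.1 + ω • y'.1 := h
      have h2 := congrArg T h1
      rw [hT, hT, hT', hT', x.2, y.2, x'.2, y'.2] at h2
      have h3 : (ω - σ ω) • y.1 = (ω - σ ω) • y'.1 := by
        rw [sub_smul, sub_smul]
        have h4 : ω • y.1 - σ ω • y.1 = (x.1 + ω • y.1) - (x.1 + σ ω • y.1) := by abel
        rw [h4, h1, h2]; abel
      have h4 : y = y' := by
        apply Subtype.ext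
        funext i
        have h5 := congrFun h3 i
        exact mul_left_cancel₀ hd h5
      subst h4
      have h5 : x = x' := Subtype.ext (add_right_cancel h1)
      rw [h5]
    · intro v
      obtain ⟨y, hy⟩ : ∃ y, y = (ω - σ ω)⁻¹ • (v - T v) := ⟨_, rfl⟩
      have hy1 : (ω - σ ω) • y = v - T v := by rw [hy, smul_smul, mul_inv_cancel₀ hd, one_smul]
      have hTy : T y = y := by
        have h1 := congrArg T hy1
        rw [hT', hTs, hTT, map_sub, hσ] at h1
        have h2 : (ω - σ ω) • T y = (ω - σ ω) • y := by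
          rw [hy1]
          have h3 : (ω - σ ω) • T y = -((σ ω - ω) • T y) := by
            rw [← neg_smul, neg_sub]
          rw [h3, h1, neg_sub]
        funext i
        exact mul_left_cancel₀ hd (congrFun h2 i)
      have hTx : T (v - ω • y) = v - ω • y := by
        rw [hTs, hT', hTy]
        have h1 : ω • y - σ ω • y = v - T v := by rw [← sub_smul, hy1]
        have h2 : v - ω • y - (T v - σ ω • y) = 0 := by
          have : v - ω • y - (T v - σ ω • y) = (v - T v) - (ω • y - σ ω • y) := by abel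
          rw [this, h1, sub_self]
        exact (sub_eq_zero.1 h2).symm
      exact ⟨(⟨v - ω • y, hTx⟩, ⟨y, hTy⟩), by change v - ω • y + ω • y = v; abel⟩
  have h1 := Nat.card_congr (Equiv.ofBijective f hf)
  rw [Nat.card_prod, Nat.card_fun, Nat.card_fin, hK] at h1
  have h2 : Nat.card {v : Fin m → K // T v = v} ^ 2 = (q ^ m) ^ 2 := by
    rw [sq, h1]; ring
  exact Nat.pow_left_injective (by norm_num : 2 ≠ 0) h2


end

section
variable {K ι : Type*} [Field K] [Finite K] [Fintype ι] [DecidableEq ι] (σ : K →+* K)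

theorem aeval_toLin2 (A : Matrix ι ι K) (Q : K[X]) :
    aeval (Matrix.toLin' A : Module.End K (ι → K)) Q = Matrix.toLin' (aeval A Q) := by
  have h := Polynomial.aeval_algHom_apply (Matrix.toLinAlgEquiv' (R := K) (n := ι)).toAlgHom A Q
  exact h

theorem stm_sum2 {α : Type*} (s : Finset α) (f : α → Matrix ι ι K) : stm σ (∑ i ∈ s, f i) = ∑ i ∈ s, stm σ (f i) := by
  classical
  induction s using Finset.induction_on with
  | empty =>
    rw [Finset.sum_empty, Finset.sum_empty]
    ext i j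
    simp [stm]
  | insert a s ha ih => rw [Finset.sum_insert ha, Finset.sum_insert ha, stm_add, ih]

theorem stm_pow2 (A : Matrix ι ι K) (k : ℕ) : stm σ (A ^ k) = stm σ A ^ k := by
  induction k with
  | zero => rw [pow_zero, pow_zero, stm_one]
  | succ k ih => rw [pow_succ, stm_mul, ih, pow_succ']

theorem stm_smul2 (c : K) (A : Matrix ι ι K) : stm σ (c • A) = σ c • stm σ A := by
  ext i j
  simp [stm]

theorem stm_aeval2 (A : Matrix ι ι K) (Q : K[X]) : stm σ (aeval A Q) = aeval (stm σ A) (Q.map σ) := by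
  rw [aeval_eq_sum_range, aeval_eq_sum_range, stm_sum2, natDegree_map]
  refine Finset.sum_congr rfl fun i _ => ?_
  rw [stm_smul2, stm_pow2, coeff_map]


end

/-- Hermitian matrices are norms -/
theorem herm_decomp {K κ : Type*} [Field K] [Finite K] [Fintype κ] [DecidableEq κ] (σ : K →+* K) (hσ : ∀ x, σ (σ x) = x)
    (hne : σ ≠ RingHom.id K) (H : GL κ K) (hsH : stm σ (H : Matrix κ κ K) = (H : Matrix κ κ K)) :
    ∃ P : GL κ K, (H : Matrix κ κ K) = stm σ (P : Matrix κ κ K) * (P : Matrix κ κ K) := by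
  obtain ⟨ω, hω⟩ : ∃ ω, σ ω ≠ ω := by
    by_contra h
    push Not at h
    exact hne (RingHom.ext h)
  let σe : K ≃+* K := RingEquiv.ofBijective σ ⟨σ.injective, fun x => ⟨σ x, hσ x⟩⟩
  obtain ⟨C, hC⟩ := Cfsg.Agent.AutLie.exists_herm_eq σe (by
    intro h
    apply hω
    exact RingEquiv.congr_fun h ω) hσ H (by
    intro i j
    have := congrFun (congrFun hsH j) i
    exact this)
  obtain ⟨P, hP⟩ : ∃ P : GL κ K, P = (Cfsg.Agent.AutPSL.mapGL σe (Cfsg.Agent.AutPSL.invTGL C))⁻¹ := ⟨_, rfl⟩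
  have hPv : (P : Matrix κ κ K) = stm σ (C : Matrix κ κ K) := by
    rw [hP, Cfsg.Agent.AutPSL.coe_mapGL_inv, Cfsg.Agent.AutPSL.coe_invTGL_inv]
    rfl
  exact ⟨P, by rw [hC, ← hP, Units.val_mul, hPv, stm_stm σ hσ]⟩

/-- order of the isometry group of an (anti-)Hermitian form -/
theorem card_isom {K κ : Type*} [Field K] [Fintype K] [Fintype κ] [DecidableEq κ] {q : ℕ} (hK : Fintype.card K = q ^ 2)
    (G : Matrix κ κ K) (hG : IsUnit G) (ε : K) (hε : ε = 1 ∨ ε = -1) (hs : stm (Cfsg.Agent.ClGeo.frob hK) G = ε • G) :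
    Nat.card {B : Matrix κ κ K // stm (Cfsg.Agent.ClGeo.frob hK) B * G * B = G} = Nat.card (Cfsg.GU (Fintype.card κ) K q) := by
  obtain ⟨σ, hσd⟩ : ∃ σ, σ = Cfsg.Agent.ClGeo.frob hK := ⟨_, rfl⟩
  have hσ : ∀ x, σ (σ x) = x := by rw [hσd]; exact Cfsg.Agent.ClGeo.frob_frob hK
  have hne : σ ≠ RingHom.id K := by rw [hσd]; exact Cfsg.Agent.ClGeo.frob_ne_id hK
  rw [← hσd] at hs ⊢
  obtain ⟨ω, hω⟩ : ∃ ω, σ ω ≠ ω := by
    by_contra h
    push Not at h
    exact hne (RingHom.ext h)
  obtain ⟨δ, hδ0, hδ⟩ : ∃ δ : K, δ ≠ 0 ∧ σ δ = ε * δ := by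
    rcases hε with rfl | rfl
    · exact ⟨1, one_ne_zero, by rw [map_one, mul_one]⟩
    · exact ⟨ω - σ ω, sub_ne_zero.2 (Ne.symm hω), by rw [map_sub, hσ]; ring⟩
  obtain ⟨G, rfl⟩ := hG
  have hε2 : ε * ε = 1 := by rcases hε with rfl | rfl <;> ring
  obtain ⟨P, hP⟩ := herm_decomp σ hσ hne (((Units.mk0 δ hδ0) • G : GL κ K)) (by
    change stm σ (δ • (G : Matrix κ κ K)) = δ • (G : Matrix κ κ K)
    rw [stm_smul2, hs, hδ, smul_smul]
    congr 1
    linear_combination δ * hε2)
  have hP' : δ • (G : Matrix κ κ K) = stm σ (P : Matrix κ κ K) * (P : Matrix κ κ K) := hP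
  have hcr : ∀ B : Matrix κ κ K, stm σ B * (G : Matrix κ κ K) * B = (G : Matrix κ κ K) ↔
      stm σ ((P : Matrix κ κ K) * B * ((P⁻¹ : GL κ K) : Matrix κ κ K)) * ((P : Matrix κ κ K) * B * ((P⁻¹ : GL κ K) : Matrix κ κ K)) = 1 := by
    intro B
    have e1 : stm σ ((P : Matrix κ κ K) * B * ((P⁻¹ : GL κ K) : Matrix κ κ K)) * ((P : Matrix κ κ K) * B * ((P⁻¹ : GL κ K) : Matrix κ κ K)) =
        stm σ ((P⁻¹ : GL κ K) : Matrix κ κ K) * (δ • (stm σ B * (G : Matrix κ κ K) * B)) * ((P⁻¹ : GL κ K) : Matrix κ κ K) := by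
      rw [stm_mul, stm_mul]
      have e2 : δ • (stm σ B * (G : Matrix κ κ K) * B) = stm σ B * (stm σ (P : Matrix κ κ K) * (P : Matrix κ κ K)) * B := by
        rw [← hP', mul_smul_comm, smul_mul_assoc]
      rw [e2]
      simp only [mul_assoc]
    rw [e1]
    constructor
    · intro h
      rw [h, hP']
      calc stm σ ((P⁻¹ : GL κ K) : Matrix κ κ K) * (stm σ (P : Matrix κ κ K) * (P : Matrix κ κ K)) * ((P⁻¹ : GL κ K) : Matrix κ κ K)
          = (stm σ ((P⁻¹ : GL κ K) : Matrix κ κ K) * stm σ (P : Matrix κ κ K)) * ((P : Matrix κ κ K) * ((P⁻¹ : GL κ K) : Matrix κ κ K)) := by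
            simp only [mul_assoc]
        _ = 1 := by rw [stm_units, Units.mul_inv, mul_one]
    · intro h
      have h1 := congrArg (fun M => stm σ (P : Matrix κ κ K) * M * (P : Matrix κ κ K)) h
      simp only [mul_one] at h1
      have h2 : stm σ (P : Matrix κ κ K) * (stm σ ((P⁻¹ : GL κ K) : Matrix κ κ K) * (δ • (stm σ B * (G : Matrix κ κ K) * B)) * ((P⁻¹ : GL κ K) : Matrix κ κ K)) * (P : Matrix κ κ K) =
          δ • (stm σ B * (G : Matrix κ κ K) * B) := by
        calc _ = (stm σ (P : Matrix κ κ K) * stm σ ((P⁻¹ : GL κ K) : Matrix κ κ K)) * (δ • (stm σ B * (G : Matrix κ κ K) * B)) * (((P⁻¹ : GL κ K) : Matrix κ κ K) * (P : Matrix κ κ K)) := by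
              simp only [mul_assoc]
          _ = _ := by rw [stm_units', Units.inv_mul, one_mul, mul_one]
      rw [h2, ← hP'] at h1
      have h3 := congrArg (fun M => δ⁻¹ • M) h1
      simp only [smul_smul, inv_mul_cancel₀ hδ0, one_smul] at h3
      exact h3
  have e : κ ≃ Fin (Fintype.card κ) := Fintype.equivFin κ
  have hre : ∀ B : Matrix κ κ K, stm σ (Matrix.reindex e e B) = Matrix.reindex e e (stm σ B) := by
    intro B; ext i j; rfl
  have hmemGU : ∀ A : GL (Fin (Fintype.card κ)) K, A ∈ Cfsg.GU (Fintype.card κ) K q ↔ stm σ (A : Matrix (Fin (Fintype.card κ)) (Fin (Fintype.card κ)) K) * (A : Matrix (Fin (Fintype.card κ)) (Fin (Fintype.card κ)) K) = 1 := by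
    rw [hσd]; exact mem_GU_iff hK
  have h1 : Nat.card {B : Matrix κ κ K // stm σ B * (G : Matrix κ κ K) * B = (G : Matrix κ κ K)} = Nat.card {B : Matrix κ κ K // stm σ B * B = 1} := by
    refine Nat.card_congr
      { toFun := fun B => ⟨(P : Matrix κ κ K) * B.1 * ((P⁻¹ : GL κ K) : Matrix κ κ K), (hcr B.1).1 B.2⟩
        invFun := fun B => ⟨((P⁻¹ : GL κ K) : Matrix κ κ K) * B.1 * (P : Matrix κ κ K), ?_⟩
        left_inv := fun B => ?_
        right_inv := fun B => ?_ }
    · rw [hcr]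
      have : (P : Matrix κ κ K) * (((P⁻¹ : GL κ K) : Matrix κ κ K) * B.1 * (P : Matrix κ κ K)) * ((P⁻¹ : GL κ K) : Matrix κ κ K) = B.1 := by
        calc _ = ((P : Matrix κ κ K) * ((P⁻¹ : GL κ K) : Matrix κ κ K)) * B.1 * ((P : Matrix κ κ K) * ((P⁻¹ : GL κ K) : Matrix κ κ K)) := by simp only [mul_assoc]
          _ = _ := by rw [Units.mul_inv, one_mul, mul_one]
      rw [this]; exact B.2
    · apply Subtype.ext
      calc ((P⁻¹ : GL κ K) : Matrix κ κ K) * ((P : Matrix κ κ K) * B.1 * ((P⁻¹ : GL κ K) : Matrix κ κ K)) * (P : Matrix κ κ K)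
          = (((P⁻¹ : GL κ K) : Matrix κ κ K) * (P : Matrix κ κ K)) * B.1 * (((P⁻¹ : GL κ K) : Matrix κ κ K) * (P : Matrix κ κ K)) := by simp only [mul_assoc]
        _ = _ := by rw [Units.inv_mul, one_mul, mul_one]
    · apply Subtype.ext
      calc (P : Matrix κ κ K) * (((P⁻¹ : GL κ K) : Matrix κ κ K) * B.1 * (P : Matrix κ κ K)) * ((P⁻¹ : GL κ K) : Matrix κ κ K)
          = ((P : Matrix κ κ K) * ((P⁻¹ : GL κ K) : Matrix κ κ K)) * B.1 * ((P : Matrix κ κ K) * ((P⁻¹ : GL κ K) : Matrix κ κ K)) := by simp only [mul_assoc]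
        _ = _ := by rw [Units.mul_inv, one_mul, mul_one]
  rw [h1]
  have hmul : ∀ B B' : Matrix κ κ K, Matrix.reindex e e (B * B') = Matrix.reindex e e B * Matrix.reindex e e B' := by
    intro B B'; exact (Matrix.submatrix_mul_equiv B B' e.symm e.symm e.symm).symm
  have hone : Matrix.reindex e e (1 : Matrix κ κ K) = 1 := by
    rw [Matrix.reindex_apply, Matrix.submatrix_one_equiv]
  symm
  refine Nat.card_congr (Equiv.ofBijective (fun A : Cfsg.GU (Fintype.card κ) K q =>
    (⟨(Matrix.reindex e e).symm ((A : GL (Fin (Fintype.card κ)) K) : Matrix (Fin (Fintype.card κ)) (Fin (Fintype.card κ)) K), ?_⟩ :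
      {B : Matrix κ κ K // stm σ B * B = 1})) ⟨?_, ?_⟩)
  · have hA := (hmemGU _).1 A.2
    apply (Matrix.reindex e e).injective
    rw [hmul, ← hre, Equiv.apply_symm_apply, hA, hone]
  · intro A A' h
    have h2 := congrArg Subtype.val h
    have h3 := (Matrix.reindex e e).symm.injective h2
    exact Subtype.ext (Units.ext h3)
  · intro B
    have h2 : stm σ (Matrix.reindex e e B.1) * Matrix.reindex e e B.1 = 1 := by
      rw [hre, ← hmul, B.2, hone]
    have h3 : Matrix.reindex e e B.1 * stm σ (Matrix.reindex e e B.1) = 1 := mul_eq_one_comm.1 h2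
    refine ⟨⟨⟨Matrix.reindex e e B.1, stm σ (Matrix.reindex e e B.1), h3, h2⟩, (hmemGU _).2 h2⟩, ?_⟩
    apply Subtype.ext
    exact (Matrix.reindex e e).symm_apply_apply B.1

/-- a polynomial square-root-like solution -/
theorem exists_norm_poly {K : Type*} [Field K] (σ : K →+* K) (hσ : ∀ x, σ (σ x) = x) (hne : σ ≠ RingHom.id K) (m : ℕ) :
    ∃ f : K[X], f.coeff 0 = 1 ∧ X ^ (m + 1) ∣ f.map σ * f - (1 + X) := by
  obtain ⟨x, hx⟩ : ∃ x : K, x + σ x ≠ 0 := by
    by_contra h
    push Not at h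
    apply hne
    ext x
    have h1 := h 1
    have h2 := h x
    rw [map_one] at h1
    rw [RingHom.id_apply]
    have h3 : (1 + 1 : K) * x = 0 := by rw [h1, zero_mul]
    linear_combination h2 - h3
  obtain ⟨lam, hlam⟩ : ∃ lam : K, lam + σ lam = 1 := by
    refine ⟨x / (x + σ x), ?_⟩
    rw [map_div₀, map_add, hσ, add_comm (σ x) x, ← add_div, div_self hx]
  induction m with
  | zero =>
    refine ⟨1, coeff_one_zero, ?_⟩
    rw [Polynomial.map_one, mul_one]
    exact ⟨-1, by ring⟩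
  | succ m ih =>
    obtain ⟨f, hf0, g, hg⟩ := ih
    have hgσ : g.map σ = g := by
      have h1 := congrArg (Polynomial.map σ) hg
      rw [Polynomial.map_sub, Polynomial.map_mul, Polynomial.map_map, Polynomial.map_mul, Polynomial.map_add, Polynomial.map_one,
        Polynomial.map_pow, Polynomial.map_X] at h1
      have h2 : f.map (σ.comp σ) = f := by
        have : σ.comp σ = RingHom.id K := RingHom.ext hσ
        rw [this, Polynomial.map_id]
      rw [h2, mul_comm f, hg] at h1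
      exact (mul_left_cancel₀ (pow_ne_zero _ X_ne_zero) h1).symm
    have hg0 : σ (g.coeff 0) = g.coeff 0 := by
      conv_rhs => rw [← hgσ]
      rw [coeff_map]
    refine ⟨f - C (lam * g.coeff 0) * X ^ (m + 1), ?_, ?_⟩
    · rw [coeff_sub, coeff_C_mul, coeff_X_pow, if_neg (by omega), mul_zero, sub_zero, hf0]
    · have hf1 : X ∣ f - 1 := by
        rw [X_dvd_iff, coeff_sub, hf0, coeff_one_zero, sub_self]
      have hf2 : X ∣ f.map σ - 1 := by
        rw [X_dvd_iff, coeff_sub, coeff_map, hf0, map_one, coeff_one_zero, sub_self]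
      have hg1 : X ∣ g - C (g.coeff 0) := by
        rw [X_dvd_iff, coeff_sub, coeff_C_zero, sub_self]
      obtain ⟨r1, hr1⟩ := hf1
      obtain ⟨r2, hr2⟩ := hf2
      obtain ⟨r3, hr3⟩ := hg1
      have hf1' : f = 1 + X * r1 := by rw [← hr1]; ring
      have hf2' : f.map σ = 1 + X * r2 := by rw [← hr2]; ring
      have hg1' : g = C (g.coeff 0) + X * r3 := by rw [← hr3]; ring
      obtain ⟨a, ha⟩ : ∃ a, a = g.coeff 0 := ⟨_, rfl⟩
      rw [← ha] at hg1' hg0 ⊢
      have hC : C lam * C a + C (σ lam) * C a = C a := by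
        rw [← add_mul, ← C_add, hlam, C_1, one_mul]
      rw [Polynomial.map_sub, Polynomial.map_mul, Polynomial.map_pow, Polynomial.map_X, map_C, map_mul, hg0, C_mul, C_mul]
      refine ⟨r3 - C lam * C a * r2 - C (σ lam) * C a * r1 + C lam * C a * (C (σ lam) * C a) * X ^ m, ?_⟩
      have e1 : (f.map σ - C (σ lam) * C a * X ^ (m + 1)) * (f - C lam * C a * X ^ (m + 1)) - (1 + X) =
          (f.map σ * f - (1 + X)) - X ^ (m + 1) * (C lam * C a * f.map σ + C (σ lam) * C a * f) + C lam * C a * (C (σ lam) * C a) * X ^ (m + 1) * X ^ (m + 1) := by ring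
      rw [e1, hg]
      have e2 : C lam * C a * f.map σ + C (σ lam) * C a * f = C a + X * (C lam * C a * r2 + C (σ lam) * C a * r1) := by
        rw [hf2', hf1']
        linear_combination hC
      rw [e2]
      conv_lhs => rw [hg1']
      ring

end Cfsg.Agent.H43
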