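import Mathlib
import Cfsg.Agent.H43.GUForm3
import Cfsg.Agent.H43.CentJordan3
/-!
# Counting unitary centralizers of unipotent elements
-/
set_option autoImplicit false
set_option linter.unusedSectionVars false

namespace Cfsg.Agent.H43

open Polynomial

variable {K ν : Type*} [Field K] [Finite K] [Fintype ν] [DecidableEq ν] (σ : K →+* K)
  {ι : Type*} [Fintype ι] [DecidableEq ι] {d : ι → ℕ} {U : Module.End K (ν → K)}
  {b : Module.Basis ((k : ι) × Fin (d k)) K (ν → K)}

theorem ad_aeval (c : Module.End K (ν → K)) (Q : K[X]) : ad σ (aeval c Q) = aeval (ad σ c) (Q.map σ) := by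
  obtain ⟨M, rfl⟩ : ∃ M : Matrix ν ν K, c = Matrix.toLin' M := ⟨LinearMap.toMatrix' c, (Matrix.toLin'_toMatrix' c).symm⟩
  unfold ad
  rw [aeval_toLin2, LinearMap.toMatrix'_toLin', LinearMap.toMatrix'_toLin', stm_aeval2, aeval_toLin2]

theorem commute_aeval {R A : Type*} [CommRing R] [Ring A] [Algebra R A] {c n : A} (h : Commute c n) (Q : R[X]) : Commute (aeval c Q) n := by
  rw [aeval_eq_sum_range]
  apply Commute.sum_left
  intro i _
  exact (h.pow_left i).smul_left _

theorem blockM_add {F V : Type*} [Field F] [AddCommGroup V] [Module F V] {d : ι → ℕ} (b : Module.Basis ((k : ι) × Fin (d k)) F V) (hd : ∀ k, 1 ≤ d k) (c c' : Module.End F V) (j : ℕ) :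
    blockM b hd (c + c') j = blockM b hd c j + blockM b hd c' j := by
  ext l k
  unfold blockM leadM
  simp only [Matrix.submatrix_apply, Matrix.of_apply, Matrix.add_apply, LinearMap.add_apply, map_add, Finsupp.add_apply]

/-- unipotent norms are norms -/
theorem exists_norm_unip (hσ : ∀ x, σ (σ x) = x) (hne : σ ≠ RingHom.id K) (hJ : JB (U - 1) d b) (hd : ∀ k, 1 ≤ d k)
    (z : Module.End K (ν → K)) (hz : Commute z (U - 1)) (hz0 : ∀ j, blockM b hd z j = 0) (hzs : ad σ z = z) :
    ∃ y : (Module.End K (ν → K))ˣ, Commute (y : Module.End K (ν → K)) (U - 1) ∧ ad σ (y : Module.End K (ν → K)) * (y : Module.End K (ν → K)) = 1 + z ∧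
      ∀ j, blockM b hd (y : Module.End K (ν → K)) j = 1 := by
  obtain ⟨m, hm⟩ := nilpotent_of_blocks hJ hd hz hz0
  obtain ⟨f, hf0, g, hg⟩ := exists_norm_poly σ hσ hne m
  have hX : X ∣ f - 1 := by
    rw [X_dvd_iff, coeff_sub, hf0, coeff_one_zero, sub_self]
  obtain ⟨r, hr⟩ := hX
  have hf' : f = 1 + X * r := by rw [← hr]; ring
  have hy1 : aeval z f = 1 + z * aeval z r := by
    rw [hf', map_add, map_one, map_mul, aeval_X]
  have hcr : Commute (aeval z r) (U - 1) := commute_aeval hz r
  have hyc : Commute (aeval z f) (U - 1) := commute_aeval hz f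
  have hyb : ∀ j, blockM b hd (aeval z f) j = 1 := by
    intro j
    rw [hy1, blockM_add, blockM_one hJ, blockM_mul hJ hd hz hcr, hz0, Matrix.zero_mul, add_zero]
  have hyu : IsUnit (aeval z f) := by
    rw [isUnit_iff_block hJ hd hyc]
    intro j
    rw [hyb]; exact isUnit_one
  obtain ⟨y, hy⟩ := hyu
  refine ⟨y, by rw [hy]; exact hyc, ?_, by rw [hy]; exact hyb⟩
  rw [hy, ad_aeval, hzs, ← map_mul]
  have h1 : f.map σ * f = (1 + X) + X ^ (m + 1) * g := by rw [← hg]; ring
  rw [h1, map_add, map_mul, map_pow, aeval_X, map_add, aeval_X, map_one, pow_succ, hm, zero_mul, zero_mul, add_zero]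

theorem blockM_empty {F V : Type*} [Field F] [AddCommGroup V] [Module F V] {d : ι → ℕ} (b : Module.Basis ((k : ι) × Fin (d k)) F V) (hd : ∀ k, 1 ≤ d k)
    (D : ℕ) (hD : ∀ k, d k < D) (j : ℕ) (hj : ¬ j < D) (M M' : Matrix {k // d k = j} {k // d k = j} F) : M = M' := by
  have hE : IsEmpty {k // d k = j} := ⟨fun k => by have := hD k.1; have := k.2; omega⟩
  exact Subsingleton.elim _ _

/-- semilinear involutions have `q ^ m` fixed points -/
theorem card_fix_mod {E : Type*} [AddCommGroup E] [Module K E] [FiniteDimensional K E] (hσ : ∀ x, σ (σ x) = x) (hne : σ ≠ RingHom.id K)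
    {q : ℕ} (hK : Nat.card K = q ^ 2) (T : E → E) (hT : ∀ v w, T (v + w) = T v + T w)
    (hT' : ∀ (c : K) v, T (c • v) = σ c • T v) (hTT : ∀ v, T (T v) = v) : Nat.card {v : E // T v = v} = q ^ (Module.finrank K E) := by
  let φ : E ≃ₗ[K] (Fin (Module.finrank K E) → K) := (Module.finBasis K E).equivFun
  rw [← card_fix_semilin σ hσ hne hK (Module.finrank K E) (fun v => φ (T (φ.symm v)))
    (by intro v w; rw [map_add, hT, map_add]) (by intro c v; rw [map_smul, hT', map_smul]) (by
      intro v; rw [LinearEquiv.symm_apply_apply, hTT, LinearEquiv.apply_symm_apply])]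
  refine Nat.card_congr
    { toFun := fun v => ⟨φ v.1, by rw [LinearEquiv.symm_apply_apply, v.2]⟩
      invFun := fun v => ⟨φ.symm v.1, by
        have h := v.2
        apply φ.injective
        rw [h, LinearEquiv.apply_symm_apply]⟩
      left_inv := fun v => Subtype.ext (by simp)
      right_inv := fun v => Subtype.ext (by simp) }

theorem finrank_ker_piB {F : Type*} {V : Type*} [Field F] [AddCommGroup V] [Module F V] [FiniteDimensional F V]
    {ι : Type*} [Fintype ι] [DecidableEq ι] {d : ι → ℕ} {N : Module.End F V}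
    {b : Module.Basis ((k : ι) × Fin (d k)) F V} (hJ : JB N d b) (hd : ∀ k, 1 ≤ d k) (D : ℕ) (hD : ∀ k, d k < D) :
    Module.finrank F (LinearMap.ker (piB b hd N D)) = ∑ k, ∑ l, min (d l) (d k) - ∑ j : Fin D, (Finset.univ.filter (fun k => d k = (j : ℕ))).card ^ 2 := by
  have h2 := LinearMap.finrank_range_add_finrank_ker (piB b hd N D)
  rw [LinearMap.range_eq_top.2 (piB_surjective hJ hd D hD), finrank_top, finrank_commE hJ hd, Module.finrank_pi_fintype] at h2
  have h3 : ∑ j : Fin D, Module.finrank F (Matrix {k // d k = (j : ℕ)} {k // d k = (j : ℕ)} F) =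
      ∑ j : Fin D, (Finset.univ.filter (fun k => d k = (j : ℕ))).card ^ 2 := by
    refine Finset.sum_congr rfl fun j _ => ?_
    rw [Module.finrank_matrix, Module.finrank_self, Fintype.card_subtype, mul_one, pow_two]
  rw [h3] at h2
  omega

theorem card_preimage_piB {F : Type*} {V : Type*} [Field F] [AddCommGroup V] [Module F V] [FiniteDimensional F V]
    {ι : Type*} [Fintype ι] [DecidableEq ι] {d : ι → ℕ} {N : Module.End F V}
    {b : Module.Basis ((k : ι) × Fin (d k)) F V} (hJ : JB N d b) (hd : ∀ k, 1 ≤ d k) (D : ℕ) (hD : ∀ k, d k < D)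
    (P : ((j : Fin D) → Matrix {k // d k = (j : ℕ)} {k // d k = (j : ℕ)} F) → Prop) :
    Nat.card {c : commE N // P (piB b hd N D c)} = Nat.card (LinearMap.ker (piB b hd N D)) * Nat.card {M // P M} :=
  card_preimage (piB b hd N D) (piB_surjective hJ hd D hD) P

theorem card_ker_piB {F : Type*} {V : Type*} [Field F] [Fintype F] [AddCommGroup V] [Module F V] [FiniteDimensional F V]
    {ι : Type*} [Fintype ι] [DecidableEq ι] {d : ι → ℕ} {N : Module.End F V}
    {b : Module.Basis ((k : ι) × Fin (d k)) F V} (hd : ∀ k, 1 ≤ d k) (D : ℕ) {q : ℕ} (hF : Fintype.card F = q ^ 2) :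
    Nat.card (LinearMap.ker (piB b hd N D)) = (q ^ Module.finrank F (LinearMap.ker (piB b hd N D))) * (q ^ Module.finrank F (LinearMap.ker (piB b hd N D))) := by
  rw [Module.natCard_eq_pow_finrank (K := F), Nat.card_eq_fintype_card, hF, ← pow_mul, ← pow_add]
  congr 1
  omega

theorem card_fix_ker {F : Type*} {V : Type*} [Field F] [Fintype F] [AddCommGroup V] [Module F V] [FiniteDimensional F V]
    {ι : Type*} [Fintype ι] [DecidableEq ι] {d : ι → ℕ} {N : Module.End F V}
    {b : Module.Basis ((k : ι) × Fin (d k)) F V} (hd : ∀ k, 1 ≤ d k) (D : ℕ) {q : ℕ} (hF : Fintype.card F = q ^ 2)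
    (σ : F →+* F) (hσ : ∀ x, σ (σ x) = x) (hne : σ ≠ RingHom.id F) (T : Module.End F V → Module.End F V)
    (hT : ∀ v w, T (v + w) = T v + T w) (hT' : ∀ (c : F) v, T (c • v) = σ c • T v) (hTT : ∀ v, T (T v) = v)
    (hc : ∀ c, Commute c N → Commute (T c) N) (hTm : ∀ c (h : Commute c N), piB b hd N D ⟨c, h⟩ = 0 → piB b hd N D ⟨T c, hc c h⟩ = 0) :
    Nat.card {z : LinearMap.ker (piB b hd N D) // T (z.1 : Module.End F V) = (z.1 : Module.End F V)} =
      q ^ Module.finrank F (LinearMap.ker (piB b hd N D)) := by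
  have hFn : Nat.card F = q ^ 2 := by rw [Nat.card_eq_fintype_card, hF]
  rw [← card_fix_mod σ hσ hne hFn (E := LinearMap.ker (piB b hd N D)) (fun z => ⟨⟨T (z.1 : Module.End F V), hc _ z.1.2⟩, hTm _ z.1.2 z.2⟩)
    (by
      intro v w
      apply Subtype.ext; apply Subtype.ext
      exact hT _ _)
    (by
      intro c v
      apply Subtype.ext; apply Subtype.ext
      exact hT' _ _)
    (by
      intro v
      apply Subtype.ext; apply Subtype.ext
      exact hTT _)]
  refine Nat.card_congr (Equiv.subtypeEquivRight fun z => ?_)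
  constructor
  · intro h
    apply Subtype.ext; apply Subtype.ext
    exact h
  · intro h
    exact congrArg (fun z : LinearMap.ker (piB b hd N D) => (z.1 : Module.End F V)) h

theorem card_unip_isom {K ν : Type*} [Field K] [Fintype K] [Fintype ν] [DecidableEq ν]
    {ι : Type*} [Fintype ι] [DecidableEq ι] {d : ι → ℕ} {U : Module.End K (ν → K)}
    {b : Module.Basis ((k : ι) × Fin (d k)) K (ν → K)} {q : ℕ} (hK : Fintype.card K = q ^ 2) (hU : ad (Cfsg.Agent.ClGeo.frob hK) U * U = 1)
    (hJ : JB (U - 1) d b) (hd : ∀ k, 1 ≤ d k) (D : ℕ) (hD : ∀ k, d k < D) :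
    Nat.card {c : Module.End K (ν → K) // Commute c (U - 1) ∧ ad (Cfsg.Agent.ClGeo.frob hK) c * c = 1} =
      q ^ (∑ k, ∑ l, min (d l) (d k) - ∑ j : Fin D, (Finset.univ.filter (fun k => d k = (j : ℕ))).card ^ 2) *
        ∏ j : Fin D, Nat.card (Cfsg.GU (Finset.univ.filter (fun k => d k = (j : ℕ))).card K q) := by
  obtain ⟨σ, hσd⟩ : ∃ σ, σ = Cfsg.Agent.ClGeo.frob hK := ⟨_, rfl⟩
  have hσ : ∀ x, σ (σ x) = x := by rw [hσd]; exact Cfsg.Agent.ClGeo.frob_frob hK
  have hne : σ ≠ RingHom.id K := by rw [hσd]; exact Cfsg.Agent.ClGeo.frob_ne_id hK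
  rw [← hσd] at hU ⊢
  obtain ⟨G, hG⟩ : ∃ G : (j : ℕ) → Matrix {k // d k = j} {k // d k = j} K, ∀ j, G j = GS σ b hd (U - 1) j := ⟨_, fun _ => rfl⟩
  have hGu : ∀ j, IsUnit (G j) := fun j => by rw [hG]; exact GS_det σ hσ hU hJ hd j
  have hGs : ∀ j, stm σ (G j) = (-1 : K) ^ (j - 1) • G j := fun j => by rw [hG]; exact GS_symm σ hσ hU hJ hd j
  have hadj : ∀ {c : Module.End K (ν → K)}, Commute c (U - 1) → ∀ j, stm σ (blockM b hd c j) * G j = G j * blockM b hd (ad σ c) j := by
    intro c hc j; rw [hG]; exact GS_adj σ hσ hU hJ hd hc j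
  have hadc : ∀ {c : Module.End K (ν → K)}, Commute c (U - 1) → Commute (ad σ c) (U - 1) := fun hc => ad_commute σ hσ hU hc
  -- lifts
  have hlift := fun (z : {z : LinearMap.ker (piB b hd (U - 1) D) // ad σ (z.1 : Module.End K (ν → K)) = (z.1 : Module.End K (ν → K))}) =>
    exists_norm_unip σ hσ hne hJ hd (z.1.1 : Module.End K (ν → K)) z.1.1.2 (by
      intro j
      by_cases hj : j < D
      · have h1 := z.1.2
        rw [LinearMap.mem_ker] at h1
        exact congrFun h1 ⟨j, hj⟩
      · exact blockM_empty b hd D hD j hj _ _) z.2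
  choose y hyc hyn hyb using hlift
  -- the intermediate set
  obtain ⟨P, hP⟩ : ∃ P : ((j : Fin D) → Matrix {k // d k = (j : ℕ)} {k // d k = (j : ℕ)} K) → Prop,
    ∀ M, P M ↔ ∀ j, stm σ (M j) * G j * M j = G j := ⟨_, fun _ => Iff.rfl⟩
  have hbl : ∀ {c : Module.End K (ν → K)} (hc : Commute c (U - 1)), P (piB b hd (U - 1) D ⟨c, hc⟩) ↔ ∀ j : Fin D, blockM b hd (ad σ c * c) j = 1 := by
    intro c hc
    rw [hP]
    refine forall_congr' fun j => ?_
    change stm σ (blockM b hd c j) * G j * blockM b hd c j = G j ↔ _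
    rw [hadj hc, mul_assoc, ← blockM_mul hJ hd (hadc hc) hc]
    obtain ⟨g, hg⟩ := hGu j
    rw [← hg]
    constructor
    · intro h
      have h2 : (g : Matrix {k // d k = (j : ℕ)} {k // d k = (j : ℕ)} K) * blockM b hd (ad σ c * c) j = g * 1 := by rw [h, mul_one]
      exact g.isUnit.mul_left_cancel h2
    · intro h; rw [h, mul_one]
  have hcard1 : Nat.card {c : commE (U - 1) // P (piB b hd (U - 1) D c)} =
      Nat.card {z : LinearMap.ker (piB b hd (U - 1) D) // ad σ (z.1 : Module.End K (ν → K)) = (z.1 : Module.End K (ν → K))} *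
      Nat.card {c : Module.End K (ν → K) // Commute c (U - 1) ∧ ad σ c * c = 1} := by
    rw [← Nat.card_prod]
    symm
    have hzb : ∀ (z : {z : LinearMap.ker (piB b hd (U - 1) D) // ad σ (z.1 : Module.End K (ν → K)) = (z.1 : Module.End K (ν → K))}) (j : ℕ),
        blockM b hd (z.1.1 : Module.End K (ν → K)) j = 0 := by
      intro z j
      by_cases hj : j < D
      · have h1 := z.1.2
        rw [LinearMap.mem_ker] at h1
        exact congrFun h1 ⟨j, hj⟩
      · exact blockM_empty b hd D hD j hj _ _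
    have hprod : ∀ (z : {z : LinearMap.ker (piB b hd (U - 1) D) // ad σ (z.1 : Module.End K (ν → K)) = (z.1 : Module.End K (ν → K))})
        (u : Module.End K (ν → K)) (hu : ad σ u * u = 1), ad σ (u * (y z : Module.End K (ν → K))) * (u * (y z : Module.End K (ν → K))) = 1 + (z.1.1 : Module.End K (ν → K)) := by
      intro z u hu
      rw [ad_mul, mul_assoc, ← mul_assoc (ad σ u), hu, one_mul, hyn]
    refine Nat.card_congr (Equiv.ofBijective
      (fun x : {z : LinearMap.ker (piB b hd (U - 1) D) // ad σ (z.1 : Module.End K (ν → K)) = (z.1 : Module.End K (ν → K))} ×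
          {c : Module.End K (ν → K) // Commute c (U - 1) ∧ ad σ c * c = 1} =>
        (⟨⟨x.2.1 * (y x.1 : Module.End K (ν → K)), Commute.mul_left x.2.2.1 (hyc x.1)⟩, (hbl _).2 (by
          intro j
          rw [hprod x.1 x.2.1 x.2.2.2, blockM_add, blockM_one hJ, hzb, add_zero])⟩ :
          {c : commE (U - 1) // P (piB b hd (U - 1) D c)})) ⟨?_, ?_⟩)
    · rintro ⟨z, u⟩ ⟨z', u'⟩ h
      have h1 : u.1 * (y z : Module.End K (ν → K)) = u'.1 * (y z' : Module.End K (ν → K)) := congrArg (fun c => (c.1.1 : Module.End K (ν → K))) h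
      have h2 : (1 : Module.End K (ν → K)) + (z.1.1 : Module.End K (ν → K)) = 1 + (z'.1.1 : Module.End K (ν → K)) := by
        rw [← hprod z u.1 u.2.2, ← hprod z' u'.1 u'.2.2, h1]
      have h3 : z = z' := Subtype.ext (Subtype.ext (Subtype.ext (add_left_cancel h2)))
      subst h3
      have h4 : u = u' := Subtype.ext ((y z).isUnit.mul_right_cancel h1)
      rw [h4]
    · rintro ⟨⟨c, hc⟩, hPc⟩
      have hb1 := (hbl hc).1 hPc
      have hcc : Commute (ad σ c * c) (U - 1) := Commute.mul_left (hadc hc) hc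
      have hsc : Commute (ad σ c * c - 1) (U - 1) := hcc.sub_left (Commute.one_left _)
      have hss : ad σ (ad σ c * c - 1) = ad σ c * c - 1 := by
        rw [ad_sub, ad_mul, ad_ad σ hσ, ad_one]
      obtain ⟨z, hz⟩ : ∃ z : {z : LinearMap.ker (piB b hd (U - 1) D) // ad σ (z.1 : Module.End K (ν → K)) = (z.1 : Module.End K (ν → K))},
          (z.1.1 : Module.End K (ν → K)) = ad σ c * c - 1 := by
        refine ⟨⟨⟨⟨ad σ c * c - 1, hsc⟩, ?_⟩, hss⟩, rfl⟩
        rw [LinearMap.mem_ker]
        funext j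
        change blockM b hd (ad σ c * c - 1) j = 0
        rw [blockM_sub, hb1, blockM_one hJ, sub_self]
      have hyi : Commute (((y z)⁻¹ : (Module.End K (ν → K))ˣ) : Module.End K (ν → K)) (U - 1) := (hyc z).units_inv_left
      have hun : ad σ (c * (((y z)⁻¹ : (Module.End K (ν → K))ˣ) : Module.End K (ν → K))) * (c * (((y z)⁻¹ : (Module.End K (ν → K))ˣ) : Module.End K (ν → K))) = 1 := by
        have h1 : ad σ c * c = ad σ (y z : Module.End K (ν → K)) * (y z : Module.End K (ν → K)) := by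
          rw [hyn, hz]; abel
        rw [ad_mul, mul_assoc, ← mul_assoc (ad σ c), h1]
        calc ad σ (((y z)⁻¹ : (Module.End K (ν → K))ˣ) : Module.End K (ν → K)) * (ad σ (y z : Module.End K (ν → K)) * (y z : Module.End K (ν → K)) * (((y z)⁻¹ : (Module.End K (ν → K))ˣ) : Module.End K (ν → K)))
            = (ad σ (((y z)⁻¹ : (Module.End K (ν → K))ˣ) : Module.End K (ν → K)) * ad σ (y z : Module.End K (ν → K))) * ((y z : Module.End K (ν → K)) * (((y z)⁻¹ : (Module.End K (ν → K))ˣ) : Module.End K (ν → K))) := by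
              simp only [mul_assoc]
          _ = 1 := by rw [← ad_mul, Units.mul_inv, ad_one, mul_one]
      refine ⟨(z, ⟨c * (((y z)⁻¹ : (Module.End K (ν → K))ˣ) : Module.End K (ν → K)), Commute.mul_left hc hyi, hun⟩), ?_⟩
      apply Subtype.ext
      apply Subtype.ext
      change c * (((y z)⁻¹ : (Module.End K (ν → K))ˣ) : Module.End K (ν → K)) * (y z : Module.End K (ν → K)) = c
      rw [mul_assoc, Units.inv_mul, mul_one]
  -- the dimension
  have hdim := finrank_ker_piB hJ hd D hD
  have hcard2 := card_ker_piB (b := b) (N := U - 1) hd D hK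
  have hcard3 : Nat.card {z : LinearMap.ker (piB b hd (U - 1) D) // ad σ (z.1 : Module.End K (ν → K)) = (z.1 : Module.End K (ν → K))} =
      q ^ Module.finrank K (LinearMap.ker (piB b hd (U - 1) D)) := by
    refine card_fix_ker hd D hK σ hσ hne (ad σ) (ad_add σ) (ad_smul σ) (ad_ad σ hσ) (fun c hc => hadc hc) ?_
    intro c hc h1
    funext j
    change blockM b hd (ad σ c) j = 0
    have h2 : blockM b hd c j = 0 := congrFun h1 j
    have h3 := hadj (c := c) hc j
    have h4 : stm σ (0 : Matrix {k // d k = (j : ℕ)} {k // d k = (j : ℕ)} K) = 0 := by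
      ext i i'; simp [stm]
    rw [h2, h4, Matrix.zero_mul] at h3
    obtain ⟨g, hg⟩ := hGu j
    rw [← hg] at h3
    have h5 : (g : Matrix {k // d k = (j : ℕ)} {k // d k = (j : ℕ)} K) * blockM b hd (ad σ c) j = g * 0 := by rw [← h3, mul_zero]
    exact g.isUnit.mul_left_cancel h5
  have hcard4 : Nat.card {M : (j : Fin D) → Matrix {k // d k = (j : ℕ)} {k // d k = (j : ℕ)} K // P M} =
      ∏ j : Fin D, Nat.card (Cfsg.GU (Finset.univ.filter (fun k => d k = (j : ℕ))).card K q) := by
    have h1 : {M : (j : Fin D) → Matrix {k // d k = (j : ℕ)} {k // d k = (j : ℕ)} K // P M} ≃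
        {M : (j : Fin D) → Matrix {k // d k = (j : ℕ)} {k // d k = (j : ℕ)} K // ∀ j, stm σ (M j) * G j * M j = G j} :=
      Equiv.subtypeEquivRight hP
    rw [Nat.card_congr h1, Nat.card_congr (Equiv.subtypePiEquivPi (p := fun (j : Fin D) (m : Matrix {k // d k = (j : ℕ)} {k // d k = (j : ℕ)} K) => stm σ m * G j * m = G j)), Nat.card_pi]
    refine Finset.prod_congr rfl fun j _ => ?_
    have h2 : Fintype.card {k // d k = (j : ℕ)} = (Finset.univ.filter (fun k => d k = (j : ℕ))).card := Fintype.card_subtype _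
    rw [← h2, hσd]
    apply card_isom hK (G j) (hGu j) ((-1) ^ ((j : ℕ) - 1))
    · exact neg_one_pow_eq_or K _
    · rw [← hσd]; exact hGs j
  have hcard5 := card_preimage_piB hJ hd D hD P
  rw [hcard5, hcard2, hcard3, hcard4] at hcard1
  have hq : 0 < q := by
    rcases Nat.eq_zero_or_pos q with h | h
    · rw [h] at hK
      have := Fintype.card_pos (α := K)
      rw [hK] at this
      simp at this
    · exact h
  rw [mul_assoc] at hcard1
  have h5 := Nat.eq_of_mul_eq_mul_left (pow_pos hq _) hcard1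
  rw [← h5, hdim]

end Cfsg.Agent.H43
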