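import Mathlib
import Cfsg.Agent.H43.SSClass

set_option autoImplicit false
set_option linter.unusedSectionVars false
set_option linter.unusedVariables false

/-! Classes of involutions of `PGL_n(q)`, `q` odd. -/

namespace Cfsg.Agent.H43

open Polynomial

section lemmas
variable {F : Type*} [Field F] {n : ℕ}

/-- scalar matrices -/
noncomputable abbrev scG (F : Type*) [Field F] (n : ℕ) : Fˣ →* GL (Fin n) F := Matrix.GeneralLinearGroup.scalar (Fin n)

theorem scG_val (a : Fˣ) : ((scG F n a : GL (Fin n) F) : Matrix (Fin n) (Fin n) F) = (a : F) • (1 : Matrix (Fin n) (Fin n) F) := by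
  rw [Matrix.GeneralLinearGroup.coe_scalar]
  ext i j
  by_cases h : i = j
  · subst h; simp
  · simp [h]

theorem scG_comm (a : Fˣ) (g : GL (Fin n) F) : scG F n a * g = g * scG F n a := by
  apply Units.ext
  rw [Units.val_mul, Units.val_mul, scG_val, smul_mul_assoc, one_mul, mul_smul_comm, mul_one]

theorem mem_center_iff_scG (g : GL (Fin n) F) : g ∈ Subgroup.center (GL (Fin n) F) ↔ ∃ a, scG F n a = g := by
  rw [Matrix.GeneralLinearGroup.center_eq_range_scalar, MonoidHom.mem_range]

theorem scG_injective (hn : 1 ≤ n) : Function.Injective (scG F n) := by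
  intro a b h
  have h1 := congrArg (fun g : GL (Fin n) F => (g : Matrix (Fin n) (Fin n) F) ⟨0, hn⟩ ⟨0, hn⟩) h
  simp only [scG_val] at h1
  simp at h1
  exact Units.ext h1

/-- the endomorphism of a matrix -/
noncomputable abbrev enG (g : GL (Fin n) F) : Module.End F (Fin n → F) := Matrix.toLin' (g : Matrix (Fin n) (Fin n) F)

theorem enG_mul (g h : GL (Fin n) F) : enG (g * h) = enG g * enG h := by
  unfold enG
  rw [Units.val_mul, toLin'_mul_eq]

theorem enG_scG (a : Fˣ) : enG (scG F n a) = (a : F) • (1 : Module.End F (Fin n → F)) := by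
  unfold enG
  rw [scG_val, map_smul, Matrix.toLin'_one]
  rfl

theorem enG_injective : Function.Injective (enG : GL (Fin n) F → Module.End F (Fin n → F)) := by
  intro g h hgh
  exact Units.ext ((Matrix.toLin' (R := F) (m := Fin n) (n := Fin n)).injective hgh)

theorem enG_one : enG (1 : GL (Fin n) F) = 1 := by
  unfold enG
  rw [Units.val_one, Matrix.toLin'_one]
  rfl

theorem aeval_quad (g : GL (Fin n) F) (a : Fˣ) : Polynomial.aeval (enG g) ((X : F[X]) ^ 2 - C (a : F)) = 0 ↔ g * g = scG F n a := by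
  rw [map_sub, map_pow, aeval_X, aeval_C, sub_eq_zero, ← enG_injective.eq_iff, enG_mul, enG_scG, pow_two, Algebra.algebraMap_eq_smul_one]

theorem sq_factor : (X : F[X]) ^ 2 - C 1 = (X - C 1) * (X - C (-1)) := by
  rw [map_neg, map_one]
  ring

theorem sq_squarefree (h2 : (2 : F) ≠ 0) : Squarefree ((X : F[X]) ^ 2 - C 1) := by
  exact (Polynomial.separable_X_pow_sub_C (1 : F) (n := 2) (by exact_mod_cast h2) one_ne_zero).squarefree

theorem div_sq {c : F[X]} (h1 : c.Monic) (h2 : Irreducible c) (h3 : c ∣ (X : F[X]) ^ 2 - C 1) : c = X - C 1 ∨ c = X - C (-1) := by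
  rw [sq_factor] at h3
  rcases h2.prime.dvd_or_dvd h3 with h | h
  · left
    exact eq_of_monic_of_associated h1 (monic_X_sub_C 1) ((h2.dvd_irreducible_iff_associated (irreducible_X_sub_C 1)).1 h)
  · right
    exact eq_of_monic_of_associated h1 (monic_X_sub_C (-1)) ((h2.dvd_irreducible_iff_associated (irreducible_X_sub_C (-1))).1 h)

/-- dimension of the eigenspaces -/
noncomputable def eDim (g : GL (Fin n) F) (a : F) : ℕ := Module.finrank F (LinearMap.ker (Polynomial.aeval (enG g) ((X : F[X]) - C a)))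

theorem sb_dim {ι : Type*} [Fintype ι] {c : ι → F[X]} {V : Type*} [AddCommGroup V] [Module F V]
    (φ : V ≃ₗ[F] ((i : ι) → F[X] ⧸ Ideal.span {c i})) (hc : ∀ i, (c i).Monic) :
    Module.finrank F V = ∑ i, (c i).natDegree := by
  have hfd : ∀ k, Module.Finite F (F[X] ⧸ Ideal.span {c k}) := fun k => (hc k).finite_quotient
  rw [φ.finrank_eq, Module.finrank_pi_fintype]
  refine Finset.sum_congr rfl fun k _ => ?_
  rw [finrank_quotient_span_eq_natDegree]

theorem one_ne_neg_one (h2 : (2 : F) ≠ 0) : (1 : F) ≠ -1 := by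
  intro h
  apply h2
  have : (1 : F) + 1 = 0 := by nth_rewrite 1 [h]; exact neg_add_cancel 1
  rw [← one_add_one_eq_two]; exact this

/-- data of an involution -/
theorem involution_data (h2 : (2 : F) ≠ 0) (g : GL (Fin n) F) (hg : g * g = 1) :
    ∃ (t : ℕ) (c : Fin t → F[X]) (φ : (Fin n → F) ≃ₗ[F] ((i : Fin t) → F[X] ⧸ Ideal.span {c i})),
      SB (enG g) c φ ∧ (∀ i, c i = X - C 1 ∨ c i = X - C (-1)) ∧ t = n ∧
      (∀ [DecidableEq F[X]], (Finset.univ.filter (fun i => c i = X - C 1)).card = eDim g 1) ∧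
      (∀ [DecidableEq F[X]], (Finset.univ.filter (fun i => c i = X - C (-1))).card = eDim g (-1)) ∧ eDim g 1 + eDim g (-1) = n := by
  classical
  obtain ⟨t, c, φ, hc, hφ⟩ := exists_SB (enG g) ((X : F[X]) ^ 2 - C 1) (sq_squarefree h2) (by
    have := (aeval_quad g 1).2 (by rw [hg, map_one])
    rw [Units.val_one] at this
    exact this)
  have hc' : ∀ i, c i = X - C 1 ∨ c i = X - C (-1) := fun i => div_sq (hc i).1 (hc i).2.1 (hc i).2.2
  have ht : t = n := by
    have h1 := sb_dim φ (fun i => (hc i).1)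
    rw [Module.finrank_fintype_fun_eq_card, Fintype.card_fin] at h1
    have h3 : ∀ i, (c i).natDegree = 1 := by
      intro i
      rcases hc' i with h | h <;> rw [h, natDegree_X_sub_C]
    simp only [h3] at h1
    rw [Finset.sum_const, Finset.card_univ, Fintype.card_fin, smul_eq_mul, mul_one] at h1
    exact h1.symm
  have hd1 : (Finset.univ.filter (fun i => c i = X - C 1)).card = eDim g 1 := by
    have := hφ.finrank_ker (fun i => ⟨(hc i).1, (hc i).2.1⟩) (X - C 1) ⟨monic_X_sub_C 1, irreducible_X_sub_C 1⟩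
    rw [natDegree_X_sub_C, mul_one] at this
    exact this.symm
  have hd2 : (Finset.univ.filter (fun i => c i = X - C (-1))).card = eDim g (-1) := by
    have := hφ.finrank_ker (fun i => ⟨(hc i).1, (hc i).2.1⟩) (X - C (-1)) ⟨monic_X_sub_C (-1), irreducible_X_sub_C (-1)⟩
    rw [natDegree_X_sub_C, mul_one] at this
    exact this.symm
  refine ⟨t, c, φ, hφ, hc', ht, ?_, ?_, ?_⟩
  · intro _
    convert hd1
  · intro _
    convert hd2
  · rw [← hd1, ← hd2, ← Finset.card_union_of_disjoint]
    · have : Finset.univ.filter (fun i => c i = X - C 1) ∪ Finset.univ.filter (fun i => c i = X - C (-1)) = Finset.univ := by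
        ext i
        simp only [Finset.mem_union, Finset.mem_filter, Finset.mem_univ, true_and, iff_true]
        exact hc' i
      rw [this, Finset.card_univ, Fintype.card_fin, ht]
    · rw [Finset.disjoint_left]
      intro i hi hi'
      simp only [Finset.mem_filter, Finset.mem_univ, true_and] at hi hi'
      rw [hi] at hi'
      have h3 : (C (1 : F) : F[X]) = C (-1) := by
        have := congrArg (fun z => (X : F[X]) - z) hi'
        simpa using this
      exact one_ne_neg_one h2 (C_injective h3)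

theorem isConj_involution (h2 : (2 : F) ≠ 0) (g g' : GL (Fin n) F) (hg : g * g = 1) (hg' : g' * g' = 1)
    (h : eDim g (-1) = eDim g' (-1)) : IsConj g g' := by
  classical
  obtain ⟨t, c, φ, hφ, hc, ht, h3, h4, h5⟩ := involution_data h2 g hg
  obtain ⟨t', c', φ', hφ', hc', ht', h3', h4', h5'⟩ := involution_data h2 g' hg'
  obtain ⟨σ, hσ⟩ := exists_equiv_of_fiber c c' (by
    intro P
    by_cases hP1 : P = X - C 1
    · rw [hP1, h3, h3']; omega
    · by_cases hP2 : P = X - C (-1)
      · rw [hP2, h4, h4', h]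
      · have e1 : Finset.univ.filter (fun i => c i = P) = ∅ := by
          rw [Finset.filter_eq_empty_iff]
          intro i _ hi
          rcases hc i with h' | h'
          · exact hP1 (hi ▸ h')
          · exact hP2 (hi ▸ h')
        have e2 : Finset.univ.filter (fun i => c' i = P) = ∅ := by
          rw [Finset.filter_eq_empty_iff]
          intro i _ hi
          rcases hc' i with h' | h'
          · exact hP1 (hi ▸ h')
          · exact hP2 (hi ▸ h')
        rw [e1, e2, Finset.card_empty, Finset.card_empty])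
  exact isConj_of_SB hφ hφ' σ hσ

theorem exists_involution (h2 : (2 : F) ≠ 0) (j : ℕ) (hj : j ≤ n) : ∃ g : GL (Fin n) F, g * g = 1 ∧ eDim g (-1) = j := by
  classical
  let c : Fin (n - j) ⊕ Fin j → F[X] := fun k => Sum.elim (fun _ => X - C 1) (fun _ => X - C (-1)) k
  have hc : ∀ k, (c k).Monic ∧ Irreducible (c k) ∧ c k ∣ (X : F[X]) ^ 2 - C 1 := by
    rintro (k | k)
    · exact ⟨monic_X_sub_C 1, irreducible_X_sub_C 1, by rw [sq_factor]; exact dvd_mul_right _ _⟩
    · exact ⟨monic_X_sub_C (-1), irreducible_X_sub_C (-1), by rw [sq_factor]; exact dvd_mul_left _ _⟩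
  have hX : ∀ k, IsCoprime (c k) X := by
    intro k
    rw [(hc k).2.1.coprime_iff_not_dvd]
    intro hd
    have h3 := eq_of_monic_of_associated (hc k).1 monic_X (((hc k).2.1.dvd_irreducible_iff_associated irreducible_X).1 hd)
    have h4 := congrArg (Polynomial.eval 0) h3
    rcases k with k | k
    · change Polynomial.eval 0 (X - C 1) = _ at h4
      simp at h4
    · change Polynomial.eval 0 (X - C (-1)) = _ at h4
      simp at h4
  obtain ⟨g, φ, hφ⟩ := exists_SB_gl c (fun k => (hc k).1) hX (n := n) (by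
    rw [Fintype.sum_sum_type]
    change ∑ k : Fin (n - j), (X - C (1 : F)).natDegree + ∑ k : Fin j, (X - C (-1 : F)).natDegree = n
    simp only [natDegree_X_sub_C]
    rw [Finset.sum_const, Finset.sum_const, Finset.card_univ, Finset.card_univ, Fintype.card_fin, Fintype.card_fin]
    simp
    omega)
  refine ⟨g, ?_, ?_⟩
  · have h3 : g * g = scG F n 1 := by
      rw [← aeval_quad]
      apply LinearMap.ext
      intro v
      apply φ.injective
      funext k
      rw [Units.val_one, hφ.aeval, LinearMap.zero_apply, map_zero, Pi.zero_apply, Ideal.Quotient.eq_zero_iff_mem.2 (Ideal.mem_span_singleton.2 (hc k).2.2), zero_mul]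
    rw [h3, map_one]
  · unfold eDim
    rw [hφ.finrank_ker (fun i => ⟨(hc i).1, (hc i).2.1⟩) (X - C (-1)) ⟨monic_X_sub_C (-1), irreducible_X_sub_C (-1)⟩,
      natDegree_X_sub_C, mul_one, Finset.card_filter, Fintype.sum_sum_type]
    have h3 : ∀ k : Fin j, (if c (Sum.inr k) = X - C (-1) then 1 else 0) = 1 := fun k => if_pos rfl
    have h4 : ∀ k : Fin (n - j), (if c (Sum.inl k) = X - C (-1) then 1 else 0) = 0 := by
      intro k
      rw [if_neg]
      intro h5
      change X - C 1 = X - C (-1) at h5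
      have h6 : (C (1 : F) : F[X]) = C (-1) := by
        have := congrArg (fun z => (X : F[X]) - z) h5
        simpa using this
      exact one_ne_neg_one h2 (C_injective h6)
    simp only [h3, h4]
    simp

theorem irr_sq {δ : F} (hδ : ¬ IsSquare δ) : Irreducible ((X : F[X]) ^ 2 - C δ) := by
  apply Polynomial.irreducible_of_degree_le_three_of_not_isRoot
  · rw [natDegree_X_pow_sub_C]; decide
  · intro x hx
    rw [IsRoot, eval_sub, eval_pow, eval_X, eval_C, sub_eq_zero] at hx
    exact hδ ⟨x, by rw [← hx, pow_two]⟩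

theorem isConj_nonsquare {δ : Fˣ} (hδ : ¬ IsSquare (δ : F)) (g g' : GL (Fin n) F) (hg : g * g = scG F n δ) (hg' : g' * g' = scG F n δ) :
    IsConj g g' ∧ Even n := by
  classical
  have hirr := irr_sq hδ
  have hmon : ((X : F[X]) ^ 2 - C (δ : F)).Monic := monic_X_pow_sub_C _ (by norm_num)
  have key : ∀ g : GL (Fin n) F, g * g = scG F n δ → ∃ (t : ℕ) (c : Fin t → F[X]) (φ : (Fin n → F) ≃ₗ[F] ((i : Fin t) → F[X] ⧸ Ideal.span {c i})),
      SB (enG g) c φ ∧ (∀ i, c i = X ^ 2 - C (δ : F)) ∧ n = t * 2 := by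
    intro g hg
    obtain ⟨t, c, φ, hc, hφ⟩ := exists_SB (enG g) ((X : F[X]) ^ 2 - C (δ : F)) hirr.squarefree ((aeval_quad g δ).2 hg)
    have hc' : ∀ i, c i = X ^ 2 - C (δ : F) := fun i =>
      eq_of_monic_of_associated (hc i).1 hmon (((hc i).2.1.dvd_irreducible_iff_associated hirr).1 (hc i).2.2)
    refine ⟨t, c, φ, hφ, hc', ?_⟩
    have h1 := sb_dim φ (fun i => (hc i).1)
    rw [Module.finrank_fintype_fun_eq_card, Fintype.card_fin] at h1
    simp only [hc', natDegree_X_pow_sub_C] at h1
    rw [Finset.sum_const, Finset.card_univ, Fintype.card_fin, smul_eq_mul] at h1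
    exact h1
  obtain ⟨t, c, φ, hφ, hc, ht⟩ := key g hg
  obtain ⟨t', c', φ', hφ', hc', ht'⟩ := key g' hg'
  have htt : t = t' := by omega
  refine ⟨isConj_of_SB hφ hφ' (finCongr htt) (fun i => by rw [hc, hc']), ⟨t, by omega⟩⟩

theorem exists_nonsquare_rep {δ : Fˣ} (hδ : ¬ IsSquare (δ : F)) (hn : Even n) : ∃ g : GL (Fin n) F, g * g = scG F n δ := by
  classical
  have hirr := irr_sq hδ
  have hmon : ((X : F[X]) ^ 2 - C (δ : F)).Monic := monic_X_pow_sub_C _ (by norm_num)
  obtain ⟨m, hm⟩ := hn
  obtain ⟨g, φ, hφ⟩ := exists_SB_gl (fun _ : Fin m => (X : F[X]) ^ 2 - C (δ : F)) (fun _ => hmon) (by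
    intro k
    rw [hirr.coprime_iff_not_dvd]
    intro hd
    have h3 := eq_of_monic_of_associated hmon monic_X ((hirr.dvd_irreducible_iff_associated irreducible_X).1 hd)
    have h4 := congrArg natDegree h3
    rw [natDegree_X_pow_sub_C, natDegree_X] at h4
    exact absurd h4 (by norm_num)) (n := n) (by
    simp only [natDegree_X_pow_sub_C]
    rw [Finset.sum_const, Finset.card_univ, Fintype.card_fin, smul_eq_mul]
    omega)
  refine ⟨g, ?_⟩
  rw [← aeval_quad]
  apply LinearMap.ext
  intro v
  apply φ.injective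
  funext k
  rw [hφ.aeval, LinearMap.zero_apply, map_zero, Pi.zero_apply, Ideal.Quotient.eq_zero_iff_mem.2 (Ideal.mem_span_singleton_self _), zero_mul]

theorem eDim_of_isConj {g g' : GL (Fin n) F} (h : IsConj g g') (a : F) : eDim g a = eDim g' a :=
  finrank_ker_aeval_of_isConj h _

theorem eDim_neg (g : GL (Fin n) F) (a : F) : eDim (scG F n (-1) * g) (-a) = eDim g a := by
  unfold eDim
  have h1 : enG (scG F n (-1) * g) = - enG g := by
    rw [enG_mul, enG_scG, Units.val_neg, Units.val_one]
    apply LinearMap.ext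
    intro v
    rw [Module.End.mul_apply, LinearMap.smul_apply, LinearMap.neg_apply, Module.End.one_apply, neg_smul, one_smul]
  have h2 : Polynomial.aeval (enG (scG F n (-1) * g)) ((X : F[X]) - C (-a)) = - Polynomial.aeval (enG g) ((X : F[X]) - C a) := by
    rw [h1, map_sub, map_sub, aeval_X, aeval_X, aeval_C, aeval_C, map_neg, sub_neg_eq_add, neg_sub]
    exact neg_add_eq_sub _ _
  have h3 : LinearMap.ker (- Polynomial.aeval (enG g) ((X : F[X]) - C a)) = LinearMap.ker (Polynomial.aeval (enG g) ((X : F[X]) - C a)) := by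
    ext x
    rw [LinearMap.mem_ker, LinearMap.mem_ker, LinearMap.neg_apply, neg_eq_zero]
  rw [h2, h3]

end lemmas

end Cfsg.Agent.H43
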