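import Mathlib
import Cfsg.Agent.H43.PGLInv
import Cfsg.Agent.H43.SympReg6

set_option autoImplicit false
set_option linter.unusedSectionVars false
set_option linter.unusedVariables false

/-! Classes of involutions of `PGL_n(q)`, `q` odd: the count. -/

namespace Cfsg.Agent.H43

open Polynomial

section final
variable {F : Type*} [Field F] {n : ℕ}

theorem mk_order_two (g : GL (Fin n) F) :
    orderOf (QuotientGroup.mk g : GL (Fin n) F ⧸ Subgroup.center (GL (Fin n) F)) = 2 ↔
      (∃ a, g * g = scG F n a) ∧ ¬ ∃ a, g = scG F n a := by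
  haveI : Fact (Nat.Prime 2) := ⟨Nat.prime_two⟩
  rw [orderOf_eq_prime_iff, ← QuotientGroup.mk_pow, QuotientGroup.eq_one_iff, ne_eq, QuotientGroup.eq_one_iff,
    mem_center_iff_scG, mem_center_iff_scG, pow_two]
  constructor
  · rintro ⟨⟨a, ha⟩, h⟩
    exact ⟨⟨a, ha.symm⟩, fun ⟨a, ha⟩ => h ⟨a, ha.symm⟩⟩
  · rintro ⟨⟨a, ha⟩, h⟩
    exact ⟨⟨a, ha.symm⟩, fun ⟨a, ha⟩ => h ⟨a, ha.symm⟩⟩

theorem mk_isConj (g h : GL (Fin n) F) :
    IsConj (QuotientGroup.mk g : GL (Fin n) F ⧸ Subgroup.center (GL (Fin n) F)) (QuotientGroup.mk h) ↔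
      ∃ a, IsConj g (scG F n a * h) := by
  rw [isConj_iff]
  constructor
  · rintro ⟨c, hc⟩
    obtain ⟨c, rfl⟩ := QuotientGroup.mk_surjective c
    rw [← QuotientGroup.mk_mul, ← QuotientGroup.mk_inv, ← QuotientGroup.mk_mul, QuotientGroup.eq] at hc
    rw [mem_center_iff_scG] at hc
    obtain ⟨a, ha⟩ := hc
    refine ⟨a⁻¹, ?_⟩
    rw [isConj_iff]
    refine ⟨c, ?_⟩
    rw [map_inv, eq_inv_mul_iff_mul_eq, scG_comm, ha, mul_inv_cancel_left]
  · rintro ⟨a, ha⟩
    rw [isConj_iff] at ha
    obtain ⟨c, hc⟩ := ha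
    refine ⟨QuotientGroup.mk c, ?_⟩
    rw [← QuotientGroup.mk_mul, ← QuotientGroup.mk_inv, ← QuotientGroup.mk_mul, hc, QuotientGroup.mk_mul,
      (QuotientGroup.eq_one_iff (scG F n a)).2 ((mem_center_iff_scG _).2 ⟨a, rfl⟩), one_mul]

theorem eDim_scG_one (h2 : (2 : F) ≠ 0) : eDim (scG F n 1) (-1) = 0 ∧ eDim (scG F n (-1)) (-1) = n := by
  have h1 : eDim (scG F n 1) (-1) = 0 := by
    unfold eDim
    rw [map_sub, aeval_X, aeval_C, enG_scG, Units.val_one, one_smul, Algebra.algebraMap_eq_smul_one, neg_smul, one_smul,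
      sub_neg_eq_add, one_add_one_eq_two]
    have : LinearMap.ker (2 : Module.End F (Fin n → F)) = ⊥ := by
      rw [LinearMap.ker_eq_bot']
      intro v hv
      have h3 : (2 : F) • v = 0 := by
        rw [← hv, two_smul, ← one_add_one_eq_two]
        rfl
      exact (smul_eq_zero.1 h3).resolve_left h2
    rw [this, finrank_bot]
  refine ⟨h1, ?_⟩
  obtain ⟨t, c, φ, hφ, hc, ht, h3, h4, h5⟩ := involution_data h2 (scG F n 1) (by rw [← map_mul, one_mul, map_one])
  rw [h1, add_zero] at h5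
  rw [← eDim_neg (scG F n 1) 1, ← map_mul, mul_one] at h5
  exact h5

theorem scG_sq_one (hn : 1 ≤ n) {a : Fˣ} (h : scG F n a * scG F n a = 1) : a = 1 ∨ a = -1 := by
  rw [← map_mul, ← map_one (scG F n)] at h
  have h3 := scG_injective hn h
  have h4 : (a : F) * (a : F) = 1 := by rw [← Units.val_mul, h3, Units.val_one]
  rcases mul_self_eq_one_iff.1 h4 with h5 | h5
  · left; exact Units.ext h5
  · right; exact Units.ext (by rw [h5]; rfl)

theorem pgl_involution_count [Fintype F] (h2 : (2 : F) ≠ 0) (hn : 2 ≤ n) :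
    Nat.card {C : ConjClasses (GL (Fin n) F ⧸ Subgroup.center (GL (Fin n) F)) // ∃ g : GL (Fin n) F ⧸ Subgroup.center (GL (Fin n) F), ConjClasses.mk g = C ∧ orderOf g = 2} = n / 2 + (if Even n then 1 else 0) := by
  classical
  have hn1 : 1 ≤ n := by omega
  have hrc : ringChar F ≠ 2 := by
    intro h
    apply h2
    have h3 : ((2 : ℕ) : F) = 0 := (ringChar.spec F 2).2 (by rw [h])
    exact_mod_cast h3
  obtain ⟨δ', hδ'⟩ := FiniteField.exists_nonsquare (F := F) hrc
  have hδ0 : δ' ≠ 0 := fun h => hδ' (h ▸ IsSquare.zero)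
  obtain ⟨δ, rfl⟩ : ∃ δ : Fˣ, δ' = (δ : F) := ⟨Units.mk0 δ' hδ0, rfl⟩
  have hδ : ¬ IsSquare δ := by
    rintro ⟨a, ha⟩
    exact hδ' ⟨(a : F), by rw [ha, Units.val_mul]⟩
  choose D hD1 hD2 using fun k : Fin (n / 2) => exists_involution (n := n) h2 (k + 1) (by have := k.2; omega)
  have hE : ∀ u : {u : Unit // Even n}, ∃ g : GL (Fin n) F, g * g = scG F n δ := fun u => exists_nonsquare_rep hδ' u.2
  choose E hE using hE
  let R : Fin (n / 2) ⊕ {u : Unit // Even n} → GL (Fin n) F := Sum.elim D E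
  have hscD : ∀ (g : GL (Fin n) F), g * g = 1 → 1 ≤ eDim g (-1) → eDim g (-1) < n → ¬ ∃ a, g = scG F n a := by
    rintro g hg h3 h4 ⟨a, rfl⟩
    rcases scG_sq_one hn1 hg with rfl | rfl
    · rw [(eDim_scG_one h2).1] at h3; omega
    · rw [(eDim_scG_one h2).2] at h4; omega
  have hscE : ∀ (g : GL (Fin n) F), g * g = scG F n δ → ¬ ∃ a, g = scG F n a := by
    rintro g hg ⟨a, rfl⟩
    rw [← map_mul] at hg
    exact hδ ⟨a, (scG_injective hn1 hg).symm⟩
  have hR : ∀ r, orderOf (QuotientGroup.mk (R r) : GL (Fin n) F ⧸ Subgroup.center (GL (Fin n) F)) = 2 := by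
    rintro (k | k)
    · rw [mk_order_two]
      refine ⟨⟨1, by rw [map_one]; exact hD1 k⟩, hscD _ (hD1 k) ?_ ?_⟩
      · change 1 ≤ eDim (D k) (-1)
        rw [hD2]; omega
      · change eDim (D k) (-1) < n
        rw [hD2]; have := k.2; omega
    · rw [mk_order_two]
      exact ⟨⟨δ, hE k⟩, hscE _ (hE k)⟩
  let Φ : Fin (n / 2) ⊕ {u : Unit // Even n} → {C : ConjClasses (GL (Fin n) F ⧸ Subgroup.center (GL (Fin n) F)) // ∃ g : GL (Fin n) F ⧸ Subgroup.center (GL (Fin n) F), ConjClasses.mk g = C ∧ orderOf g = 2} :=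
    fun r => ⟨ConjClasses.mk (QuotientGroup.mk (R r)), QuotientGroup.mk (R r), rfl, hR r⟩
  have hcross : ∀ k l, ¬ IsConj (QuotientGroup.mk (D k) : GL (Fin n) F ⧸ Subgroup.center (GL (Fin n) F)) (QuotientGroup.mk (E l)) := by
    intro k l h
    rw [mk_isConj] at h
    obtain ⟨a, ha⟩ := h
    rw [isConj_iff] at ha
    obtain ⟨c, hc⟩ := ha
    have h3 : (c * D k * c⁻¹) * (c * D k * c⁻¹) = 1 := by
      have : (c * D k * c⁻¹) * (c * D k * c⁻¹) = c * (D k * D k) * c⁻¹ := by group
      rw [this, hD1]; group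
    rw [hc] at h3
    have h4 : scG F n a * E l * (scG F n a * E l) = scG F n (a * a * δ) := by
      rw [map_mul, map_mul, ← hE l]
      have h5 := scG_comm a (E l)
      calc scG F n a * E l * (scG F n a * E l) = scG F n a * (E l * scG F n a) * E l := by group
        _ = scG F n a * (scG F n a * E l) * E l := by rw [h5]
        _ = _ := by group
    rw [h4, ← map_one (scG F n)] at h3
    have h5 := scG_injective hn1 h3
    apply hδ
    refine ⟨a⁻¹, ?_⟩
    rw [mul_assoc] at h5
    rw [← mul_inv, eq_inv_iff_mul_eq_one, mul_comm, mul_assoc]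
    exact h5
  have hinj : Function.Injective Φ := by
    intro r r' h
    have h1 : IsConj (QuotientGroup.mk (R r) : GL (Fin n) F ⧸ Subgroup.center (GL (Fin n) F)) (QuotientGroup.mk (R r')) :=
      ConjClasses.mk_eq_mk_iff_isConj.1 (congrArg Subtype.val h)
    rcases r with k | k <;> rcases r' with l | l
    · have h1' : IsConj (QuotientGroup.mk (D k) : GL (Fin n) F ⧸ Subgroup.center (GL (Fin n) F)) (QuotientGroup.mk (D l)) := h1
      rw [mk_isConj] at h1'
      obtain ⟨a, ha⟩ := h1'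
      have ha' := ha
      rw [isConj_iff] at ha'
      obtain ⟨c, hc⟩ := ha'
      have h3 : (c * D k * c⁻¹) * (c * D k * c⁻¹) = 1 := by
        have : (c * D k * c⁻¹) * (c * D k * c⁻¹) = c * (D k * D k) * c⁻¹ := by group
        rw [this, hD1]; group
      rw [hc] at h3
      have h4 : scG F n a * D l * (scG F n a * D l) = scG F n a * scG F n a := by
        have h5 := scG_comm a (D l)
        calc scG F n a * D l * (scG F n a * D l) = scG F n a * (D l * scG F n a) * D l := by group
          _ = scG F n a * (scG F n a * D l) * D l := by rw [h5]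
          _ = scG F n a * scG F n a * (D l * D l) := by group
          _ = _ := by rw [hD1, mul_one]
      rw [h4] at h3
      rcases scG_sq_one hn1 h3 with rfl | rfl
      · rw [map_one, one_mul] at ha
        have h5 := eDim_of_isConj ha (-1)
        rw [hD2, hD2] at h5
        have : k = l := Fin.ext (by omega)
        rw [this]
      · have h5 := eDim_of_isConj ha (-1)
        have h6 := eDim_neg (D l) 1
        rw [hD2, h6] at h5
        obtain ⟨t, c, φ, hφ, hc, ht, h3, h4, h7⟩ := involution_data h2 (D l) (hD1 l)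
        rw [hD2] at h7
        have hk := k.2
        have hl := l.2
        have : k = l := Fin.ext (by omega)
        rw [this]
    · exact absurd h1 (hcross k l)
    · exact absurd h1.symm (hcross l k)
    · have : k = l := Subsingleton.elim _ _
      rw [this]
  have hsurj : Function.Surjective Φ := by
    rintro ⟨C, g, rfl, hg⟩
    obtain ⟨g, rfl⟩ := QuotientGroup.mk_surjective g
    have hg' := hg
    rw [mk_order_two] at hg'
    obtain ⟨⟨lam, hlam⟩, hns⟩ := hg'
    have hfin : ∀ r, (∃ a, IsConj (R r) (scG F n a * g)) → Φ r = ⟨ConjClasses.mk (QuotientGroup.mk g), QuotientGroup.mk g, rfl, hg⟩ := by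
      intro r hr
      apply Subtype.ext
      exact ConjClasses.mk_eq_mk_iff_isConj.2 ((mk_isConj _ _).2 hr)
    have hsqm : ∀ μ : Fˣ, scG F n μ * g * (scG F n μ * g) = scG F n (μ * μ * lam) := by
      intro μ
      rw [map_mul, map_mul, ← hlam]
      have h5 := scG_comm μ g
      calc scG F n μ * g * (scG F n μ * g) = scG F n μ * (g * scG F n μ) * g := by group
        _ = scG F n μ * (scG F n μ * g) * g := by rw [h5]
        _ = _ := by group
    by_cases hsq : IsSquare lam
    · obtain ⟨μ, hμ⟩ := hsq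
      have h3 : scG F n μ⁻¹ * g * (scG F n μ⁻¹ * g) = 1 := by
        rw [hsqm, hμ, ← map_one (scG F n)]
        congr 1
        group
      have key : ∀ h : GL (Fin n) F, h * h = 1 → (∃ a, h = scG F n a * g) → eDim h (-1) ≤ n / 2 → ∃ r, Φ r = ⟨ConjClasses.mk (QuotientGroup.mk g), QuotientGroup.mk g, rfl, hg⟩ := by
        rintro h hh ⟨a, ha⟩ hle
        have hne : eDim h (-1) ≠ 0 := by
          intro h0
          have h4 : IsConj h 1 := isConj_involution h2 h 1 hh (by rw [one_mul]) (by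
            have := (eDim_scG_one (n := n) h2).1
            rw [map_one] at this
            rw [h0, this])
          have h5 : h = 1 := by
            rw [isConj_iff] at h4
            obtain ⟨c, hc⟩ := h4
            exact conj_eq_one_iff.1 hc
          apply hns
          refine ⟨a⁻¹, ?_⟩
          rw [ha] at h5
          rw [map_inv]
          exact eq_inv_of_mul_eq_one_right h5
        refine ⟨Sum.inl ⟨eDim h (-1) - 1, by omega⟩, hfin _ ⟨a, ?_⟩⟩
        rw [← ha]
        refine isConj_involution h2 _ _ (hD1 _) hh ?_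
        refine (hD2 _).trans ?_
        change eDim h (-1) - 1 + 1 = _
        omega
      by_cases hle : eDim (scG F n μ⁻¹ * g) (-1) ≤ n / 2
      · exact key _ h3 ⟨_, rfl⟩ hle
      · refine key (scG F n (-1) * (scG F n μ⁻¹ * g)) ?_ ⟨-1 * μ⁻¹, ?_⟩ ?_
        · have h5 := scG_comm (n := n) (-1) (scG F n μ⁻¹ * g)
          calc scG F n (-1) * (scG F n μ⁻¹ * g) * (scG F n (-1) * (scG F n μ⁻¹ * g)) =
              scG F n (-1) * ((scG F n μ⁻¹ * g) * scG F n (-1)) * (scG F n μ⁻¹ * g) := by group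
            _ = scG F n (-1) * (scG F n (-1) * (scG F n μ⁻¹ * g)) * (scG F n μ⁻¹ * g) := by rw [h5]
            _ = scG F n (-1) * scG F n (-1) * ((scG F n μ⁻¹ * g) * (scG F n μ⁻¹ * g)) := by group
            _ = 1 := by rw [h3, mul_one, ← map_mul, neg_one_mul, neg_neg, map_one]
        · rw [map_mul, mul_assoc]
        · have h6 := eDim_neg (scG F n μ⁻¹ * g) 1
          obtain ⟨t, c, φ, hφ, hc, ht, h3, h4, h7⟩ := involution_data h2 (scG F n μ⁻¹ * g) h3
          omega
    · have hlam' : ¬ IsSquare (lam : F) := by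
        rintro ⟨a, ha⟩
        have ha0 : a ≠ 0 := by rintro rfl; exact lam.ne_zero (by rw [ha, mul_zero])
        exact hsq ⟨Units.mk0 a ha0, Units.ext (by rw [Units.val_mul]; exact ha)⟩
      obtain ⟨hc1, hev⟩ := isConj_nonsquare hlam' g g hlam hlam
      have h3 : IsSquare ((δ : F) * (lam : F)) := isSquare_mul_of_nonsquare hrc δ.ne_zero lam.ne_zero hδ' hlam'
      obtain ⟨a, ha⟩ := h3
      have ha0 : a ≠ 0 := by
        rintro rfl
        rw [mul_zero] at ha
        rcases mul_eq_zero.1 ha with h | h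
        · exact δ.ne_zero h
        · exact lam.ne_zero h
      obtain ⟨b, rfl⟩ : ∃ b : Fˣ, a = (b : F) := ⟨Units.mk0 a ha0, rfl⟩
      have hb : δ * lam = b * b := Units.ext (by rw [Units.val_mul, Units.val_mul]; exact ha)
      refine ⟨Sum.inr ⟨(), hev⟩, hfin _ ⟨b * lam⁻¹, ?_⟩⟩
      refine (isConj_nonsquare hδ' _ _ (hE _) ?_).1
      rw [hsqm]
      congr 1
      have : b * lam⁻¹ * (b * lam⁻¹) * lam = b * b * lam⁻¹ := by
        rw [mul_mul_mul_comm, mul_assoc, inv_mul_cancel_right]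
      rw [this, ← hb, mul_inv_cancel_right]
  rw [← Nat.card_eq_of_bijective Φ ⟨hinj, hsurj⟩, Nat.card_sum, Nat.card_eq_fintype_card, Fintype.card_fin]
  congr 1
  split_ifs with h
  · haveI : Unique {u : Unit // Even n} := ⟨⟨⟨(), h⟩⟩, fun _ => Subsingleton.elim _ _⟩
    exact Nat.card_unique
  · haveI : IsEmpty {u : Unit // Even n} := ⟨fun u => h u.2⟩
    exact Nat.card_of_isEmpty

end final

end Cfsg.Agent.H43
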