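import Mathlib
import Cfsg.Agent.H43.Decomp

set_option autoImplicit false

/-! Every endomorphism is self-adjoint for a non-degenerate symmetric bilinear form. -/

namespace Cfsg.Agent.H43

open Polynomial

/-- The algebra `F[X]/I`, `I ≠ 0`, has a non-degenerate functional. -/
theorem exists_frobenius_functional {F : Type*} [Field F] (I : Ideal F[X]) (hI : I ≠ ⊥) :
    ∃ l : (F[X] ⧸ I) →ₗ[F] F, ∀ x : F[X] ⧸ I, x ≠ 0 → ∃ y, l (x * y) ≠ 0 := by
  classical
  obtain ⟨g, hg, rfl⟩ : ∃ g : F[X], g.Monic ∧ I = Ideal.span {g} := by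
    obtain ⟨g, rfl⟩ := (IsPrincipalIdealRing.principal I).principal
    have hg0 : g ≠ 0 := by
      rintro rfl
      exact hI (by simp)
    refine ⟨g * C g.leadingCoeff⁻¹, monic_mul_leadingCoeff_inv hg0, ?_⟩
    have hu : IsUnit (C g.leadingCoeff⁻¹ : F[X]) := by
      rw [isUnit_C]
      exact (inv_ne_zero (leadingCoeff_ne_zero.2 hg0)).isUnit
    rw [Ideal.span_singleton_mul_right_unit hu]
  obtain ⟨l, hl⟩ : ∃ l : (F[X] ⧸ Ideal.span {g}) →ₗ[F] F,
      ∀ h : F[X], l (Ideal.Quotient.mk _ h) = (h %ₘ g).coeff (g.natDegree - 1) := by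
    refine ⟨(lcoeff F (g.natDegree - 1)).comp (AdjoinRoot.modByMonicHom hg), ?_⟩
    intro h
    exact congrArg (fun r : F[X] => r.coeff (g.natDegree - 1)) (AdjoinRoot.modByMonicHom_mk hg h)
  refine ⟨l, ?_⟩
  intro x hx
  obtain ⟨h₀, rfl⟩ := Ideal.Quotient.mk_surjective x
  obtain ⟨h, hh⟩ : ∃ h, h = h₀ %ₘ g := ⟨_, rfl⟩
  have hmk : (Ideal.Quotient.mk (Ideal.span {g}) h₀) = Ideal.Quotient.mk (Ideal.span {g}) h := by
    rw [Ideal.Quotient.eq, Ideal.mem_span_singleton, hh]
    have := modByMonic_add_div h₀ g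
    exact ⟨h₀ /ₘ g, by linear_combination (-1 : F[X]) * this⟩
  rw [hmk] at hx ⊢
  have hh0 : h ≠ 0 := by
    rintro h0
    rw [h0, map_zero] at hx
    exact hx rfl
  have hdeg : h.natDegree < g.natDegree := by
    rw [hh]
    apply natDegree_modByMonic_lt _ hg
    rintro rfl
    rw [modByMonic_one] at hh
    exact hh0 hh
  refine ⟨Ideal.Quotient.mk _ (X ^ (g.natDegree - 1 - h.natDegree)), ?_⟩
  rw [← map_mul, hl]
  have hdeg2 : (h * X ^ (g.natDegree - 1 - h.natDegree)).natDegree = g.natDegree - 1 := by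
    rw [natDegree_mul_X_pow _ hh0]
    omega
  rw [(modByMonic_eq_self_iff hg).2]
  · have h5 : leadingCoeff (h * X ^ (g.natDegree - 1 - h.natDegree)) ≠ 0 :=
      leadingCoeff_ne_zero.2 (mul_ne_zero hh0 (pow_ne_zero _ X_ne_zero))
    rw [leadingCoeff, hdeg2] at h5
    exact h5
  · have h6 : (h * X ^ (g.natDegree - 1 - h.natDegree)).natDegree < g.natDegree := by omega
    exact degree_lt_degree h6

/-- Every endomorphism of a finite-dimensional space is self-adjoint for some non-degenerate symmetric form. -/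
theorem exists_selfAdjoint_form {F V : Type*} [Field F] [AddCommGroup V] [Module F V] [FiniteDimensional F V]
    (f : Module.End F V) :
    ∃ B : V →ₗ[F] V →ₗ[F] F, (∀ x, x ≠ 0 → ∃ y, B x y ≠ 0) ∧ (∀ x y, B x y = B y x) ∧
      ∀ x y, B (f x) y = B x (f y) := by
  classical
  obtain ⟨t, p, e, φ, hp, hφ⟩ := exists_decomp f
  have hI : ∀ i, (Ideal.span {p i ^ e i} : Ideal F[X]) ≠ ⊥ := by
    intro i h
    rw [Ideal.span_singleton_eq_bot] at h
    exact pow_ne_zero _ (hp i).ne_zero h
  choose l hl using fun i => exists_frobenius_functional (Ideal.span {p i ^ e i}) (hI i)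
  let B : V →ₗ[F] V →ₗ[F] F := LinearMap.mk₂ F (fun x y => ∑ i, l i (φ x i * φ y i))
    (by intro x x' y; simp only [map_add, Pi.add_apply, add_mul, Finset.sum_add_distrib])
    (by intro c x y; simp only [map_smul, Pi.smul_apply, smul_mul_assoc, Finset.smul_sum])
    (by intro x y y'; simp only [map_add, Pi.add_apply, mul_add, Finset.sum_add_distrib])
    (by intro c x y; simp only [map_smul, Pi.smul_apply, mul_smul_comm, Finset.smul_sum])
  have hB : ∀ x y, B x y = ∑ i, l i (φ x i * φ y i) := fun x y => rfl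
  refine ⟨B, ?_, ?_, ?_⟩
  · intro x hx
    have h1 : φ x ≠ 0 := fun h => hx (φ.map_eq_zero_iff.1 h)
    obtain ⟨i, hi⟩ := Function.ne_iff.1 h1
    obtain ⟨y, hy⟩ := hl i (φ x i) hi
    refine ⟨φ.symm (Pi.single i y), ?_⟩
    rw [hB, Finset.sum_eq_single i]
    · rw [LinearEquiv.apply_symm_apply, Pi.single_eq_same]
      exact hy
    · intro j _ hj
      rw [LinearEquiv.apply_symm_apply, Pi.single_eq_of_ne hj, mul_zero, map_zero]
    · intro h; exact absurd (Finset.mem_univ i) h
  · intro x y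
    rw [hB, hB]
    exact Finset.sum_congr rfl fun i _ => by rw [mul_comm]
  · intro x y
    rw [hB, hB]
    refine Finset.sum_congr rfl fun i _ => ?_
    rw [hφ, hφ]
    congr 1
    ring

/-- Matrices are determined by the associated bilinear form. -/
theorem matrix_ext_of_form {F : Type*} [CommRing F] {ι : Type*} [Fintype ι] [DecidableEq ι] {M N : Matrix ι ι F}
    (h : ∀ x y : ι → F, x ⬝ᵥ (M.mulVec y) = x ⬝ᵥ (N.mulVec y)) : M = N := by
  ext i j
  have := h (Pi.single i 1) (Pi.single j 1)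
  simpa using this

/-- A square matrix over a field is similar to its transpose, by a symmetric matrix. -/
theorem exists_conj_transpose {F : Type*} [Field F] {ι : Type*} [Fintype ι] [DecidableEq ι] (A : Matrix ι ι F) :
    ∃ P : (Matrix ι ι F)ˣ, (P : Matrix ι ι F) * A = A.transpose * (P : Matrix ι ι F) := by
  obtain ⟨B, hnd, hsymm, hadj⟩ := exists_selfAdjoint_form (Matrix.toLin' A : Module.End F (ι → F))
  obtain ⟨M, hM⟩ : ∃ M : Matrix ι ι F, M = LinearMap.toMatrix₂' F B := ⟨_, rfl⟩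
  have hMB : ∀ x y, B x y = x ⬝ᵥ (M.mulVec y) := by
    intro x y
    have h := Matrix.toLinearMap₂'_apply' (T := F) M x y
    rw [← h, hM]
    simp
  have hcomm : M * A = A.transpose * M := by
    apply matrix_ext_of_form
    intro x y
    have h1 := hadj x y
    rw [hMB, hMB, Matrix.toLin'_apply, Matrix.toLin'_apply] at h1
    rw [← Matrix.mulVec_mulVec, ← h1, ← Matrix.mulVec_mulVec, Matrix.dotProduct_mulVec x,
      Matrix.vecMul_transpose]
  have hu : IsUnit M := by
    rw [← Matrix.vecMul_injective_iff_isUnit]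
    intro x y hxy
    by_contra hne
    obtain ⟨z, hz⟩ := hnd (x - y) (sub_ne_zero.2 hne)
    apply hz
    rw [hMB, Matrix.dotProduct_mulVec, Matrix.sub_vecMul]
    have h2 : Matrix.vecMul x M = Matrix.vecMul y M := hxy
    rw [h2, sub_self, zero_dotProduct]
  obtain ⟨P, rfl⟩ := hu
  exact ⟨P, hcomm⟩

theorem isConj_transpose {F : Type*} [Field F] {ι : Type*} [Fintype ι] [DecidableEq ι] (A : Matrix ι ι F) :
    IsConj A A.transpose := by
  obtain ⟨P, hP⟩ := exists_conj_transpose A
  exact ⟨P, hP⟩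

end Cfsg.Agent.H43
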