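import Mathlib
import Cfsg.Agent.H43.SemiConj2
import Cfsg.Agent.H43.MatEnd
import Cfsg.Agent.S0750

set_option autoImplicit false
set_option linter.unusedSectionVars false
set_option linter.unusedVariables false

/-! Conjugacy of semisimple orthogonal matrices of odd order. -/

namespace Cfsg.Agent.H43

theorem semisimple_orth {F V : Type*} [Field F] [Finite F] [AddCommGroup V] [Module F V] [FiniteDimensional F V]
    (Q : QuadraticForm F V) (hQ : (QuadraticMap.polarBilin Q).Nondegenerate)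
    (a c : V ≃ₗ[F] V) (ha : ∀ x, Q (a x) = Q x) (hc : ∀ x, Q (c x) = Q x)
    {N : ℕ} (hN : (N : F) ≠ 0) (haN : (a : V →ₗ[F] V) ^ N = 1) (hodd : Odd N)
    (g : V ≃ₗ[F] V) (hg : ∀ x, g (a x) = c (g x)) :
    ∃ k : V ≃ₗ[F] V, (∀ x, k (a x) = c (k x)) ∧ ∀ x, Q (k x) = Q x := by
  obtain ⟨B, hBd⟩ : ∃ B : LinearMap.BilinForm F V, B = QuadraticMap.polarBilin Q := ⟨_, rfl⟩
  rw [← hBd] at hQ
  have hBp : ∀ x y, B x y = Q (x + y) - Q x - Q y := by
    intro x y; rw [hBd]; rfl
  have hsym : ∀ x y, B y x = 1 * B x y := by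
    intro x y; rw [hBp, hBp, add_comm y x]; ring
  have sym0 : ∀ x y, B x y = 0 → B y x = 0 := by
    intro x y h; rw [hsym, h, mul_zero]
  have haB : ∀ x y, B (a x) (a y) = B x y := by
    intro x y; rw [hBp, hBp, ← map_add, ha, ha, ha]
  have hcB : ∀ x y, B (c x) (c y) = B x y := by
    intro x y; rw [hBp, hBp, ← map_add, hc, hc, hc]
  obtain ⟨f, hf⟩ : ∃ f : Module.End F V, ∀ x, f x = a x - (1 : F) • x :=
    ⟨(a : V →ₗ[F] V) - (1 : F) • LinearMap.id, fun x => rfl⟩
  obtain ⟨f', hf'⟩ : ∃ f' : Module.End F V, ∀ x, f' x = c x - (1 : F) • x :=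
    ⟨(c : V →ₗ[F] V) - (1 : F) • LinearMap.id, fun x => rfl⟩
  have hgf : ∀ x, g (f x) = f' (g x) := by
    intro x; rw [hf, hf', map_sub, map_smul, hg]
  have hss : ∀ y, f (f y) = 0 → f y = 0 := by
    intro y hy
    rw [hf (f y), sub_eq_zero] at hy
    rw [hf] at hy ⊢
    exact ss_of_pow (a := (a : V →ₗ[F] V)) hN haN 1 y hy
  have hss' : ∀ y, f' (f' y) = 0 → f' y = 0 := by
    intro y hy
    obtain ⟨x, rfl⟩ := g.surjective y
    rw [← hgf, ← hgf, g.map_eq_zero_iff] at hy
    rw [← hgf, hss x hy, map_zero]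
  have hcomp := isCompl_of_ss f hss
  have hcomp' := isCompl_of_ss f' hss'
  have hker : ∀ x, x ∈ LinearMap.ker f ↔ a x = x := by
    intro x; rw [LinearMap.mem_ker, hf, sub_eq_zero, one_smul]
  have hker' : ∀ x, x ∈ LinearMap.ker f' ↔ c x = x := by
    intro x; rw [LinearMap.mem_ker, hf', sub_eq_zero, one_smul]
  have haf : ∀ x ∈ LinearMap.range f, a x ∈ LinearMap.range f := by
    rintro _ ⟨y, rfl⟩
    exact ⟨a y, by rw [hf, hf, map_sub, map_smul]⟩
  have hcf : ∀ x ∈ LinearMap.range f', c x ∈ LinearMap.range f' := by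
    rintro _ ⟨y, rfl⟩
    exact ⟨c y, by rw [hf', hf', map_sub, map_smul]⟩
  have hgr : ∀ x, g x ∈ LinearMap.range f' ↔ x ∈ LinearMap.range f := by
    intro x
    constructor
    · rintro ⟨y, hy⟩
      obtain ⟨z, rfl⟩ := g.surjective y
      rw [← hgf] at hy
      exact ⟨z, g.injective hy⟩
    · rintro ⟨y, rfl⟩
      exact ⟨g y, (hgf y).symm⟩
  obtain ⟨a', ha'⟩ := exists_restrict a (LinearMap.range f) haf
  obtain ⟨c', hc'⟩ := exists_restrict c (LinearMap.range f') hcf
  obtain ⟨g', hg'⟩ := exists_restrict_map g (LinearMap.range f) (LinearMap.range f') hgr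
  have horth : ∀ x ∈ LinearMap.ker f, ∀ y ∈ LinearMap.range f, B x y = 0 := by
    rintro x hx _ ⟨y, rfl⟩
    rw [hf]
    exact isometry_ortho B a haB 1 (one_mul 1) x y (by rw [(hker x).1 hx, one_smul])
  have horth' : ∀ x ∈ LinearMap.ker f', ∀ y ∈ LinearMap.range f', B x y = 0 := by
    rintro x hx _ ⟨y, rfl⟩
    rw [hf']
    exact isometry_ortho B c hcB 1 (one_mul 1) x y (by rw [(hker' x).1 hx, one_smul])
  have hdec : ∀ x, ∃ u ∈ LinearMap.ker f, ∃ v ∈ LinearMap.range f, x = u + v := by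
    intro x
    have : x ∈ LinearMap.ker f ⊔ LinearMap.range f := by rw [hcomp.sup_eq_top]; trivial
    obtain ⟨u, hu, v, hv, h⟩ := Submodule.mem_sup.1 this
    exact ⟨u, hu, v, hv, h.symm⟩
  have hdec' : ∀ x, ∃ u ∈ LinearMap.ker f', ∃ v ∈ LinearMap.range f', x = u + v := by
    intro x
    have : x ∈ LinearMap.ker f' ⊔ LinearMap.range f' := by rw [hcomp'.sup_eq_top]; trivial
    obtain ⟨u, hu, v, hv, h⟩ := Submodule.mem_sup.1 this
    exact ⟨u, hu, v, hv, h.symm⟩
  have hU : ∀ v : LinearMap.range f, (∀ w : LinearMap.range f, B (v : V) (w : V) = 0) → v = 0 := by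
    intro v hv
    apply Subtype.ext
    apply hQ.1
    intro w
    obtain ⟨u, hu, w', hw', rfl⟩ := hdec w
    rw [map_add, hv ⟨w', hw'⟩, sym0 _ _ (horth u hu v v.2), add_zero]
  have hT : ∀ v : LinearMap.range f', (∀ w : LinearMap.range f', B (v : V) (w : V) = 0) → v = 0 := by
    intro v hv
    apply Subtype.ext
    apply hQ.1
    intro w
    obtain ⟨u, hu, w', hw', rfl⟩ := hdec' w
    rw [map_add, hv ⟨w', hw'⟩, sym0 _ _ (horth' u hu v v.2), add_zero]
  have hR1 : ∀ x y : LinearMap.range f, (B.restrict (LinearMap.range f)) x y = B (x : V) (y : V) := fun x y => rfl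
  have hR2 : ∀ x y : LinearMap.range f', (B.restrict (LinearMap.range f')) x y = B (x : V) (y : V) := fun x y => rfl
  have hfix : ∀ x : LinearMap.range f, a' x = x → x = 0 := by
    intro x hx
    have h1 : (x : V) ∈ LinearMap.ker f := by
      rw [hker, ← ha', hx]
    have := (Submodule.disjoint_def.1 hcomp.disjoint) (x : V) h1 x.2
    exact Subtype.ext this
  have ha'N : ∀ (n : ℕ) (x : LinearMap.range f), ((((a' : _ →ₗ[F] LinearMap.range f) ^ n) x : LinearMap.range f) : V) = ((a : V →ₗ[F] V) ^ n) x := by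
    intro n
    induction n with
    | zero => intro x; rfl
    | succ n ih =>
      intro x
      rw [pow_succ, Module.End.mul_apply, ih, pow_succ, Module.End.mul_apply]
      congr 1
      exact ha' x
  obtain ⟨k', hk1, hk2⟩ := core_isometry (B.restrict (LinearMap.range f)) (B.restrict (LinearMap.range f')) 1 (one_mul 1)
    (by intro x y; rw [hR1, hR1]; exact hsym _ _) (by intro x y; rw [hR2, hR2]; exact hsym _ _)
    ⟨hU, fun y hy => hU y (fun w => sym0 _ _ (hy w))⟩ ⟨hT, fun y hy => hT y (fun w => sym0 _ _ (hy w))⟩ a' c'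
    (by intro x y; rw [hR1, hR1, ha', ha', haB]) (by intro x y; rw [hR2, hR2, hc', hc', hcB]) (by
      intro x hx
      have h1 : a' (a' x + x) = a' x + x := by rw [map_add, hx, add_comm]
      have h2 : a' x + x = 0 := hfix _ h1
      have h3 : a' x = -x := eq_neg_of_add_eq_zero_left h2
      -- x = - x
      have h4 : ∀ n : ℕ, ((a' : _ →ₗ[F] LinearMap.range f) ^ n) x = (-1 : F) ^ n • x := by
        intro n
        induction n with
        | zero => simp
        | succ n ih =>
          rw [pow_succ', Module.End.mul_apply, ih, map_smul]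
          change (-1 : F) ^ n • a' x = _
          rw [h3, pow_succ, mul_smul, neg_one_smul]
      have h5 := h4 N
      have h6 : ((a' : _ →ₗ[F] LinearMap.range f) ^ N) x = x := by
        apply Subtype.ext
        rw [ha'N, haN]; rfl
      rw [h6, hodd.neg_one_pow, neg_one_smul] at h5
      apply hfix
      rw [h3, ← h5]) g' (by
      intro x
      apply Subtype.ext
      rw [hg', ha', hc', hg', hg])
  -- quadratic forms agree
  have hkQ : ∀ x : LinearMap.range f, Q (k' x : V) = Q (x : V) := by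
    have hadd : ∀ x y : LinearMap.range f, Q (k' (x + y) : V) - Q ((x + y : LinearMap.range f) : V) =
        (Q (k' x : V) - Q (x : V)) + (Q (k' y : V) - Q (y : V)) := by
      intro x y
      have h1 := hk2 x y
      rw [hR1, hR2, hBp, hBp] at h1
      have h2 : (k' (x + y) : V) = (k' x : V) + (k' y : V) := by rw [map_add]; rfl
      have h3 : ((x + y : LinearMap.range f) : V) = (x : V) + (y : V) := rfl
      rw [h2, h3]
      linear_combination h1
    have hinv : ∀ x : LinearMap.range f, Q (k' (a' x) : V) - Q ((a' x : LinearMap.range f) : V) = Q (k' x : V) - Q (x : V) := by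
      intro x
      rw [hk1, hc', hc, ha', ha]
    have hsurj : ∀ x : LinearMap.range f, ∃ z, a' z = x + z := by
      obtain ⟨D, hD⟩ : ∃ D : Module.End F (LinearMap.range f), ∀ x, D x = a' x - x :=
        ⟨(a' : LinearMap.range f →ₗ[F] LinearMap.range f) - LinearMap.id, fun x => rfl⟩
      have hinj : Function.Injective D := by
        rw [injective_iff_map_eq_zero]
        intro x hx
        apply hfix
        rw [hD] at hx
        exact sub_eq_zero.1 hx
      intro x
      obtain ⟨z, hz⟩ := (LinearMap.surjective_of_injective hinj) x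
      refine ⟨z, ?_⟩
      rw [← hz, hD]
      abel
    intro x
    obtain ⟨z, hz⟩ := hsurj x
    have h1 := hinv z
    rw [hz, hadd] at h1
    have h2 : Q (k' x : V) - Q (x : V) = 0 := by linear_combination h1
    exact sub_eq_zero.1 h2
  rw [hBd] at hQ
  obtain ⟨K, hK1, hK2⟩ := Cfsg.Agent.S0750.result Q hQ (LinearMap.range f) (LinearMap.range f') k' hkQ
  have hKB : ∀ x y, B (K x) (K y) = B x y := by
    intro x y; rw [hBp, hBp, ← map_add, hK1, hK1, hK1]
  refine ⟨K, ?_, hK1⟩
  intro x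
  obtain ⟨u, hu, v, hv, rfl⟩ := hdec x
  have h1 : c (K u) = K u := by
    -- K u is orthogonal to range f'
    have h2 : ∀ w, B (K u) (f' w) = 0 := by
      intro w
      obtain ⟨z, hz⟩ := k'.surjective ⟨f' w, ⟨w, rfl⟩⟩
      have h3 : f' w = K z := by rw [hK2 z, hz]
      rw [h3, hKB]
      exact horth u hu z z.2
    rw [← sub_eq_zero]
    rw [hBd] at h2
    apply hQ.1
    intro w
    obtain ⟨w', rfl⟩ := c.surjective w
    have h4 := h2 w'
    rw [← hBd] at h4 ⊢
    rw [hf', one_smul, map_sub] at h4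
    rw [map_sub, LinearMap.sub_apply, hcB]
    linear_combination -h4
  have h2 : K (a v) = c (K v) := by
    have h3 := hK2 (a' ⟨v, hv⟩)
    rw [ha'] at h3
    have h4 := hK2 ⟨v, hv⟩
    change K v = _ at h4
    change K (a v) = _ at h3
    rw [h3, h4, hk1, hc']
  rw [map_add, map_add, (hker u).1 hu, h2, map_add, map_add, h1]

theorem isConj_orth_semisimple_iff {F : Type*} [Field F] [Fintype F] {p : ℕ} [Fact p.Prime] [CharP F p] {n : ℕ}
    (Q : QuadraticForm F (Fin n → F)) (hQ : (QuadraticMap.polarBilin Q).Nondegenerate) (A B : ↥(Cfsg.isometryGroup F ⇑Q))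
    (hodd : Odd (orderOf A)) (hA : (orderOf A).Coprime p) :
    IsConj A B ↔ IsConj ((A : Matrix.GeneralLinearGroup (Fin n) F) : Matrix (Fin n) (Fin n) F)
      ((B : Matrix.GeneralLinearGroup (Fin n) F) : Matrix (Fin n) (Fin n) F) := by
  constructor
  · intro h
    rw [isConj_iff] at h
    obtain ⟨c, hc⟩ := h
    rw [mul_inv_eq_iff_eq_mul] at hc
    refine ⟨(c : Matrix.GeneralLinearGroup (Fin n) F), ?_⟩
    exact congrArg (fun z : ↥(Cfsg.isometryGroup F ⇑Q) => ((z : Matrix.GeneralLinearGroup (Fin n) F) : Matrix (Fin n) (Fin n) F)) hc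
  · rintro ⟨g, hg⟩
    have hg' : (g : Matrix (Fin n) (Fin n) F) * ((A : Matrix.GeneralLinearGroup (Fin n) F) : Matrix (Fin n) (Fin n) F) =
      ((B : Matrix.GeneralLinearGroup (Fin n) F) : Matrix (Fin n) (Fin n) F) * (g : Matrix (Fin n) (Fin n) F) := hg
    have hN : ((orderOf A : ℕ) : F) ≠ 0 := by
      rw [Ne, CharP.cast_eq_zero_iff F p]
      intro h
      have := Nat.Coprime.eq_one_of_dvd hA.symm h
      exact (Fact.out : p.Prime).one_lt.ne' this
    obtain ⟨k, hk1, hk2⟩ := semisimple_orth Q hQ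
      (LinearMap.GeneralLinearGroup.generalLinearEquiv F _ (glEnd (A : Matrix.GeneralLinearGroup (Fin n) F)))
      (LinearMap.GeneralLinearGroup.generalLinearEquiv F _ (glEnd (B : Matrix.GeneralLinearGroup (Fin n) F)))
      (fun x => A.2 x 0) (fun x => B.2 x 0) hN (by
        have h1 : ((LinearMap.GeneralLinearGroup.generalLinearEquiv F _ (glEnd (A : Matrix.GeneralLinearGroup (Fin n) F)) : (Fin n → F) ≃ₗ[F] (Fin n → F)) :
          (Fin n → F) →ₗ[F] (Fin n → F)) = Matrix.toLin' ((A : Matrix.GeneralLinearGroup (Fin n) F) : Matrix (Fin n) (Fin n) F) := rfl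
        rw [h1, ← Matrix.toLin'_pow]
        have h2 : ((A : Matrix.GeneralLinearGroup (Fin n) F) : Matrix (Fin n) (Fin n) F) ^ (orderOf A) = 1 := by
          have := congrArg (fun z : ↥(Cfsg.isometryGroup F ⇑Q) => ((z : Matrix.GeneralLinearGroup (Fin n) F) : Matrix (Fin n) (Fin n) F)) (pow_orderOf_eq_one A)
          exact this
        rw [h2, Matrix.toLin'_one]
        rfl) hodd (LinearMap.GeneralLinearGroup.generalLinearEquiv F _ (glEnd g)) (by
        intro x
        change (g : Matrix (Fin n) (Fin n) F).mulVec (((A : Matrix.GeneralLinearGroup (Fin n) F) : Matrix (Fin n) (Fin n) F).mulVec x) =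
          ((B : Matrix.GeneralLinearGroup (Fin n) F) : Matrix (Fin n) (Fin n) F).mulVec ((g : Matrix (Fin n) (Fin n) F).mulVec x)
        rw [Matrix.mulVec_mulVec, Matrix.mulVec_mulVec, hg'])
    -- back to matrices
    obtain ⟨K, hK⟩ : ∃ K : GL (Fin n) F, glEnd K = (LinearMap.GeneralLinearGroup.generalLinearEquiv F (Fin n → F)).symm k :=
      ⟨glEnd.symm _, MulEquiv.apply_symm_apply _ _⟩
    have hKv : ∀ x, (K : Matrix (Fin n) (Fin n) F).mulVec x = k x := by
      intro x
      rw [← glEnd_apply, hK]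
      rfl
    rw [isConj_iff]
    refine ⟨⟨K, ?_⟩, ?_⟩
    · change ∀ v _, Q ((K : Matrix (Fin n) (Fin n) F).mulVec v) = Q v
      intro v _
      rw [hKv, hk2]
    · rw [mul_inv_eq_iff_eq_mul]
      apply Subtype.ext
      apply Units.ext
      change (K : Matrix (Fin n) (Fin n) F) * ((A : Matrix.GeneralLinearGroup (Fin n) F) : Matrix (Fin n) (Fin n) F) =
        ((B : Matrix.GeneralLinearGroup (Fin n) F) : Matrix (Fin n) (Fin n) F) * (K : Matrix (Fin n) (Fin n) F)
      apply (Matrix.toLin' (R := F) (m := Fin n) (n := Fin n)).injective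
      apply LinearMap.ext
      intro x
      rw [Matrix.toLin'_apply, Matrix.toLin'_apply, ← Matrix.mulVec_mulVec, ← Matrix.mulVec_mulVec, hKv, hKv]
      exact hk1 x

end Cfsg.Agent.H43
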