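import Mathlib
import Cfsg.Agent.H43.NilForm2

set_option autoImplicit false
set_option linter.unusedSectionVars false
set_option linter.unusedVariables false

/-! Realization and invariance of layer forms. -/

namespace Cfsg.Agent.H43

variable {F : Type*} {V : Type*} [Field F] [AddCommGroup V] [Module F V] [FiniteDimensional F V]
  {ι : Type*} [Fintype ι] [DecidableEq ι] {d : ι → ℕ} {N : Module.End F V}
  {b : Module.Basis ((k : ι) × Fin (d k)) F V}

theorem exists_comm_blocks (hJ : JB N d b) (hd : ∀ k, 1 ≤ d k) (M : (j : ℕ) → Matrix {k // d k = j} {k // d k = j} F) :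
    ∃ a : Module.End F V, Commute a N ∧ ∀ j, blockM b hd a j = M j := by
  obtain ⟨D, hD⟩ : ∃ D, ∀ k, d k < D := ⟨∑ k, d k + 1, fun k => Nat.lt_succ_of_le (Finset.single_le_sum (f := d) (fun _ _ => Nat.zero_le _) (Finset.mem_univ k))⟩
  obtain ⟨a, ha⟩ := piN_surjective hJ hd D hD (fun j => M j)
  refine ⟨a.1, a.2, fun j => ?_⟩
  by_cases hj : j < D
  · exact congrFun ha ⟨j, hj⟩
  · have hE : IsEmpty {k // d k = j} := ⟨fun k => by have := hD k.1; have := k.2; omega⟩
    exact Subsingleton.elim _ _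

/-- realization of layer forms -/
theorem nil_exists (h2 : (2 : F) ≠ 0) (hJ : JB N d b) (hd : ∀ k, 1 ≤ d k) (G : (j : ℕ) → Matrix {k // d k = j} {k // d k = j} F)
    (hG : ∀ j, IsUnit (G j)) (hGs : ∀ j, (G j).transpose = ((-1 : F) ^ j) • G j) :
    ∃ B : LinearMap.BilinForm F V, (∀ x y, B y x = -1 * B x y) ∧ (∀ x, (∀ y, B x y = 0) → x = 0) ∧ IsAdj B N (-N) ∧ ∀ j, GM b hd N B j = G j := by
  obtain ⟨a, haN, ha⟩ := exists_comm_blocks hJ hd (fun j => (G j).transpose)
  obtain ⟨B1, hB1⟩ : ∃ B1 : LinearMap.BilinForm F V, ∀ x y, B1 x y = B0 b (a x) y := ⟨(B0 b).compLeft a, fun _ _ => rfl⟩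
  have hadj1 : IsAdj B1 N (-N) := by
    intro x y
    rw [hB1, hB1]
    have h1 : a (N x) = N (a x) := by
      rw [← Module.End.mul_apply, haN.eq, Module.End.mul_apply]
    rw [h1, B0_skew hJ]
  have hG1 : ∀ j, GM b hd N B1 j = G j := by
    intro j
    rw [GM_eq hJ hd hB1, ha, Matrix.transpose_transpose]
  obtain ⟨B, hB⟩ : ∃ B : LinearMap.BilinForm F V, ∀ x y, B x y = (2 : F)⁻¹ * (B1 x y - B1 y x) :=
    ⟨(2 : F)⁻¹ • (B1 - B1.flip), fun x y => rfl⟩
  have hs : ∀ x y, B y x = -1 * B x y := by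
    intro x y
    rw [hB, hB]; ring
  have hadj : IsAdj B N (-N) := by
    intro x y
    have h1 := hadj1 x y
    have h2 := hadj1 y x
    rw [LinearMap.neg_apply, map_neg] at h1 h2 ⊢
    rw [hB, hB, h1, h2]
    ring
  have hGM : ∀ j, GM b hd N B j = G j := by
    intro j
    ext k l
    have hj : 1 ≤ j := by rw [← k.2]; exact hd k.1
    change B (gen b hd k.1) ((N ^ (j - 1)) (gen b hd l.1)) = _
    rw [hB]
    have e1 : B1 (gen b hd k.1) ((N ^ (j - 1)) (gen b hd l.1)) = G j k l := by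
      rw [← hG1 j]; rfl
    have e2 : B1 ((N ^ (j - 1)) (gen b hd l.1)) (gen b hd k.1) = (-1) ^ (j - 1) * G j l k := by
      have h4 := hadj1.pow (j - 1) (gen b hd l.1) (gen b hd k.1)
      have h5 : ((-N) ^ (j - 1)) = ((-1 : F) ^ (j - 1)) • N ^ (j - 1) := by
        rw [← neg_one_smul F N, _root_.smul_pow]
      rw [h5, LinearMap.smul_apply, map_smul, smul_eq_mul] at h4
      rw [h4, ← hG1 j]; rfl
    have e3 : G j l k = (-1) ^ j * G j k l := by
      have := congrFun (congrFun (hGs j) k) l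
      exact this
    have e4 : ((-1 : F)) ^ (j - 1) * (-1) ^ j = -1 := by
      rw [← pow_add]
      have : j - 1 + j = 2 * (j - 1) + 1 := by omega
      rw [this, pow_succ, pow_mul]
      norm_num
    rw [e1, e2, e3, ← mul_assoc, e4]
    field_simp
    ring
  refine ⟨B, hs, ?_, hadj, hGM⟩
  obtain ⟨a', ha'⟩ := exists_repr (b := b) B
  have hc' := repr_commute hJ hadj ha'
  have hu : IsUnit a' := by
    rw [isUnit_iff_block hJ hd hc']
    intro j
    have h1 := GM_eq hJ hd ha' j
    rw [hGM] at h1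
    rw [← Matrix.isUnit_transpose, ← h1]
    exact hG j
  intro x hx
  have h1 : a' x = 0 := by
    apply B0_nondeg (b := b)
    intro y
    rw [← ha', hx]
  obtain ⟨u, rfl⟩ := hu
  have h2 : ((u⁻¹ : (Module.End F V)ˣ) : Module.End F V) ((u : Module.End F V) x) = x := by
    rw [← Module.End.mul_apply, Units.inv_mul]; rfl
  rw [← h2, h1, map_zero]

/-- effect of a change of form on the layers -/
theorem GM_comp (hJ : JB N d b) (hd : ∀ k, 1 ≤ d k) {B B' : LinearMap.BilinForm F V} (hB : IsAdj B N (-N))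
    {c : Module.End F V} (hc : Commute c N) (h : ∀ x y, B' x y = B (c x) (c y)) (j : ℕ) :
    (GM b hd N B' j).det = (GM b hd N B j).det * ((blockM b hd c j).det * (blockM b hd c j).det) := by
  obtain ⟨a, ha⟩ := exists_repr (b := b) B
  have hac := repr_commute hJ hB ha
  obtain ⟨c', hc'⟩ := exists_repr (b := b) ((B0 b).compRight c)
  have hc'2 : IsAdj (B0 b) c' c := fun x y => (hc' x y).symm
  have hcb := blockM_adj hJ hd hc hc'2 j
  have hc'N : Commute c' N := by
    apply B0_unique (b := b)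
    intro x y
    rw [Module.End.mul_apply, Module.End.mul_apply]
    rw [hc'2, B0_skew hJ, B0_skew hJ, hc'2]
    congr 1
    rw [LinearMap.neg_apply, LinearMap.neg_apply, map_neg, ← Module.End.mul_apply, ← Module.End.mul_apply, hc.eq]
  have hr : ∀ x y, B' x y = B0 b ((c' * a * c) x) y := by
    intro x y
    rw [h, ha, Module.End.mul_apply, Module.End.mul_apply, hc'2]
  rw [GM_eq hJ hd hr j, GM_eq hJ hd ha j, Matrix.det_transpose, Matrix.det_transpose, blockM_mul hJ hd (hc'N.mul_left hac) hc,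
    blockM_mul hJ hd hc'N hac, hcb, Matrix.det_mul, Matrix.det_mul, Matrix.det_transpose]
  ring

end Cfsg.Agent.H43
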