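import Mathlib
import Cfsg.Agent.H43.SpUnip
import Cfsg.Agent.H43.UniForm

set_option autoImplicit false
set_option linter.unusedSectionVars false
set_option linter.unusedVariables false

/-! Invariant alternating forms of unipotent matrices, with realization. -/

namespace Cfsg.Agent.H43

section
variable {F : Type*} [Field F] {ι : Type*} [Fintype ι] [DecidableEq ι]

set_option maxHeartbeats 4000000 in
theorem unip_forms2 [Finite F] (h2 : (2 : F) ≠ 0) {ε : F} (hεm : ε = -1) (A : GL ι F) (hA : IsNilpotent ((A : Matrix ι ι F) - 1)) :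
    ∃ (t : ℕ) (d : Fin t → ℕ) (D : Matrix ι ι F → ℕ → Bool), (∀ k, 1 ≤ d k) ∧
      (∀ k, Module.finrank F (LinearMap.ker (Matrix.toLin' (((A : Matrix ι ι F) - 1) ^ k))) = ∑ l, min (d l) k) ∧
      DProp ε A D ∧ (∀ J j, D J j = true → (∃ k, d k = j) ∧ Even j) ∧
      (∀ J, InvForm ε A J → ∀ j, Odd j → Even (Fintype.card {k // d k = j})) ∧
      (∀ J, InvForm ε A J → ∀ c : GL ι F, c * A = A * c → D ((c : Matrix ι ι F).transpose * J * (c : Matrix ι ι F)) = D J) ∧
      (∀ s : ℕ → Bool, (∀ j, s j = true → (∃ k, d k = j) ∧ Even j) → (∀ j, Odd j → Even (Fintype.card {k // d k = j})) →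
        ∃ J, InvForm ε A J ∧ D J = s) := by
  have hε : ε = 1 ∨ ε = -1 := Or.inr hεm
  have hpar : ∀ j : ℕ, 1 ≤ j → (ε * (-1) ^ (j - 1) = 1 ↔ Even j) := by
    intro j hj
    rw [hεm]
    obtain ⟨m, rfl⟩ : ∃ m, j = m + 1 := ⟨j - 1, by omega⟩
    rw [Nat.add_sub_cancel]
    rcases Nat.even_or_odd m with h3 | h3
    · rw [h3.neg_one_pow]
      constructor
      · intro h4
        exfalso
        apply h2
        linear_combination -h4
      · intro h4
        rw [Nat.even_add_one] at h4
        exact absurd h3 h4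
    · rw [h3.neg_one_pow]
      exact ⟨fun _ => h3.add_one, fun _ => by ring⟩
  have hpar' : ∀ j : ℕ, Odd j → ε * (-1) ^ (j - 1) = -1 := by
    intro j hj
    obtain ⟨m, rfl⟩ : ∃ m, j = m + 1 := ⟨j - 1, by have := hj.pos; omega⟩
    rw [Nat.add_sub_cancel, hεm]
    have h3 : Even m := by
      rw [Nat.odd_add_one] at hj
      exact Nat.not_odd_iff_even.1 hj
    rw [h3.neg_one_pow]; ring
  classical
  have : Fintype F := Fintype.ofFinite F
  -- Cayley transform
  obtain ⟨M, hM⟩ : ∃ M : Matrix ι ι F, M = (A : Matrix ι ι F) := ⟨_, rfl⟩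
  rw [← hM] at hA ⊢
  have hu2 : IsUnit ((2 : F) • (1 : Matrix ι ι F)) := by
    rw [← Algebra.algebraMap_eq_smul_one]
    exact (h2.isUnit).map _
  have hU : IsUnit (M + 1) := by
    have e1 : M + 1 = (2 : F) • (1 : Matrix ι ι F) + (M - 1) := by
      rw [two_smul]; abel
    rw [e1]
    exact hA.isUnit_add_left_of_commute hu2 ((Commute.one_right _).smul_right _)
  obtain ⟨U, hU⟩ := hU
  have hUM : Commute (U : Matrix ι ι F) (M - 1) := by
    rw [hU]
    exact ((Commute.refl M).add_left (Commute.one_left M)).sub_right (Commute.one_right _)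
  have hUM' : Commute ((U⁻¹ : (Matrix ι ι F)ˣ) : Matrix ι ι F) (M - 1) := hUM.units_inv_left
  obtain ⟨S, hS⟩ : ∃ S : Matrix ι ι F, S = (M - 1) * ((U⁻¹ : (Matrix ι ι F)ˣ) : Matrix ι ι F) := ⟨_, rfl⟩
  have hSU : S * (U : Matrix ι ι F) = M - 1 := by rw [hS, mul_assoc, Units.inv_mul, mul_one]
  have hSUc : Commute (U : Matrix ι ι F) S := by
    rw [hS]
    exact hUM.mul_right ((Commute.refl _).units_inv_right)
  have hSn : IsNilpotent S := by
    rw [hS]
    exact hUM'.symm.isNilpotent_mul_right hA
  obtain ⟨N, hN⟩ : ∃ N : Module.End F (ι → F), N = Matrix.toLin' S := ⟨_, rfl⟩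
  have hNn : IsNilpotent N := by
    obtain ⟨k, hk⟩ := hSn
    refine ⟨k, ?_⟩
    rw [hN, ← Matrix.toLin'_pow, hk, map_zero]
  obtain ⟨t, d, b, hd, hJ⟩ := exists_JB N hNn
  -- skewness
  have hskew : ∀ J, InvForm ε A J → S.transpose * J = - (J * S) := by
    intro J hJ'
    have h3 := hJ'.2.2
    rw [← hM] at h3
    have h4 : ((U : Matrix ι ι F)).transpose * (S.transpose * J + J * S) * (U : Matrix ι ι F) = 0 := by
      have e1 : ((U : Matrix ι ι F)).transpose * S.transpose = (M - 1).transpose := by
        rw [← Matrix.transpose_mul, hSU]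
      calc ((U : Matrix ι ι F)).transpose * (S.transpose * J + J * S) * (U : Matrix ι ι F)
          = (((U : Matrix ι ι F)).transpose * S.transpose) * J * (U : Matrix ι ι F) + ((U : Matrix ι ι F)).transpose * J * (S * (U : Matrix ι ι F)) := by
            simp only [mul_add, add_mul, mul_assoc]
        _ = (M - 1).transpose * J * (M + 1) + (M + 1).transpose * J * (M - 1) := by rw [e1, hSU, hU]
        _ = (M.transpose * J * M - J) + (M.transpose * J * M - J) := by
            rw [Matrix.transpose_sub, Matrix.transpose_add, Matrix.transpose_one]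
            noncomm_ring
        _ = 0 := by rw [h3, sub_self, add_zero]
    have h5 : IsUnit ((U : Matrix ι ι F)).transpose := by
      rw [Matrix.isUnit_transpose]
      exact U.isUnit
    have h6 : ((U : Matrix ι ι F)).transpose * (S.transpose * J + J * S) = 0 := by
      have := congrArg (fun z => z * ((U⁻¹ : (Matrix ι ι F)ˣ) : Matrix ι ι F)) h4
      simp only [mul_assoc, Units.mul_inv, mul_one, zero_mul] at this
      exact this
    have h7 : S.transpose * J + J * S = 0 := (h5.mul_right_eq_zero).1 h6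
    exact eq_neg_of_add_eq_zero_left h7
  have hadj : ∀ J, InvForm ε A J → IsAdj (bf J) N (-N) := by
    intro J hJ' x y
    have h3 := hskew J hJ'
    rw [LinearMap.neg_apply, map_neg, hN, Matrix.toLin'_apply, Matrix.toLin'_apply, bf_apply, bf_apply, Matrix.mulVec_mulVec]
    have h4 : dotProduct (S.mulVec x) (J.mulVec y) = dotProduct x ((S.transpose * J).mulVec y) := by
      rw [← Matrix.mulVec_mulVec, Matrix.dotProduct_mulVec x, Matrix.vecMul_transpose]
    rw [h4, h3, Matrix.neg_mulVec, dotProduct_neg]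
  have hsym : ∀ J, InvForm ε A J → ∀ x y, bf J y x = ε * bf J x y := fun J hJ' x y => bf_symm hJ'.1 x y
  have hnd : ∀ J, InvForm ε A J → ∀ x, (∀ y, bf J x y = 0) → x = 0 := fun J hJ' x hx => bf_nondeg hJ'.2.1 x hx
  obtain ⟨D, hD⟩ : ∃ D : Matrix ι ι F → ℕ → Bool, ∀ J j, D J j = true ↔ (ε * (-1) ^ (j - 1) = 1 ∧ ¬ IsSquare (GM b hd N (bf J) j).det) :=
    ⟨fun J j => decide (ε * (-1) ^ (j - 1) = 1 ∧ ¬ IsSquare (GM b hd N (bf J) j).det), fun J j => by rw [decide_eq_true_iff]⟩
  have hDk : ∀ J j, D J j = true → (∃ k, d k = j) ∧ ε * (-1) ^ (j - 1) = 1 := by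
    intro J j h
    obtain ⟨h3, h4⟩ := (hD J j).1 h
    refine ⟨?_, h3⟩
    by_contra hcon
    have : IsEmpty {k // d k = j} := ⟨fun k => hcon ⟨k.1, k.2⟩⟩
    apply h4
    rw [Matrix.det_isEmpty]
    exact ⟨1, by ring⟩
  have h5S : IsUnit (1 - S) := hSn.isUnit_one_sub
  have h5S' : IsUnit (1 + S) := by
    have : IsUnit (1 - (-S)) := IsNilpotent.isUnit_one_sub hSn.neg
    rwa [sub_neg_eq_add] at this
  have h4S : (1 - S) * M = 1 + S := by
    have h5 := hSU
    rw [hU, mul_add, mul_one] at h5
    rw [sub_mul, one_mul]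
    have h6 : S * M = M - 1 - S := by rw [← h5]; abel
    rw [h6]; abel
  have hSM : S * M = M * S := by
    have h6 : (U : Matrix ι ι F) * S = S * (U : Matrix ι ι F) := hSUc.eq
    rw [hU, add_mul, mul_add, one_mul, mul_one] at h6
    exact (add_right_cancel h6).symm
  have h4S' : M * (1 - S) = 1 + S := by rw [mul_sub, mul_one, ← hSM, ← h4S, sub_mul, one_mul]
  refine ⟨t, d, D, hd, ?_, ?_, fun J j h => ?_, fun J hJ1 j hj => ?_, ?_, ?_⟩
  · intro k
    rw [← finrank_ker_powN hJ k, hN, ← Matrix.toLin'_pow]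
    have e1 : (M - 1) ^ k = (U : Matrix ι ι F) ^ k * S ^ k := by
      rw [← hSUc.mul_pow, hSUc.eq, hSU]
    rw [e1]
    exact finrank_ker_mul_left (U.isUnit.pow k)
  · intro J J' hJ1 hJ2 hDD
    obtain ⟨c, hc1, hc2, hc3⟩ := nil_classify h2 hJ hd hε (hsym J hJ1) (hsym J' hJ2) (hnd J hJ1) (hnd J' hJ2) (hadj J hJ1) (hadj J' hJ2) (by
      intro j hj
      exact (bool_iff (hD J j) (hD J' j) hj).1 (congrFun hDD j))
    obtain ⟨C, hC⟩ : ∃ C : Matrix ι ι F, Matrix.toLin' C = c := ⟨LinearMap.toMatrix' c, Matrix.toLin'_toMatrix' c⟩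
    have hCu : IsUnit C := by
      rw [Matrix.isUnit_iff_isUnit_det, ← LinearMap.det_toLin', hC]
      exact hc1.map LinearMap.det
    obtain ⟨C, rfl⟩ := hCu
    refine ⟨C, ?_, ?_⟩
    · have h3 : (C : Matrix ι ι F) * S = S * (C : Matrix ι ι F) := by
        apply (Matrix.toLin' (R := F) (m := ι) (n := ι)).injective
        rw [Matrix.toLin'_mul, Matrix.toLin'_mul, hC, ← hN]
        exact hc2
      -- (1 - S) M = 1 + S
      have h4 : (1 - S) * M = 1 + S := by
        have h5 := hSU
        rw [hU, mul_add, mul_one] at h5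
        rw [sub_mul, one_mul]
        have h6 : S * M = M - 1 - S := by rw [← h5]; abel
        rw [h6]; abel
      have h5 : IsUnit (1 - S) := hSn.isUnit_one_sub
      apply Units.ext
      rw [Units.val_mul, Units.val_mul, ← hM]
      have h6 : (1 - S) * ((C : Matrix ι ι F) * M - M * (C : Matrix ι ι F)) = 0 := by
        calc (1 - S) * ((C : Matrix ι ι F) * M - M * (C : Matrix ι ι F))
            = (C : Matrix ι ι F) * ((1 - S) * M) - (S * (C : Matrix ι ι F) - (C : Matrix ι ι F) * S) * M - ((1 - S) * M) * (C : Matrix ι ι F) := by noncomm_ring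
          _ = (C : Matrix ι ι F) * (1 + S) - (1 + S) * (C : Matrix ι ι F) := by rw [h4, h3, sub_self, zero_mul, sub_zero]
          _ = (C : Matrix ι ι F) * S - S * (C : Matrix ι ι F) := by noncomm_ring
          _ = 0 := by rw [h3, sub_self]
      exact sub_eq_zero.1 ((h5.mul_right_eq_zero).1 h6)
    · apply bf_ext
      intro x y
      rw [← bf_mulVec, hc3, ← hC]
      rfl
  · obtain ⟨⟨k, hk⟩, h4⟩ := hDk J j h
    exact ⟨⟨k, hk⟩, (hpar j (hk ▸ hd k)).1 h4⟩
  · exact even_layer h2 hJ hd (hsym J hJ1) (hnd J hJ1) (hadj J hJ1) j (hpar' j hj)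
  · -- invariance
    intro J hJ1 c hc
    have hc' : (c : Matrix ι ι F) * M = M * (c : Matrix ι ι F) := by rw [hM]; exact congrArg Units.val hc
    have hJ2 : InvForm ε A ((c : Matrix ι ι F).transpose * J * (c : Matrix ι ι F)) := by
      refine ⟨?_, ?_, ?_⟩
      · rw [Matrix.transpose_mul, Matrix.transpose_mul, Matrix.transpose_transpose, hJ1.1, Matrix.smul_mul, Matrix.mul_smul, mul_assoc]
      · rw [Matrix.det_mul, Matrix.det_mul, Matrix.det_transpose]
        have h3 : IsUnit (c : Matrix ι ι F).det := (Matrix.isUnit_iff_isUnit_det _).1 c.isUnit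
        exact (h3.mul hJ1.2.1).mul h3
      · rw [← hM]
        have h3 := hJ1.2.2
        rw [← hM] at h3
        calc M.transpose * ((c : Matrix ι ι F).transpose * J * (c : Matrix ι ι F)) * M
            = (M.transpose * (c : Matrix ι ι F).transpose) * J * ((c : Matrix ι ι F) * M) := by simp only [mul_assoc]
          _ = ((c : Matrix ι ι F) * M).transpose * J * ((c : Matrix ι ι F) * M) := by rw [Matrix.transpose_mul]
          _ = (M * (c : Matrix ι ι F)).transpose * J * (M * (c : Matrix ι ι F)) := by rw [hc']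
          _ = (c : Matrix ι ι F).transpose * (M.transpose * J * M) * (c : Matrix ι ι F) := by
              rw [Matrix.transpose_mul]; simp only [mul_assoc]
          _ = _ := by rw [h3]
    have hcS : (c : Matrix ι ι F) * S = S * (c : Matrix ι ι F) := by
      have h7 : Commute (c : Matrix ι ι F) (U : Matrix ι ι F) := by
        unfold Commute SemiconjBy
        rw [hU, mul_add, add_mul, mul_one, one_mul, hc']
      have h8 : Commute (c : Matrix ι ι F) (M - 1) := by
        unfold Commute SemiconjBy
        rw [mul_sub, sub_mul, mul_one, one_mul, hc']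
      rw [hS]
      exact (h8.mul_right h7.units_inv_right).eq
    have hcN : Commute (Matrix.toLin' (c : Matrix ι ι F)) N := by
      unfold Commute SemiconjBy
      rw [hN]
      have h8 := congrArg Matrix.toLin' hcS
      rw [Matrix.toLin'_mul, Matrix.toLin'_mul] at h8
      exact h8
    funext j
    have hdet := GM_comp hJ hd (hadj J hJ1) hcN (B' := bf ((c : Matrix ι ι F).transpose * J * (c : Matrix ι ι F))) (by
      intro x y
      rw [← bf_mulVec]; rfl) j
    have hcu : IsUnit (Matrix.toLin' (c : Matrix ι ι F)) := by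
      rw [LinearMap.isUnit_iff_isUnit_det, LinearMap.det_toLin']
      exact (Matrix.isUnit_iff_isUnit_det _).1 c.isUnit
    have hcj : (blockM b hd (Matrix.toLin' (c : Matrix ι ι F)) j).det ≠ 0 := by
      have h3 := (isUnit_iff_block hJ hd hcN).1 hcu j
      rw [Matrix.isUnit_iff_isUnit_det] at h3
      exact h3.ne_zero
    have hiff : D ((c : Matrix ι ι F).transpose * J * (c : Matrix ι ι F)) j = true ↔ D J j = true := by
      rw [hD, hD, hdet]
      refine and_congr_right fun _ => not_congr ?_
      constructor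
      · rintro ⟨x, hx⟩
        refine ⟨x / (blockM b hd (Matrix.toLin' (c : Matrix ι ι F)) j).det, ?_⟩
        field_simp
        linear_combination hx
      · rintro ⟨x, hx⟩
        exact ⟨x * (blockM b hd (Matrix.toLin' (c : Matrix ι ι F)) j).det, by rw [hx]; ring⟩
    exact Bool.eq_iff_iff.2 hiff
  · -- realization
    intro s hs hodd
    have hex : ∀ j : ℕ, ∃ G : Matrix {k // d k = j} {k // d k = j} F, IsUnit G ∧ G.transpose = ((-1 : F) ^ j) • G ∧ (Even j → (IsSquare G.det ↔ s j = false)) := by
      intro j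
      by_cases hj : Even j
      · cases hsj : s j
        · refine ⟨1, isUnit_one, ?_, fun _ => ?_⟩
          · rw [hj.neg_one_pow, one_smul, Matrix.transpose_one]
          · rw [Matrix.det_one]
            exact ⟨fun _ => rfl, fun _ => ⟨1, by ring⟩⟩
        · obtain ⟨⟨k, hk⟩, _⟩ := hs j hsj
          obtain ⟨ν, hν⟩ := FiniteField.exists_nonsquare (F := F) (by
            intro h3
            apply h2
            rw [ringChar.eq_iff] at h3
            have : ((2 : ℕ) : F) = 0 := CharP.cast_eq_zero F 2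
            exact_mod_cast this)
          have hν0 : ν ≠ 0 := by
            rintro rfl
            exact hν ⟨0, by ring⟩
          have hdet : (Matrix.diagonal (fun k' : {k // d k = j} => if k' = ⟨k, hk⟩ then ν else 1)).det = ν := by
            rw [Matrix.det_diagonal, Finset.prod_ite_eq']
            simp
          refine ⟨Matrix.diagonal (fun k' => if k' = ⟨k, hk⟩ then ν else 1), ?_, ?_, fun _ => ?_⟩
          · rw [Matrix.isUnit_iff_isUnit_det, hdet]
            exact hν0.isUnit
          · rw [hj.neg_one_pow, one_smul, Matrix.diagonal_transpose]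
          · rw [hdet]
            exact ⟨fun h => absurd h hν, fun h => by cases h⟩
      · have hj' := Nat.not_even_iff_odd.1 hj
        obtain ⟨r, hr⟩ := hodd j hj'
        have e : {k // d k = j} ≃ Fin r ⊕ Fin r := Fintype.equivOfCardEq (by rw [hr]; simp)
        refine ⟨Matrix.reindex e.symm e.symm (Matrix.J (Fin r) F), ?_, ?_, fun h => absurd h hj⟩
        · rw [Matrix.isUnit_iff_isUnit_det, Matrix.det_reindex_self]
          exact Matrix.isUnit_det_J (Fin r) F
        · rw [hj'.neg_one_pow, neg_one_smul, Matrix.transpose_reindex, Matrix.J_transpose]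
          rfl
    choose G hGu hGt hGsq using hex
    obtain ⟨B, hBs, hBnd, hBadj, hBG⟩ := nil_exists h2 hJ hd G hGu hGt
    obtain ⟨J, hJB⟩ : ∃ J : Matrix ι ι F, bf J = B := ⟨LinearMap.BilinForm.toMatrix' B, Matrix.toBilin'_toMatrix' B⟩
    have hJt : J.transpose = ε • J := by
      ext i j
      rw [Matrix.transpose_apply, Matrix.smul_apply, ← bf_single J j i, ← bf_single J i j, hJB, hBs, hεm, smul_eq_mul]
    have hJd : IsUnit J.det := by
      rw [isUnit_iff_ne_zero]
      intro h0
      obtain ⟨v, hv0, hv⟩ := Matrix.exists_vecMul_eq_zero_iff.2 h0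
      apply hv0
      apply hBnd
      intro y
      rw [← hJB, bf_apply, Matrix.dotProduct_mulVec, hv, zero_dotProduct]
    have hSJ : S.transpose * J = -(J * S) := by
      apply bf_ext
      intro x y
      have h3 := hBadj x y
      rw [← hJB, LinearMap.neg_apply, map_neg, hN, Matrix.toLin'_apply, Matrix.toLin'_apply, bf_apply, bf_apply] at h3
      rw [bf_apply, bf_apply, Matrix.neg_mulVec, dotProduct_neg, ← Matrix.mulVec_mulVec, ← Matrix.mulVec_mulVec, ← h3,
        Matrix.dotProduct_mulVec x, Matrix.vecMul_transpose]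
    have hinv : M.transpose * J * M = J := by
      have e1 : (1 - S).transpose * (M.transpose * J * M) * (1 - S) = (1 - S).transpose * J * (1 - S) := by
        have e2 : (1 - S).transpose * (M.transpose * J * M) * (1 - S) = (M * (1 - S)).transpose * J * (M * (1 - S)) := by
          rw [Matrix.transpose_mul]; simp only [mul_assoc]
        rw [e2, h4S']
        have e3 : (1 + S).transpose * J = J * (1 - S) := by
          rw [Matrix.transpose_add, Matrix.transpose_one, add_mul, one_mul, hSJ, mul_sub, mul_one]; abel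
        have e4 : (1 - S).transpose * J = J * (1 + S) := by
          rw [Matrix.transpose_sub, Matrix.transpose_one, sub_mul, one_mul, hSJ, mul_add, mul_one]; abel
        rw [e3, e4]
        noncomm_ring
      have h6 : IsUnit (1 - S).transpose := by rw [Matrix.isUnit_transpose]; exact h5S
      have e5 : (1 - S).transpose * (M.transpose * J * M) = (1 - S).transpose * J := h5S.mul_right_cancel e1
      exact h6.mul_left_cancel e5
    have hinvF : InvForm ε A J := ⟨hJt, hJd, by rw [← hM]; exact hinv⟩
    refine ⟨J, hinvF, ?_⟩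
    funext j
    apply Bool.eq_iff_iff.2
    rw [hD, hJB, hBG]
    constructor
    · rintro ⟨h3, h4⟩
      by_cases hj : Even j
      · rw [hGsq j hj] at h4
        exact Bool.not_eq_false _ ▸ (by simpa using h4)
      · exfalso
        rw [hpar' j (Nat.not_even_iff_odd.1 hj)] at h3
        apply h2
        linear_combination -h3
    · intro h3
      obtain ⟨⟨k, hk⟩, hje⟩ := hs j h3
      refine ⟨(hpar j (hk ▸ hd k)).2 hje, ?_⟩
      rw [hGsq j hje, h3]
      simp

end

end Cfsg.Agent.H43
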