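import Mathlib
import Cfsg.Agent.H43.SpUnip2
import Cfsg.Agent.H43.OrderP
import Cfsg.Agent.H43.FormLab

set_option autoImplicit false
set_option linter.unusedSectionVars false
set_option linter.unusedVariables false

/-! Classes of elements of order `p` in symplectic groups. -/

namespace Cfsg.Agent.H43

open Matrix

theorem exists_gl_of_typeν (F : Type*) [Field F] {ν : Type*} [Fintype ν] [DecidableEq ν] {t : ℕ} (d : Fin t → ℕ) (hsum : ∑ k, d k = Fintype.card ν) :
    ∃ (g : GL ν F) (b : Module.Basis ((k : Fin t) × Fin (d k)) F (ν → F)),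
      JB (Matrix.toLin' (g : Matrix ν ν F) - 1) d b := by
  have hcard : Fintype.card ((k : Fin t) × Fin (d k)) = Fintype.card ν := by
    rw [Fintype.card_sigma]
    simp only [Fintype.card_fin]
    exact hsum
  obtain ⟨e⟩ : Nonempty (((k : Fin t) × Fin (d k)) ≃ ν) := ⟨Fintype.equivOfCardEq hcard⟩
  obtain ⟨b, hb⟩ := (isConj_reindex_iff d e (Matrix.reindex e e (Cfsg.jordanTypeMatrix d F))).1 (IsConj.refl _)
  obtain ⟨M, hM⟩ : ∃ M : Matrix ν ν F, M = Matrix.reindex e e (Cfsg.jordanTypeMatrix d F) := ⟨_, rfl⟩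
  rw [← hM] at hb
  have hnil : IsNilpotent (M - 1) := by
    refine ⟨∑ k, d k, ?_⟩
    apply (Matrix.toLin' (R := F) (m := ν) (n := ν)).injective
    rw [Matrix.toLin'_pow, toLin'_sub_one, map_zero]
    exact hb.pow_zero _ (fun k => Finset.single_le_sum (f := d) (fun _ _ => Nat.zero_le _) (Finset.mem_univ k))
  obtain ⟨g, hg⟩ : ∃ g : GL ν F, (g : Matrix ν ν F) = M := by
    have h1 : IsUnit M := by
      have : M = (M - 1) + 1 := by abel
      rw [this]
      exact hnil.isUnit_add_one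
    exact h1
  exact ⟨g, b, by rw [hg]; exact hb⟩

/-- symplectic elements in `GL` -/
def spGL (m : ℕ) (F : Type*) [Field F] : Matrix.symplecticGroup (Fin m) F →* GL (Fin m ⊕ Fin m) F :=
  (Units.map (Matrix.symplecticGroup (Fin m) F).subtype).comp (toUnits (G := Matrix.symplecticGroup (Fin m) F)).toMonoidHom

theorem spGL_coe {m : ℕ} {F : Type*} [Field F] (g : Matrix.symplecticGroup (Fin m) F) :
    (spGL m F g : Matrix (Fin m ⊕ Fin m) (Fin m ⊕ Fin m) F) = g.1 := rfl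

theorem spGL_injective (m : ℕ) (F : Type*) [Field F] : Function.Injective (spGL m F) := by
  intro g g' h
  exact Subtype.ext (congrArg Units.val h)

theorem exists_spGL {m : ℕ} {F : Type*} [Field F] (A : GL (Fin m ⊕ Fin m) F)
    (hA : (A : Matrix (Fin m ⊕ Fin m) (Fin m ⊕ Fin m) F).transpose * Matrix.J (Fin m) F * (A : Matrix (Fin m ⊕ Fin m) (Fin m ⊕ Fin m) F) = Matrix.J (Fin m) F) :
    ∃ g, spGL m F g = A := ⟨⟨A, SymplecticGroup.mem_iff'.2 hA⟩, Units.ext rfl⟩

theorem spGL_form {m : ℕ} {F : Type*} [Field F] (g : Matrix.symplecticGroup (Fin m) F) :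
    (spGL m F g : Matrix (Fin m ⊕ Fin m) (Fin m ⊕ Fin m) F).transpose * Matrix.J (Fin m) F * (spGL m F g : Matrix (Fin m ⊕ Fin m) (Fin m ⊕ Fin m) F) = Matrix.J (Fin m) F :=
  SymplecticGroup.mem_iff'.1 g.2

/-- conjugates of invariant forms -/
theorem InvForm.conj2 {F ν : Type*} [Field F] [Fintype ν] [DecidableEq ν] {ε : F} {A B h : GL ν F} {J : Matrix ν ν F} (hJ : InvForm ε A J) (hh : h * B = A * h) :
    InvForm ε B ((h : Matrix ν ν F).transpose * J * (h : Matrix ν ν F)) := by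
  have hh' : (h : Matrix ν ν F) * (B : Matrix ν ν F) = (A : Matrix ν ν F) * (h : Matrix ν ν F) := congrArg Units.val hh
  refine ⟨?_, ?_, ?_⟩
  · rw [Matrix.transpose_mul, Matrix.transpose_mul, Matrix.transpose_transpose, hJ.1, Matrix.smul_mul, Matrix.mul_smul, mul_assoc]
  · rw [Matrix.det_mul, Matrix.det_mul, Matrix.det_transpose]
    have h3 : IsUnit (h : Matrix ν ν F).det := (Matrix.isUnit_iff_isUnit_det _).1 h.isUnit
    exact (h3.mul hJ.2.1).mul h3
  · calc (B : Matrix ν ν F).transpose * ((h : Matrix ν ν F).transpose * J * (h : Matrix ν ν F)) * (B : Matrix ν ν F)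
        = ((h : Matrix ν ν F) * (B : Matrix ν ν F)).transpose * J * ((h : Matrix ν ν F) * (B : Matrix ν ν F)) := by
          rw [Matrix.transpose_mul]; simp only [mul_assoc]
      _ = ((A : Matrix ν ν F) * (h : Matrix ν ν F)).transpose * J * ((A : Matrix ν ν F) * (h : Matrix ν ν F)) := by rw [hh']
      _ = (h : Matrix ν ν F).transpose * ((A : Matrix ν ν F).transpose * J * (A : Matrix ν ν F)) * (h : Matrix ν ν F) := by
          rw [Matrix.transpose_mul]; simp only [mul_assoc]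
      _ = _ := by rw [hJ.2.2]

theorem card_bool_supp (S : Finset ℕ) : Nat.card {s : ℕ → Bool // ∀ j, s j = true → j ∈ S} = 2 ^ S.card := by
  classical
  have e : {s : ℕ → Bool // ∀ j, s j = true → j ∈ S} ≃ (S → Bool) :=
    { toFun := fun s j => s.1 j
      invFun := fun f => ⟨fun j => if h : j ∈ S then f ⟨j, h⟩ else false, by
        intro j hj
        by_contra h
        simp [h] at hj⟩
      left_inv := by
        intro s
        apply Subtype.ext
        funext j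
        by_cases h : j ∈ S
        · simp [h]
        · simp only [h, dif_neg, not_false_eq_true]
          cases hs : s.1 j
          · rfl
          · exact absurd (s.2 j hs) h
      right_inv := by
        intro f
        funext j
        simp }
  rw [Nat.card_congr e, Nat.card_eq_fintype_card, Fintype.card_fun, Fintype.card_bool, Fintype.card_coe]

/-- labels -/
def LSp (n p : ℕ) := {x : Nat.Partition n × (ℕ → Bool) // (∀ a ∈ x.1.parts, a ≤ p) ∧ (∀ j, Odd j → Even (x.1.parts.count j)) ∧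
  (∀ j, x.2 j = true → j ∈ x.1.parts ∧ Even j)}

open Classical in
theorem card_LSp (n p : ℕ) : Nat.card (LSp n p) = ∑ μ ∈ Finset.univ.filter (fun μ : Nat.Partition n => (∀ a ∈ μ.parts, a ≤ p) ∧ ∀ j : ℕ, Odd j → Even (μ.parts.count j)),
    2 ^ ((μ.parts.toFinset.filter (fun j : ℕ => Even j)).card) := by
  let P : Nat.Partition n → Prop := fun μ => (∀ a ∈ μ.parts, a ≤ p) ∧ ∀ j : ℕ, Odd j → Even (μ.parts.count j)
  have e : LSp n p ≃ (μ : {μ : Nat.Partition n // P μ}) × {s : ℕ → Bool // ∀ j, s j = true → j ∈ (μ.1.parts.toFinset.filter (fun j : ℕ => Even j))} :=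
    { toFun := fun x => ⟨⟨x.1.1, x.2.1, x.2.2.1⟩, ⟨x.1.2, fun j hj => by
        rw [Finset.mem_filter, Multiset.mem_toFinset]; exact x.2.2.2 j hj⟩⟩
      invFun := fun y => ⟨(y.1.1, y.2.1), y.1.2.1, y.1.2.2, fun j hj => by
        have := y.2.2 j hj
        rwa [Finset.mem_filter, Multiset.mem_toFinset] at this⟩
      left_inv := fun x => rfl
      right_inv := fun y => rfl }
  have hfin : ∀ S : Finset ℕ, Finite {s : ℕ → Bool // ∀ j, s j = true → j ∈ S} := by
    intro S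
    apply Nat.finite_of_card_ne_zero
    rw [card_bool_supp]
    positivity
  have := fun μ : {μ : Nat.Partition n // P μ} => hfin (μ.1.parts.toFinset.filter (fun j : ℕ => Even j))
  rw [Nat.card_congr e, Nat.card_sigma]
  simp only [card_bool_supp]
  rw [← Finset.sum_subtype (p := P) (Finset.univ.filter P) (fun x => by simp) (fun μ => 2 ^ ((μ.parts.toFinset.filter (fun j : ℕ => Even j)).card))]

theorem card_sp_classes {F : Type*} [Field F] [Finite F] (h2 : (2 : F) ≠ 0) {p : ℕ} [Fact p.Prime] [CharP F p] (m : ℕ) :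
    Nat.card {C : ConjClasses (Matrix.symplecticGroup (Fin m) F) // ∃ g : Matrix.symplecticGroup (Fin m) F, ConjClasses.mk g = C ∧ g ^ p = 1} =
      Nat.card (LSp (2 * m) p) := by
  classical
  have hp : p.Prime := Fact.out
  have hν : Fintype.card (Fin m ⊕ Fin m) = 2 * m := by simp; ring
  -- representing data
  have hrep : ∀ μ : Nat.Partition (2 * m), ∃ (t : ℕ) (d : Fin t → ℕ), Multiset.map d Finset.univ.val = μ.parts := by
    intro μ
    obtain ⟨l, hl⟩ := Quot.exists_rep μ.parts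
    refine ⟨l.length, l.get, ?_⟩
    rw [Fin.univ_val_map, List.ofFn_get]
    exact hl
  choose t d hd using hrep
  have hsum : ∀ μ, ∑ k, d μ k = Fintype.card (Fin m ⊕ Fin m) := by
    intro μ
    rw [hν, ← μ.parts_sum, ← hd μ]
    rfl
  have hpos : ∀ μ k, 1 ≤ d μ k := by
    intro μ k
    apply μ.parts_pos
    rw [← hd μ]
    exact Multiset.mem_map_of_mem _ (Finset.mem_univ_val k)
  choose g b hb using fun μ => exists_gl_of_typeν F (d μ) (hsum μ)
  have hcount : ∀ μ j, (Finset.univ.filter (fun k => d μ k = j)).card = μ.parts.count j := by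
    intro μ j
    rw [← hd μ, Multiset.count_map]
    change Multiset.card _ = _
    congr 1
    rw [Finset.filter_val]
    refine Multiset.filter_congr ?_
    intro k _
    exact eq_comm
  have hle : ∀ μ, (∀ a ∈ μ.parts, a ≤ p) ↔ (g μ) ^ p = 1 := by
    intro μ
    rw [pow_eq_one_iff_nil]
    constructor
    · intro h
      apply (hb μ).pow_zero
      intro k
      apply h
      rw [← hd μ]
      exact Multiset.mem_map_of_mem _ (Finset.mem_univ_val k)
    · intro h a ha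
      rw [← hd μ, Multiset.mem_map] at ha
      obtain ⟨k, _, rfl⟩ := ha
      by_contra hlt
      push Not at hlt
      have h1 := (hb μ).pow p k ⟨0, by omega⟩
      rw [h, dif_pos (by simpa using hlt)] at h1
      exact (b μ).ne_zero _ h1.symm
  have hnil : ∀ μ, IsNilpotent ((g μ : Matrix (Fin m ⊕ Fin m) (Fin m ⊕ Fin m) F) - 1) := by
    intro μ
    refine ⟨∑ k, d μ k, ?_⟩
    apply (Matrix.toLin' (R := F) (m := Fin m ⊕ Fin m) (n := Fin m ⊕ Fin m)).injective
    rw [Matrix.toLin'_pow, toLin'_sub_one, map_zero]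
    exact (hb μ).pow_zero _ (fun k => Finset.single_le_sum (f := d μ) (fun _ _ => Nat.zero_le _) (Finset.mem_univ k))
  have hdata := fun μ => unip_forms2 h2 (ε := -1) rfl (g μ) (hnil μ)
  choose t' d' D hd' hfin hDP hDsupp hDodd hDinv hDreal using hdata
  have hcount' : ∀ μ j, 1 ≤ j → Fintype.card {k // d' μ k = j} = μ.parts.count j := by
    intro μ j hj
    rw [Fintype.card_subtype, ← hcount]
    apply counts_eq (d' μ) (d μ) _ j hj
    intro k
    rw [← hfin, Matrix.toLin'_pow, toLin'_sub_one, finrank_ker_powN (hb μ)]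
    exact Finset.sum_congr rfl fun i _ => min_comm _ _
  have hmem : ∀ μ j, (∃ k, d' μ k = j) ↔ j ∈ μ.parts := by
    intro μ j
    constructor
    · rintro ⟨k, hk⟩
      rw [← Multiset.count_pos, ← hcount' μ j (hk ▸ hd' μ k)]
      exact Fintype.card_pos_iff.2 ⟨⟨k, hk⟩⟩
    · intro h
      have h1 := Multiset.count_pos.2 h
      rw [← hcount' μ j (μ.parts_pos h)] at h1
      obtain ⟨k⟩ := Fintype.card_pos_iff.1 h1
      exact ⟨k.1, k.2⟩
  -- realization
  have hΦ : ∀ x : LSp (2 * m) p, ∃ (y : Matrix.symplecticGroup (Fin m) F) (P : GL (Fin m ⊕ Fin m) F),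
      spGL m F y * P = P * g x.1.1 ∧ InvForm (-1) (g x.1.1) ((P : Matrix (Fin m ⊕ Fin m) (Fin m ⊕ Fin m) F).transpose * Matrix.J (Fin m) F * (P : Matrix (Fin m ⊕ Fin m) (Fin m ⊕ Fin m) F)) ∧
      D x.1.1 ((P : Matrix (Fin m ⊕ Fin m) (Fin m ⊕ Fin m) F).transpose * Matrix.J (Fin m) F * (P : Matrix (Fin m ⊕ Fin m) (Fin m ⊕ Fin m) F)) = x.1.2 := by
    rintro ⟨⟨μ, s⟩, h1, h3, h4⟩
    simp only at h1 h3 h4 ⊢
    obtain ⟨J1, hJ1, hJ2⟩ := hDreal μ s (fun j hj => ⟨(hmem μ j).2 (h4 j hj).1, (h4 j hj).2⟩) (fun j hj => by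
      rw [hcount' μ j hj.pos]; exact h3 j hj)
    have hJt : (Matrix.J (Fin m) F).transpose = - Matrix.J (Fin m) F := Matrix.J_transpose (Fin m) F
    obtain ⟨P, hPu, hP⟩ := alt_congr h2 hJt (G' := J1) (by rw [hJ1.1, neg_one_smul]) (Matrix.isUnit_det_J (Fin m) F) hJ1.2.1
    have hPu' : IsUnit P := (Matrix.isUnit_iff_isUnit_det P).2 hPu
    obtain ⟨P, rfl⟩ := hPu'
    have hPi1 : (P : Matrix (Fin m ⊕ Fin m) (Fin m ⊕ Fin m) F) * ((P⁻¹ : GL (Fin m ⊕ Fin m) F) : Matrix (Fin m ⊕ Fin m) (Fin m ⊕ Fin m) F) = 1 := Units.mul_inv P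
    have hJP : ((P⁻¹ : GL (Fin m ⊕ Fin m) F) : Matrix (Fin m ⊕ Fin m) (Fin m ⊕ Fin m) F).transpose * J1 * ((P⁻¹ : GL (Fin m ⊕ Fin m) F) : Matrix (Fin m ⊕ Fin m) (Fin m ⊕ Fin m) F) = Matrix.J (Fin m) F := by
      rw [← hP]
      calc _ = ((P : Matrix (Fin m ⊕ Fin m) (Fin m ⊕ Fin m) F) * ((P⁻¹ : GL (Fin m ⊕ Fin m) F) : Matrix (Fin m ⊕ Fin m) (Fin m ⊕ Fin m) F)).transpose * Matrix.J (Fin m) F *
            ((P : Matrix (Fin m ⊕ Fin m) (Fin m ⊕ Fin m) F) * ((P⁻¹ : GL (Fin m ⊕ Fin m) F) : Matrix (Fin m ⊕ Fin m) (Fin m ⊕ Fin m) F)) := by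
            rw [Matrix.transpose_mul]; simp only [mul_assoc]
        _ = _ := by rw [hPi1, Matrix.transpose_one, one_mul, mul_one]
    have hinv := hJ1.conj2 (h := P⁻¹) (B := P * g μ * P⁻¹) (by group)
    rw [hJP] at hinv
    obtain ⟨y, hy⟩ := exists_spGL (P * g μ * P⁻¹) hinv.2.2
    refine ⟨y, P, by rw [hy]; group, by rw [hP]; exact hJ1, by rw [hP]; exact hJ2⟩
  choose y P hyP hyF hyD using hΦ
  have hyp : ∀ x, (y x) ^ p = 1 := by
    intro x
    apply spGL_injective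
    have e1 : spGL m F (y x) = P x * g x.1.1 * (P x)⁻¹ := by rw [← hyP]; group
    rw [map_pow, map_one, e1, conj_pow, (hle _).1 x.2.1]
    group
  let Φ : LSp (2 * m) p → {C : ConjClasses (Matrix.symplecticGroup (Fin m) F) // ∃ g : Matrix.symplecticGroup (Fin m) F, ConjClasses.mk g = C ∧ g ^ p = 1} :=
    fun x => ⟨ConjClasses.mk (y x), y x, rfl, hyp x⟩
  have hΦb : Function.Bijective Φ := by
    constructor
    · intro x x' h
      have h1 : ConjClasses.mk (y x) = ConjClasses.mk (y x') := congrArg Subtype.val h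
      rw [ConjClasses.mk_eq_mk_iff_isConj, isConj_iff] at h1
      obtain ⟨k, hk⟩ := h1
      have hk' : spGL m F k * spGL m F (y x) = spGL m F (y x') * spGL m F k := by
        rw [← hk, ← map_mul, ← map_mul]; congr 1; group
      have hconj : IsConj (g x.1.1) (g x'.1.1) := by
        rw [isConj_iff]
        refine ⟨(P x')⁻¹ * spGL m F k * P x, ?_⟩
        have e1 : spGL m F (y x) = P x * g x.1.1 * (P x)⁻¹ := by rw [← hyP]; group
        have e2 : spGL m F (y x') = P x' * g x'.1.1 * (P x')⁻¹ := by rw [← hyP]; group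
        have e3 : g x'.1.1 = (P x')⁻¹ * (spGL m F (y x') * spGL m F k) * (spGL m F k)⁻¹ * P x' := by rw [e2]; group
        rw [e3, ← hk', e1]; group
      have hμ : x.1.1 = x'.1.1 := by
        apply Nat.Partition.ext
        rw [Multiset.ext]
        intro j
        rcases Nat.eq_zero_or_pos j with rfl | hj
        · rw [Multiset.count_eq_zero_of_notMem, Multiset.count_eq_zero_of_notMem]
          · intro h2; exact absurd (x'.1.1.parts_pos h2) (lt_irrefl 0)
          · intro h2; exact absurd (x.1.1.parts_pos h2) (lt_irrefl 0)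
        · rw [← hcount, ← hcount]
          exact JB_card_eq_of_isConj hconj (hb _) (hb _) j hj
      obtain ⟨⟨μ, s⟩, hx⟩ := x
      obtain ⟨⟨μ', s'⟩, hx'⟩ := x'
      simp only at hμ
      subst hμ
      apply Subtype.ext
      refine Prod.ext rfl ?_
      simp only
      obtain ⟨X, hX⟩ : ∃ X : LSp (2 * m) p, X = ⟨(μ, s), hx⟩ := ⟨_, rfl⟩
      obtain ⟨X', hX'⟩ : ∃ X' : LSp (2 * m) p, X' = ⟨(μ, s'), hx'⟩ := ⟨_, rfl⟩
      rw [← hX, ← hX'] at hk'
      have a1 := hyP X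
      have a2 := hyP X'
      have b1 := hyD X
      have b2 := hyD X'
      have c2 := hyF X'
      have hXμ : X.1.1 = μ := by rw [hX]
      have hXμ' : X'.1.1 = μ := by rw [hX']
      have hXs : X.1.2 = s := by rw [hX]
      have hXs' : X'.1.2 = s' := by rw [hX']
      rw [hXμ] at a1 b1
      rw [hXμ'] at a2 b2 c2
      rw [← hXs, ← hXs', ← b1, ← b2]
      have hc : ((P X')⁻¹ * spGL m F k * P X) * g μ = g μ * ((P X')⁻¹ * spGL m F k * P X) := by
        calc ((P X')⁻¹ * spGL m F k * P X) * g μ = (P X')⁻¹ * (spGL m F k * spGL m F (y X)) * P X := by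
              rw [mul_assoc, ← a1]; group
          _ = ((P X')⁻¹ * spGL m F (y X')) * (spGL m F k * P X) := by rw [hk']; group
          _ = ((P X')⁻¹ * (spGL m F (y X') * P X') * (P X')⁻¹) * (spGL m F k * P X) := by group
          _ = _ := by rw [a2]; group
      rw [← hDinv μ _ c2 _ hc]
      congr 1
      have hkf := spGL_form k
      have hPi1 : (P X' : Matrix (Fin m ⊕ Fin m) (Fin m ⊕ Fin m) F) * (((P X')⁻¹ : GL (Fin m ⊕ Fin m) F) : Matrix (Fin m ⊕ Fin m) (Fin m ⊕ Fin m) F) = 1 := Units.mul_inv _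
      rw [Units.val_mul, Units.val_mul]
      have e5 : (P X' : Matrix (Fin m ⊕ Fin m) (Fin m ⊕ Fin m) F) * ((((P X')⁻¹ : GL (Fin m ⊕ Fin m) F) : Matrix (Fin m ⊕ Fin m) (Fin m ⊕ Fin m) F) *
          (spGL m F k : Matrix (Fin m ⊕ Fin m) (Fin m ⊕ Fin m) F) * (P X : Matrix (Fin m ⊕ Fin m) (Fin m ⊕ Fin m) F)) =
          (spGL m F k : Matrix (Fin m ⊕ Fin m) (Fin m ⊕ Fin m) F) * (P X : Matrix (Fin m ⊕ Fin m) (Fin m ⊕ Fin m) F) := by
        rw [← mul_assoc, ← mul_assoc, hPi1, one_mul]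
      generalize hc0 : (((P X')⁻¹ : GL (Fin m ⊕ Fin m) F) : Matrix (Fin m ⊕ Fin m) (Fin m ⊕ Fin m) F) *
          (spGL m F k : Matrix (Fin m ⊕ Fin m) (Fin m ⊕ Fin m) F) * (P X : Matrix (Fin m ⊕ Fin m) (Fin m ⊕ Fin m) F) = c0 at e5 ⊢
      calc (P X : Matrix (Fin m ⊕ Fin m) (Fin m ⊕ Fin m) F).transpose * Matrix.J (Fin m) F * (P X : Matrix (Fin m ⊕ Fin m) (Fin m ⊕ Fin m) F)
          = (P X : Matrix (Fin m ⊕ Fin m) (Fin m ⊕ Fin m) F).transpose * ((spGL m F k : Matrix (Fin m ⊕ Fin m) (Fin m ⊕ Fin m) F).transpose * Matrix.J (Fin m) F *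
            (spGL m F k : Matrix (Fin m ⊕ Fin m) (Fin m ⊕ Fin m) F)) * (P X : Matrix (Fin m ⊕ Fin m) (Fin m ⊕ Fin m) F) := by rw [hkf]
        _ = ((spGL m F k : Matrix (Fin m ⊕ Fin m) (Fin m ⊕ Fin m) F) * (P X : Matrix (Fin m ⊕ Fin m) (Fin m ⊕ Fin m) F)).transpose * Matrix.J (Fin m) F *
            ((spGL m F k : Matrix (Fin m ⊕ Fin m) (Fin m ⊕ Fin m) F) * (P X : Matrix (Fin m ⊕ Fin m) (Fin m ⊕ Fin m) F)) := by
            rw [Matrix.transpose_mul]; simp only [mul_assoc]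
        _ = _ := by rw [← e5, Matrix.transpose_mul]; simp only [mul_assoc]
    · rintro ⟨C, x, rfl, hx⟩
      have hxp : (spGL m F x) ^ p = 1 := by rw [← map_pow, hx, map_one]
      have hnil : (Matrix.toLin' (spGL m F x : Matrix (Fin m ⊕ Fin m) (Fin m ⊕ Fin m) F) - 1 : Module.End F (Fin m ⊕ Fin m → F)) ^ p = 0 := (pow_eq_one_iff_nil _).1 hxp
      obtain ⟨t₁, d₁, b₁, hd₁, hb₁⟩ := exists_JB _ ⟨p, hnil⟩
      have hsum' : ∑ k, d₁ k = 2 * m := by
        have h1 := Module.finrank_eq_card_basis b₁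
        rw [Module.finrank_fintype_fun_eq_card, hν, Fintype.card_sigma] at h1
        simp only [Fintype.card_fin] at h1
        exact h1.symm
      let μ : Nat.Partition (2 * m) := ⟨Multiset.map d₁ Finset.univ.val, by
        intro i hi
        rw [Multiset.mem_map] at hi
        obtain ⟨k, _, rfl⟩ := hi
        exact hd₁ k, hsum'⟩
      have hμ : ∀ j, (Finset.univ.filter (fun k => d₁ k = j)).card = μ.parts.count j := by
        intro j
        change _ = (Multiset.map d₁ Finset.univ.val).count j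
        rw [Multiset.count_map]
        change Multiset.card _ = _
        congr 1
        rw [Finset.filter_val]
        refine Multiset.filter_congr ?_
        intro k _
        exact eq_comm
      obtain ⟨σ, hσ⟩ := exists_equiv_of_card d₁ (d μ) (fun j => by rw [hμ, hcount])
      obtain ⟨b'', hb''⟩ := hb₁.reindex σ hσ
      have hc : IsConj (g μ) (spGL m F x) := isConj_of_JB (hb μ) hb''
      obtain ⟨μ, hμd⟩ : ∃ μ' : Nat.Partition (2 * m), μ' = μ := ⟨_, rfl⟩
      rw [← hμd] at hc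
      clear hμd
      rw [isConj_iff] at hc
      obtain ⟨h, hh⟩ := hc
      have hh1 : spGL m F x * h = h * g μ := by rw [← hh]; group
      have hform : InvForm (-1) (spGL m F x) (Matrix.J (Fin m) F) :=
        ⟨by rw [Matrix.J_transpose, neg_one_smul], Matrix.isUnit_det_J (Fin m) F, spGL_form x⟩
      have hJ1 := hform.conj2 hh1.symm
      obtain ⟨J1, hJ1d⟩ : ∃ J1, J1 = (h : Matrix (Fin m ⊕ Fin m) (Fin m ⊕ Fin m) F).transpose * Matrix.J (Fin m) F * (h : Matrix (Fin m ⊕ Fin m) (Fin m ⊕ Fin m) F) := ⟨_, rfl⟩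
      rw [← hJ1d] at hJ1
      have hgp : (g μ) ^ p = 1 := by
        have e : g μ = h⁻¹ * spGL m F x * h := by rw [← hh]; group
        have := conj_pow (i := p) (a := h⁻¹) (b := spGL m F x)
        rw [inv_inv] at this
        rw [e, this, hxp]
        group
      have hodd : ∀ j, Odd j → Even (μ.parts.count j) := by
        intro j hj
        rw [← hcount' μ j hj.pos]
        exact hDodd μ J1 hJ1 j hj
      obtain ⟨X, hX⟩ : ∃ X : LSp (2 * m) p, X.1 = (μ, D μ J1) :=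
        ⟨⟨(μ, D μ J1), (hle μ).2 hgp, hodd, fun j hj => ⟨(hmem μ j).1 (hDsupp μ J1 j hj).1, (hDsupp μ J1 j hj).2⟩⟩, rfl⟩
      refine ⟨X, Subtype.ext ?_⟩
      change ConjClasses.mk (y X) = ConjClasses.mk x
      rw [ConjClasses.mk_eq_mk_iff_isConj]
      have a1 := hyP X
      have b1 := hyD X
      have c1 := hyF X
      have hXμ : X.1.1 = μ := by rw [hX]
      have hXs : X.1.2 = D μ J1 := by rw [hX]
      rw [hXμ] at a1 b1 c1
      rw [hXs] at b1
      obtain ⟨c, hc1, hc2⟩ := hDP μ _ _ c1 hJ1 b1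
      -- the conjugating element
      have hkform : ((h * (P X * c)⁻¹ : GL (Fin m ⊕ Fin m) F) : Matrix (Fin m ⊕ Fin m) (Fin m ⊕ Fin m) F).transpose * Matrix.J (Fin m) F *
          ((h * (P X * c)⁻¹ : GL (Fin m ⊕ Fin m) F) : Matrix (Fin m ⊕ Fin m) (Fin m ⊕ Fin m) F) = Matrix.J (Fin m) F := by
        obtain ⟨w, hw⟩ : ∃ w : GL (Fin m ⊕ Fin m) F, w = P X * c := ⟨_, rfl⟩
        have hwv : (w : Matrix (Fin m ⊕ Fin m) (Fin m ⊕ Fin m) F) = (P X : Matrix (Fin m ⊕ Fin m) (Fin m ⊕ Fin m) F) * (c : Matrix (Fin m ⊕ Fin m) (Fin m ⊕ Fin m) F) := by rw [hw]; rfl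
        have hww : (w : Matrix (Fin m ⊕ Fin m) (Fin m ⊕ Fin m) F).transpose * Matrix.J (Fin m) F * (w : Matrix (Fin m ⊕ Fin m) (Fin m ⊕ Fin m) F) = J1 := by
          rw [← hc2, hwv, Matrix.transpose_mul]; simp only [mul_assoc]
        rw [← hw, Units.val_mul, Matrix.transpose_mul]
        have hwi : (w : Matrix (Fin m ⊕ Fin m) (Fin m ⊕ Fin m) F) * ((w⁻¹ : GL (Fin m ⊕ Fin m) F) : Matrix (Fin m ⊕ Fin m) (Fin m ⊕ Fin m) F) = 1 := Units.mul_inv w
        calc ((w⁻¹ : GL (Fin m ⊕ Fin m) F) : Matrix (Fin m ⊕ Fin m) (Fin m ⊕ Fin m) F).transpose * (h : Matrix (Fin m ⊕ Fin m) (Fin m ⊕ Fin m) F).transpose * Matrix.J (Fin m) F *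
              ((h : Matrix (Fin m ⊕ Fin m) (Fin m ⊕ Fin m) F) * ((w⁻¹ : GL (Fin m ⊕ Fin m) F) : Matrix (Fin m ⊕ Fin m) (Fin m ⊕ Fin m) F))
            = ((w⁻¹ : GL (Fin m ⊕ Fin m) F) : Matrix (Fin m ⊕ Fin m) (Fin m ⊕ Fin m) F).transpose * ((h : Matrix (Fin m ⊕ Fin m) (Fin m ⊕ Fin m) F).transpose * Matrix.J (Fin m) F *
              (h : Matrix (Fin m ⊕ Fin m) (Fin m ⊕ Fin m) F)) * ((w⁻¹ : GL (Fin m ⊕ Fin m) F) : Matrix (Fin m ⊕ Fin m) (Fin m ⊕ Fin m) F) := by simp only [mul_assoc]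
          _ = ((w⁻¹ : GL (Fin m ⊕ Fin m) F) : Matrix (Fin m ⊕ Fin m) (Fin m ⊕ Fin m) F).transpose * ((w : Matrix (Fin m ⊕ Fin m) (Fin m ⊕ Fin m) F).transpose * Matrix.J (Fin m) F *
              (w : Matrix (Fin m ⊕ Fin m) (Fin m ⊕ Fin m) F)) * ((w⁻¹ : GL (Fin m ⊕ Fin m) F) : Matrix (Fin m ⊕ Fin m) (Fin m ⊕ Fin m) F) := by rw [← hJ1d, hww]
          _ = ((w : Matrix (Fin m ⊕ Fin m) (Fin m ⊕ Fin m) F) * ((w⁻¹ : GL (Fin m ⊕ Fin m) F) : Matrix (Fin m ⊕ Fin m) (Fin m ⊕ Fin m) F)).transpose * Matrix.J (Fin m) F *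
              ((w : Matrix (Fin m ⊕ Fin m) (Fin m ⊕ Fin m) F) * ((w⁻¹ : GL (Fin m ⊕ Fin m) F) : Matrix (Fin m ⊕ Fin m) (Fin m ⊕ Fin m) F)) := by
              rw [Matrix.transpose_mul]; simp only [mul_assoc]
          _ = _ := by rw [hwi, Matrix.transpose_one, one_mul, mul_one]
      obtain ⟨k, hk⟩ := exists_spGL _ hkform
      rw [isConj_iff]
      refine ⟨k, ?_⟩
      apply spGL_injective
      rw [map_mul, map_mul, map_inv, hk]
      have e1 : spGL m F (y X) = P X * g μ * (P X)⁻¹ := by rw [← a1]; group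
      have e2 : spGL m F x = h * g μ * h⁻¹ := by rw [← hh1]; group
      have e3 : c⁻¹ * g μ * c = g μ := by rw [mul_assoc, ← hc1]; group
      rw [e1, e2]
      calc h * (P X * c)⁻¹ * (P X * g μ * (P X)⁻¹) * (h * (P X * c)⁻¹)⁻¹ = h * (c⁻¹ * g μ * c) * h⁻¹ := by group
        _ = _ := by rw [e3]
  exact (Nat.card_eq_of_bijective Φ hΦb).symm

end Cfsg.Agent.H43
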