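import Mathlib
import Cfsg.Agent.ClassSp.Order
import Cfsg.Agent.ClGeo.Symp
import Cfsg.Agent.H43.RankOne

set_option autoImplicit false
set_option linter.unusedSectionVars false
set_option linter.unusedVariables false

/-! Centralizer of a symplectic transvection, characteristic two. -/

namespace Cfsg.Agent.H43

open Matrix Cfsg.Agent.ClGeo

theorem card_orbit_stab {G X : Type*} [Group G] (act : G → X → X) (h1 : ∀ x, act 1 x = x)
    (h2 : ∀ g h x, act (g * h) x = act g (act h x)) (a : X) :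
    ∃ S : Subgroup G, (∀ g, g ∈ S ↔ act g a = a) ∧ Nat.card G = Nat.card {x // ∃ g, act g a = x} * Nat.card S := by
  let A : MulAction G X := { smul := act, one_smul := h1, mul_smul := h2 }
  refine ⟨MulAction.stabilizer G a, fun g => Iff.rfl, ?_⟩
  rw [Subgroup.card_eq_card_quotient_mul_card_subgroup (MulAction.stabilizer G a), ← Nat.card_congr (MulAction.orbitEquivQuotientStabilizer G a)]
  rfl

section
variable {F : Type*} [Field F] {m : ℕ}

theorem eq_sympTransvection (t : Matrix.symplecticGroup (Fin m) F)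
    (ht : ((t : Matrix (Fin m ⊕ Fin m) (Fin m ⊕ Fin m) F) - 1).rank = 1) :
    ∃ (a : Fin m ⊕ Fin m → F) (c : F), a ≠ 0 ∧ c ≠ 0 ∧ (t : Matrix (Fin m ⊕ Fin m) (Fin m ⊕ Fin m) F) = Cfsg.sympTransvection m a c := by
  obtain ⟨a, φ, ha, hφ, h⟩ := exists_vecMulVec_of_rank_eq_one ht
  have htx : ∀ x, (t : Matrix (Fin m ⊕ Fin m) (Fin m ⊕ Fin m) F) *ᵥ x = x + (φ ⬝ᵥ x) • a := by
    intro x
    have h1 : (t : Matrix (Fin m ⊕ Fin m) (Fin m ⊕ Fin m) F) = 1 + vecMulVec a φ := by rw [← h]; abel
    rw [h1, Matrix.add_mulVec, Matrix.one_mulVec, Matrix.vecMulVec_mulVec]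
    simp
  have hf : ∀ x y, (φ ⬝ᵥ y) * Cfsg.sympForm m F x a = (φ ⬝ᵥ x) * Cfsg.sympForm m F y a := by
    intro x y
    have h1 := sympForm_mulVec m t.2 x y
    rw [htx, htx] at h1
    simp only [sympForm_add_left, sympForm_add_right, sympForm_smul_left, sympForm_smul_right,
      sympForm_self] at h1
    rw [sympForm_neg_swap m a y] at h1
    linear_combination h1
  obtain ⟨y, hy⟩ : ∃ y, Cfsg.sympForm m F y a ≠ 0 := by
    by_contra hcon
    push Not at hcon
    exact ha (sympForm_nondeg_right m a hcon)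
  refine ⟨a, (φ ⬝ᵥ y) / Cfsg.sympForm m F y a, ha, ?_, ?_⟩
  · intro h0
    rw [div_eq_zero_iff] at h0
    have h0' := h0.resolve_right hy
    apply hφ
    apply dotProduct_eq_zero
    intro x
    have := hf x y
    rw [h0', zero_mul] at this
    exact (mul_eq_zero.1 this.symm).resolve_right hy
  · apply ext_mulVec
    intro x
    rw [htx, sympTransvection_mulVec]
    congr 2
    rw [div_mul_eq_mul_div, hf x y, mul_div_assoc, div_self hy, mul_one]

theorem card_centralizer_transvection [Fintype F] [CharP F 2] {q : ℕ} (hF : Fintype.card F = q) (hm : 1 ≤ m)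
    (t : Matrix.symplecticGroup (Fin m) F) (ht : ((t : Matrix (Fin m ⊕ Fin m) (Fin m ⊕ Fin m) F) - 1).rank = 1) :
    Nat.card ↥(Subgroup.centralizer ({t} : Set ↥(Matrix.symplecticGroup (Fin m) F))) = q ^ (2 * m - 1) * (q ^ ((m - 1) ^ 2) * ∏ i : Fin (m - 1), (q ^ (2 * ((i : ℕ) + 1)) - 1)) := by
  classical
  obtain ⟨a, c, ha, hc, htac⟩ := eq_sympTransvection t ht
  obtain ⟨S, hS, h1⟩ := card_orbit_stab (G := Matrix.symplecticGroup (Fin m) F)
    (fun g v => (g : Matrix (Fin m ⊕ Fin m) (Fin m ⊕ Fin m) F) *ᵥ v) (fun v => Matrix.one_mulVec v)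
    (fun g h v => (Matrix.mulVec_mulVec v _ _).symm) a
  have hcent : Subgroup.centralizer ({t} : Set ↥(Matrix.symplecticGroup (Fin m) F)) = S := by
    ext g
    rw [Subgroup.mem_centralizer_singleton_iff, hS]
    have h1 : (g : Matrix (Fin m ⊕ Fin m) (Fin m ⊕ Fin m) F) * t = Cfsg.sympTransvection m ((g : Matrix (Fin m ⊕ Fin m) (Fin m ⊕ Fin m) F) *ᵥ a) c * g := by
      rw [htac]
      exact conj_sympTransvection m g.2 a c
    constructor
    · intro h
      have h2 : Cfsg.sympTransvection m ((g : Matrix (Fin m ⊕ Fin m) (Fin m ⊕ Fin m) F) *ᵥ a) c = Cfsg.sympTransvection m a c := by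
        have h3 : Cfsg.sympTransvection m ((g : Matrix (Fin m ⊕ Fin m) (Fin m ⊕ Fin m) F) *ᵥ a) c * (g : Matrix (Fin m ⊕ Fin m) (Fin m ⊕ Fin m) F) = Cfsg.sympTransvection m a c * g := by
          rw [← h1, ← htac]
          have := congrArg Subtype.val h
          first
            | exact this
            | exact this.symm
        have h4 : IsUnit (g : Matrix (Fin m ⊕ Fin m) (Fin m ⊕ Fin m) F) := by
          rw [Matrix.isUnit_iff_isUnit_det]
          exact SymplecticGroup.symplectic_det g.2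
        exact h4.mul_right_cancel h3
      set b := (g : Matrix (Fin m ⊕ Fin m) (Fin m ⊕ Fin m) F) *ᵥ a with hb
      have h5 : ∀ x, Cfsg.sympForm m F x b • b = Cfsg.sympForm m F x a • a := by
        intro x
        have := congrArg (fun M : Matrix (Fin m ⊕ Fin m) (Fin m ⊕ Fin m) F => M *ᵥ x) h2
        simp only [sympTransvection_mulVec] at this
        have h6 := add_left_cancel this
        rw [mul_smul, mul_smul] at h6
        exact smul_right_injective _ hc h6
      obtain ⟨y, hy⟩ : ∃ y, Cfsg.sympForm m F y a ≠ 0 := by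
        by_contra hcon
        push Not at hcon
        exact ha (sympForm_nondeg_right m a hcon)
      have h6 := h5 y
      have hyb : Cfsg.sympForm m F y b ≠ 0 := by
        intro h0
        rw [h0, zero_smul] at h6
        exact (smul_ne_zero hy ha) h6.symm
      obtain ⟨μ, hμ⟩ : ∃ μ : F, b = μ • a := by
        refine ⟨(Cfsg.sympForm m F y b)⁻¹ * Cfsg.sympForm m F y a, ?_⟩
        rw [mul_smul, ← h6, smul_smul, inv_mul_cancel₀ hyb, one_smul]
      rw [hμ, sympForm_smul_right, smul_smul] at h6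
      have h7 : μ * Cfsg.sympForm m F y a * μ = Cfsg.sympForm m F y a := by
        have h8 : (μ * Cfsg.sympForm m F y a * μ - Cfsg.sympForm m F y a) • a = 0 := by
          rw [sub_smul, h6, sub_self]
        exact sub_eq_zero.1 ((smul_eq_zero.1 h8).resolve_right ha)
      have h8 : (μ - 1) * (μ - 1) = 0 := by
        have h9 : Cfsg.sympForm m F y a * (μ * μ - 1) = 0 := by linear_combination h7
        have h10 := (mul_eq_zero.1 h9).resolve_left hy
        have h11 : (2 : F) = 0 := CharTwo.two_eq_zero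
        linear_combination h10 + (1 - μ) * h11
      have h9 : μ = 1 := sub_eq_zero.1 (mul_self_eq_zero.1 h8)
      rw [hμ, h9, one_smul]
    · intro h
      rw [h, ← htac] at h1
      first
        | exact Subtype.ext h1
        | exact Subtype.ext h1.symm
  have horb : ∀ v, (∃ g : Matrix.symplecticGroup (Fin m) F, (g : Matrix (Fin m ⊕ Fin m) (Fin m ⊕ Fin m) F) *ᵥ a = v) ↔ v ≠ 0 := by
    intro v
    constructor
    · rintro ⟨g, rfl⟩ h0
      apply ha
      have := congrArg (fun v => ((g⁻¹ : Matrix.symplecticGroup (Fin m) F) : Matrix (Fin m ⊕ Fin m) (Fin m ⊕ Fin m) F) *ᵥ v) h0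
      simp only [Matrix.mulVec_mulVec, Matrix.mulVec_zero] at this
      rw [← Submonoid.coe_mul, inv_mul_cancel, Submonoid.coe_one, Matrix.one_mulVec] at this
      exact this
    · intro hv
      obtain ⟨g, _, hg⟩ := Cfsg.Agent.ClassSp.exists_mem_tvGroup ha hv
      exact ⟨g, hg⟩
  have h2 : Nat.card {v // ∃ g : Matrix.symplecticGroup (Fin m) F, (g : Matrix (Fin m ⊕ Fin m) (Fin m ⊕ Fin m) F) *ᵥ a = v} = q ^ (2 * m) - 1 := by
    rw [Nat.card_congr (Equiv.subtypeEquivRight horb), Nat.card_eq_fintype_card]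
    have h3 : Fintype.card {v : Fin m ⊕ Fin m → F // v ≠ 0} = Fintype.card (Fin m ⊕ Fin m → F) - 1 := by
      rw [Fintype.card_subtype_compl, Fintype.card_subtype_eq]
    refine h3.trans ?_
    rw [Fintype.card_fun, hF, Fintype.card_sum, Fintype.card_fin, two_mul]
  rw [← hcent, h2, Cfsg.Agent.ClassSp.card_fin, hF] at h1
  obtain ⟨k, rfl⟩ : ∃ k, m = k + 1 := ⟨m - 1, by omega⟩
  rw [Finset.prod_range_succ] at h1
  have hq : 1 < q := by rw [← hF]; exact Fintype.one_lt_card
  have h4 : 0 < q ^ (2 * (k + 1)) - 1 := Nat.sub_pos_of_lt (Nat.one_lt_pow (by omega) hq)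
  apply Nat.eq_of_mul_eq_mul_left h4
  rw [← h1]
  have e1 : k + 1 - 1 = k := rfl
  rw [e1, Finset.prod_range]
  have e2 : q ^ ((k + 1) ^ 2) = q ^ (2 * (k + 1) - 1) * q ^ (k ^ 2) := by
    rw [← pow_add]
    congr 1
    have : 2 * (k + 1) - 1 = 2 * k + 1 := by omega
    rw [this]
    ring
  rw [e2]
  ring

end

end Cfsg.Agent.H43
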