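import Mathlib

set_option autoImplicit false

/-! Arithmetic of the 2-part and powers in finite fields. -/

namespace Cfsg.Agent.H43

theorem gcd_dvd_half {m N : ℕ} (hN : N ≠ 0) (h : padicValNat 2 m < padicValNat 2 N) (hm : m ≠ 0) :
    Nat.gcd m N ∣ N / 2 := by
  obtain ⟨e, he⟩ := Nat.gcd_dvd_right m N
  have hd0 : Nat.gcd m N ≠ 0 := fun h0 => hN (Nat.gcd_eq_zero_iff.1 h0).2
  have he0 : e ≠ 0 := by
    rintro rfl
    rw [mul_zero] at he
    exact hN he
  have h1 : padicValNat 2 (Nat.gcd m N) ≤ padicValNat 2 m :=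
    (padicValNat_dvd_iff_le hm).1 ((pow_padicValNat_dvd).trans (Nat.gcd_dvd_left m N))
  have h2 : padicValNat 2 N = padicValNat 2 (Nat.gcd m N) + padicValNat 2 e := by
    conv_lhs => rw [he]
    exact padicValNat.mul hd0 he0
  have h3 : 2 ∣ e := dvd_of_one_le_padicValNat (by omega)
  obtain ⟨e', rfl⟩ := h3
  refine ⟨e', ?_⟩
  have : N = 2 * (Nat.gcd m N * e') := he.trans (by ring)
  omega

variable {F : Type*} [Field F] [Fintype F]

theorem pow_card_half_sq (hq : Odd (Fintype.card F)) (c : F) (hc : c ≠ 0) :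
    c ^ ((Fintype.card F - 1) / 2) = 1 ∨ c ^ ((Fintype.card F - 1) / 2) = -1 := by
  have h1 : (c ^ ((Fintype.card F - 1) / 2)) ^ 2 = 1 := by
    rw [← pow_mul]
    have : (Fintype.card F - 1) / 2 * 2 = Fintype.card F - 1 := by
      obtain ⟨k, hk⟩ := hq
      omega
    rw [this, FiniteField.pow_card_sub_one_eq_one c hc]
  exact sq_eq_one_iff.1 h1

/-- If `v₂(n) < v₂(q - 1)` then `-1` is an `n`-th power. -/
theorem exists_pow_eq_neg_one (hq : Odd (Fintype.card F)) {n : ℕ} (hn : n ≠ 0)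
    (h : padicValNat 2 n < padicValNat 2 (Fintype.card F - 1)) : ∃ c : F, c ≠ 0 ∧ c ^ n = -1 := by
  have hq1 : 1 < Fintype.card F := Fintype.one_lt_card
  obtain ⟨g, hg⟩ := IsCyclic.exists_ofOrder_eq_natCard (α := Fˣ)
  rw [Nat.card_units, Nat.card_eq_fintype_card] at hg
  -- write `n = 2^k m`, `q - 1 = 2^(k+1) e`
  obtain ⟨m, hm⟩ : 2 ^ padicValNat 2 n ∣ n := pow_padicValNat_dvd
  obtain ⟨k, hk⟩ : ∃ k, k = padicValNat 2 n := ⟨_, rfl⟩
  rw [← hk] at hm h
  obtain ⟨e, he⟩ : 2 ^ (k + 1) ∣ Fintype.card F - 1 :=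
    (padicValNat_dvd_iff_le (by omega)).2 (by omega)
  have hmodd : Odd m := by
    rw [← Nat.not_even_iff_odd]
    rintro hme
    obtain ⟨m', hm'⟩ := hme.two_dvd
    have : 2 ^ (k + 1) ∣ n := ⟨m', by rw [hm, hm']; ring⟩
    have := (padicValNat_dvd_iff_le hn).1 this
    omega
  refine ⟨((g ^ e : Fˣ) : F), Units.ne_zero _, ?_⟩
  have h1 : ((g ^ e : Fˣ) : F) ^ (2 ^ k) = -1 := by
    have h2 : (((g ^ e : Fˣ) : F) ^ (2 ^ k)) ^ 2 = 1 := by
      rw [← pow_mul, ← Units.val_pow_eq_pow_val, ← pow_mul,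
        show e * (2 ^ k * 2) = 2 ^ (k + 1) * e by ring, ← he, ← hg,
        pow_orderOf_eq_one, Units.val_one]
    refine (sq_eq_one_iff.1 h2).resolve_left ?_
    intro h3
    rw [← Units.val_pow_eq_pow_val, Units.val_eq_one, ← pow_mul] at h3
    have h4 := orderOf_dvd_of_pow_eq_one h3
    rw [hg, he, show 2 ^ (k + 1) * e = e * 2 ^ k * 2 by ring] at h4
    have h5 : 0 < e * 2 ^ k := by
      rcases Nat.eq_zero_or_pos e with h0 | h0
      · rw [h0, mul_zero] at he
        omega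
      · positivity
    have := Nat.le_of_dvd h5 h4
    omega
  rw [hm, pow_mul, h1]
  exact hmodd.neg_one_pow

/-- If `-1` is an `n`-th power then `v₂(n) < v₂(q - 1)`. -/
theorem lt_of_pow_eq_neg_one (hq : Odd (Fintype.card F)) {n : ℕ} (hn : n ≠ 0) {c : F} (hc : c ≠ 0)
    (h : c ^ n = -1) : padicValNat 2 n < padicValNat 2 (Fintype.card F - 1) := by
  have hq1 : 1 < Fintype.card F := Fintype.one_lt_card
  by_contra hcon
  push Not at hcon
  have h2 : (-1 : F) ≠ 1 := by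
    have h5 : ringChar F ≠ 2 := by
      intro h6
      have h7 := FiniteField.even_card_iff_char_two.1 h6
      exact Nat.not_even_iff_odd.2 hq (Nat.even_iff.2 h7)
    exact Ring.neg_one_ne_one_of_char_ne_two h5
  -- the odd part of `q - 1`
  obtain ⟨e, he⟩ : 2 ^ padicValNat 2 (Fintype.card F - 1) ∣ Fintype.card F - 1 := pow_padicValNat_dvd
  have heodd : Odd e := by
    rw [← Nat.not_even_iff_odd]
    rintro hee
    obtain ⟨e', he'⟩ := hee.two_dvd
    have : 2 ^ (padicValNat 2 (Fintype.card F - 1) + 1) ∣ Fintype.card F - 1 := ⟨e', by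
      rw [he']  at he
      rw [pow_succ, mul_assoc]
      exact he⟩
    have := (padicValNat_dvd_iff_le (by omega)).1 this
    omega
  obtain ⟨m, hm⟩ : 2 ^ padicValNat 2 (Fintype.card F - 1) ∣ n := (padicValNat_dvd_iff_le hn).2 hcon
  have h3 : (c ^ n) ^ e = 1 := by
    rw [← pow_mul, hm, show 2 ^ padicValNat 2 (Fintype.card F - 1) * m * e = (2 ^ padicValNat 2 (Fintype.card F - 1) * e) * m by ring,
      ← he, pow_mul, FiniteField.pow_card_sub_one_eq_one c hc, one_pow]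
  rw [h, heodd.neg_one_pow] at h3
  exact h2 h3

end Cfsg.Agent.H43
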